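/-
helper81 library (S4481, Brauer: the principal 2-block of a group with dihedral Sylow
2-subgroup of order 2^n, n ≥ 3): the exact statements of the pieces of the team project.
Every piece is a theorem of type `StmtXxx.{u}`.
-/
import Mathlib
import Cfsg.Prelude.Def_Blocks
import Cfsg.Agent.H84.DihDefs

set_option autoImplicit false

namespace Cfsg.Agent.H81.DihB

universe u

/-- HYP: a dihedral Sylow 2-subgroup and an element of maximal order give the package `Hyp`. -/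
def StmtHyp : Prop :=
  ∀ {G : Type u} [Group G] (n : ℕ), 3 ≤ n → ∀ (P : Sylow 2 G),
    Nonempty ((P : Subgroup G) ≃* DihedralGroup (2 ^ (n - 1))) →
    ∀ σ : G, σ ∈ (P : Subgroup G) → orderOf σ = 2 ^ (n - 1) →
    ∃ τ : G, Cfsg.Agent.H84.Dih.Hyp n P σ τ

/-- COLSODD: the column of `σ ^ l` of the principal block is orthogonal to every column of an
element of odd order. -/
def StmtColsOdd : Prop :=
  ∀ {G : Type u} [Group G] [Finite G] (n : ℕ) (P : Sylow 2 G) (σ τ : G) (X : Subgroup G),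
    Cfsg.Agent.H84.Dih.Hyp n P σ τ → Cfsg.Agent.H84.Dih.Core n P σ X →
    ∀ (M : Ideal Cfsg.AlgInt), Cfsg.IsPModular 2 M →
    ∀ g : G, Odd (orderOf g) → ∀ l : ℕ, 0 < l → l < 2 ^ (n - 1) →
      ∑ᶠ χ ∈ Cfsg.principalBlock M G, (χ : G → ℂ) g * (χ : G → ℂ) (σ ^ l) = 0

/-- NOZERO: no character of the principal 2-block vanishes at the central involution. -/
def StmtNoZero : Prop :=
  ∀ {G : Type u} [Group G] [Finite G] (n : ℕ) (P : Sylow 2 G) (σ τ : G),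
    Cfsg.Agent.H84.Dih.Hyp n P σ τ →
    ∀ (M : Ideal Cfsg.AlgInt), Cfsg.IsPModular 2 M →
    ∀ χ : Cfsg.IrrCharacter G, χ ∈ Cfsg.principalBlock M G →
      (χ : G → ℂ) (σ ^ (2 ^ (n - 2))) ≠ 0

/-- The lattice data: integer vectors `u · k` (`0 < k < m = 2h`) with the Gram matrix
`2 + [k = k'] + [k + k' = m]`, orthogonal to the positive degree vector `d`, and a coordinate
`i₀` with `d i₀ = 1`, `u i₀ k = -1`. -/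
structure Lat {ι : Type u} [Fintype ι] (m h : ℕ) (d : ι → ℕ) (u : ι → ℕ → ℤ) (i₀ : ι) :
    Prop where
  hm : m = 2 * h
  hh : 2 ≤ h
  he : Even h
  hd : ∀ i, 0 < d i
  hG : ∀ k k' : ℕ, 0 < k → k < m → 0 < k' → k' < m →
    ∑ i, u i k * u i k' = 2 + (if k = k' then 1 else 0) + (if k + k' = m then 1 else 0)
  hD : ∀ k : ℕ, 0 < k → k < m → ∑ i, u i k * (d i : ℤ) = 0
  hd0 : d i₀ = 1
  hu0 : ∀ k : ℕ, 0 < k → k < m → u i₀ k = -1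

/-- The shape of a generic vector `u · k` (`k ≠ h`): `-1` at `x`, `+1` at `y`, `0` elsewhere
outside `i₀`. -/
def GenAt {ι : Type u} (u : ι → ℕ → ℤ) (i₀ : ι) (k : ℕ) (x y : ι) : Prop :=
  x ≠ i₀ ∧ y ≠ i₀ ∧ x ≠ y ∧ u x k = -1 ∧ u y k = 1 ∧
    ∀ i, i ≠ i₀ → i ≠ x → i ≠ y → u i k = 0

/-- LATA: the generic vectors, and the symmetry `k ↦ m - k`. -/
def StmtLatA : Prop :=
  ∀ {ι : Type u} [Fintype ι] (m h : ℕ) (d : ι → ℕ) (u : ι → ℕ → ℤ) (i₀ : ι),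
    Lat m h d u i₀ →
    (∀ k, 0 < k → k < m → k ≠ h → ∃ x y : ι, GenAt u i₀ k x y) ∧
    (∀ k, 0 < k → k < m → ∀ i, u i (m - k) = u i k)

/-- All generic vectors share the coordinate `i₁` (with entry `-δ₁`); the other nonzero
coordinate of `u · k` is `j k` (with entry `δ₁`). -/
def Common {ι : Type u} (m h : ℕ) (u : ι → ℕ → ℤ) (i₀ i₁ : ι) (δ₁ : ℤ) (j : ℕ → ι) : Prop :=
  (δ₁ = 1 ∨ δ₁ = -1) ∧ i₁ ≠ i₀ ∧
  (∀ k, 0 < k → k < m → k ≠ h →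
    j k ≠ i₀ ∧ j k ≠ i₁ ∧ u i₁ k = -δ₁ ∧ u (j k) k = δ₁ ∧
      ∀ i, i ≠ i₀ → i ≠ i₁ → i ≠ j k → u i k = 0) ∧
  (∀ k k', 0 < k → k < m → k ≠ h → 0 < k' → k' < m → k' ≠ h → j k = j k' →
    k = k' ∨ k + k' = m)

/-- LATC: the common coordinate. -/
def StmtLatC : Prop :=
  ∀ {ι : Type u} [Fintype ι] (m h : ℕ) (d : ι → ℕ) (u : ι → ℕ → ℤ) (i₀ : ι),
    Lat m h d u i₀ →
    (∀ k, 0 < k → k < m → k ≠ h → ∃ x y : ι, GenAt u i₀ k x y) →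
    (∀ k, 0 < k → k < m → ∀ i, u i (m - k) = u i k) →
    ∃ (i₁ : ι) (δ₁ : ℤ) (j : ℕ → ι), Common m h u i₀ i₁ δ₁ j

/-- The final shape of the whole matrix `u`. -/
def Final {ι : Type u} (m h : ℕ) (u : ι → ℕ → ℤ) (i₀ i₁ i₂ i₃ : ι) (j : Fin (h - 1) → ι)
    (δ₁ ε₂ ε₃ : ℤ) : Prop :=
  (δ₁ = 1 ∨ δ₁ = -1) ∧ (ε₂ = 1 ∨ ε₂ = -1) ∧ (ε₃ = 1 ∨ ε₃ = -1) ∧ Function.Injective j ∧
  i₁ ≠ i₀ ∧ i₂ ≠ i₀ ∧ i₃ ≠ i₀ ∧ i₁ ≠ i₂ ∧ i₁ ≠ i₃ ∧ i₂ ≠ i₃ ∧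
  (∀ t, j t ≠ i₀ ∧ j t ≠ i₁ ∧ j t ≠ i₂ ∧ j t ≠ i₃) ∧
  ∀ k, 0 < k → k < m →
    u i₁ k = -δ₁ ∧ u i₂ k = (if k = h then ε₂ else 0) ∧ u i₃ k = (if k = h then ε₃ else 0) ∧
    (∀ t : Fin (h - 1),
      u (j t) k = if (k = (t : ℕ) + 1 ∨ k + ((t : ℕ) + 1) = m) then δ₁ else 0) ∧
    ∀ i, i ≠ i₀ → i ≠ i₁ → i ≠ i₂ → i ≠ i₃ → (∀ t, i ≠ j t) → u i k = 0

/-- LATD: the vector `u · h` and the final shape. -/
def StmtLatD : Prop :=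
  ∀ {ι : Type u} [Fintype ι] (m h : ℕ) (d : ι → ℕ) (u : ι → ℕ → ℤ) (i₀ : ι),
    Lat m h d u i₀ →
    (∀ k, 0 < k → k < m → ∀ i, u i (m - k) = u i k) →
    ∀ (i₁ : ι) (δ₁ : ℤ) (j : ℕ → ι), Common m h u i₀ i₁ δ₁ j →
    ∃ (i₁' i₂ i₃ : ι) (j' : Fin (h - 1) → ι) (δ₁' ε₂ ε₃ : ℤ),
      Final m h u i₀ i₁' i₂ i₃ j' δ₁' ε₂ ε₃

/-- FOUR: the Fourier sums of the four row shapes. -/
def StmtFour : Prop :=
  ∀ (m h : ℕ) (ζ : ℂ), m = 2 * h → 2 ≤ h → IsPrimitiveRoot ζ m →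
    ∀ (v : ℕ → ℤ), v 0 = 0 → ∀ l : ℕ, 0 < l → l < m →
    (∀ δ : ℤ, (∀ k, 0 < k → k < m → v k = -δ) →
      ∑ k ∈ Finset.range m, (v k : ℂ) * ζ ^ (k * l) = (δ : ℂ)) ∧
    (∀ ε : ℤ, (∀ k, 0 < k → k < m → v k = if k = h then ε else 0) →
      ∑ k ∈ Finset.range m, (v k : ℂ) * ζ ^ (k * l) = -(ε : ℂ) * (-1) ^ (l + 1)) ∧
    (∀ (δ : ℤ) (t : ℕ), t + 1 < h →
      (∀ k, 0 < k → k < m → v k = if (k = t + 1 ∨ k + (t + 1) = m) then δ else 0) →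
      ∑ k ∈ Finset.range m, (v k : ℂ) * ζ ^ (k * l) =
        (δ : ℂ) * (ζ ^ ((t + 1) * l) + (ζ ^ ((t + 1) * l))⁻¹)) ∧
    ((∀ k, 0 < k → k < m → v k = 0) →
      ∑ k ∈ Finset.range m, (v k : ℂ) * ζ ^ (k * l) = 0)

/-- REL: Fourier inversion turns column orthogonality into a relation on the rows `u · k`. -/
def StmtRel : Prop :=
  ∀ {ι : Type u} [Fintype ι] (m : ℕ) (ζ : ℂ), 0 < m → IsPrimitiveRoot ζ m →
    ∀ (a : ι → ℕ → ℕ) (w : ι → ℕ → ℂ) (c : ι → ℂ),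
    (∀ i (k : ℕ), k < m →
      (m : ℂ) * (a i k : ℂ) = ∑ l ∈ Finset.range m, w i l * (ζ ^ (k * l))⁻¹) →
    (∀ l : ℕ, 0 < l → l < m → ∑ i, c i * w i l = 0) →
    ∀ k : ℕ, 0 < k → k < m → ∑ i, (((a i k : ℤ) - (a i 0 : ℤ) : ℤ) : ℂ) * c i = 0

end Cfsg.Agent.H81.DihB
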