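import Mathlib
import Cfsg.Prelude.Def_OddOrderChar
import Cfsg.Prelude.Def_OddOrderLocal

/-!
# S1502 team project (cyclic TI family, Peterfalvi (3.2)): exact statements of the pieces

Vectors are functions `ι → ℤ`; an array is `X : I → J → ι → ℤ`.
-/

set_option autoImplicit false

namespace Cfsg.Agent.H81.Cyc

open Cfsg

universe u

/-- All entries are `0`, `1` or `-1`. -/
def Val {ι : Type u} (v : ι → ℤ) : Prop := ∀ t, v t = 0 ∨ v t = 1 ∨ v t = -1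

/-- The support consists of exactly three coordinates. -/
def Supp3 {ι : Type u} (v : ι → ℤ) : Prop :=
  ∃ t₁ t₂ t₃, t₁ ≠ t₂ ∧ t₁ ≠ t₃ ∧ t₂ ≠ t₃ ∧ ∀ t, v t ≠ 0 ↔ (t = t₁ ∨ t = t₂ ∨ t = t₃)

/-- Exactly one common support coordinate, and the two values there agree. -/
def Mate {ι : Type u} (v w : ι → ℤ) : Prop :=
  ∃ t, v t ≠ 0 ∧ v t = w t ∧ ∀ s, s ≠ t → v s = 0 ∨ w s = 0

/-- Disjoint supports, or exactly two common support coordinates, the values agreeing at one of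
them and being opposite at the other. -/
def NonMate {ι : Type u} (v w : ι → ℤ) : Prop :=
  (∀ s, v s = 0 ∨ w s = 0) ∨
    ∃ t r, t ≠ r ∧ v t ≠ 0 ∧ v t = w t ∧ v r ≠ 0 ∧ v r = -w r ∧
      ∀ s, s ≠ t → s ≠ r → v s = 0 ∨ w s = 0

/-- The Gram hypotheses on an array (`d` = degrees). -/
structure Arr {I J ι : Type u} [Fintype ι] (d : ι → ℤ) (X : I → J → ι → ℤ) : Prop where
  hd : ∀ t, 0 < d t
  h3 : ∀ i j, ∑ t, X i j t * X i j t = 3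
  hr : ∀ i j j', j ≠ j' → ∑ t, X i j t * X i j' t = 1
  hc : ∀ i i' j, i ≠ i' → ∑ t, X i j t * X i' j t = 1
  h0 : ∀ i i' j j', i ≠ i' → j ≠ j' → ∑ t, X i j t * X i' j' t = 0
  hD : ∀ i j, ∑ t, X i j t * d t = -1

/-- The combinatorial shadow of `Arr`. -/
structure Comb {I J ι : Type u} (X : I → J → ι → ℤ) : Prop where
  val : ∀ i j, Val (X i j)
  supp : ∀ i j, Supp3 (X i j)
  row : ∀ i j j', j ≠ j' → Mate (X i j) (X i j')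
  col : ∀ i i' j, i ≠ i' → Mate (X i j) (X i' j)
  non : ∀ i i' j j', i ≠ i' → j ≠ j' → NonMate (X i j) (X i' j')

/-- The standard shape: `X i j = ea i • e_(a i) + eb j • e_(b j) + ec i j • e_(c i j)`. -/
def Std {I J ι : Type u} (X : I → J → ι → ℤ) : Prop :=
  ∃ (a : I → ι) (b : J → ι) (c : I → J → ι) (ea : I → ℤ) (eb : J → ℤ) (ec : I → J → ℤ),
    (∀ i, ea i = 1 ∨ ea i = -1) ∧ (∀ j, eb j = 1 ∨ eb j = -1) ∧
    (∀ i j, ec i j = 1 ∨ ec i j = -1) ∧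
    Function.Injective a ∧ Function.Injective b ∧ (∀ i j k l, c i j = c k l → i = k ∧ j = l) ∧
    (∀ i j, a i ≠ b j) ∧ (∀ i k l, a i ≠ c k l) ∧ (∀ j k l, b j ≠ c k l) ∧
    (∀ i j, X i j (a i) = ea i) ∧ (∀ i j, X i j (b j) = eb j) ∧ (∀ i j, X i j (c i j) = ec i j) ∧
    ∀ i j t, t ≠ a i → t ≠ b j → t ≠ c i j → X i j t = 0

/-! ### Lattice pieces -/

/-- VEC3. -/
def StmtVec3 : Prop :=
  ∀ {ι : Type u} [Fintype ι] (v : ι → ℤ), ∑ t, v t * v t = 3 → Val v ∧ Supp3 v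

/-- DOT. -/
def StmtDot : Prop :=
  ∀ {ι : Type u} [Fintype ι] (d v w : ι → ℤ), (∀ t, 0 < d t) → Val v → Supp3 v → Val w → Supp3 w →
    (∑ t, v t * w t = 1 → ∑ t, v t * d t = ∑ t, w t * d t → Mate v w) ∧
    (∑ t, v t * w t = 0 → NonMate v w)

/-- NOTRANS. -/
def StmtNoTrans : Prop :=
  ∀ {I J ι : Type u} (X : I → J → ι → ℤ), Comb X → ∀ (i k : I), i ≠ k →
    ∀ (j₁ j₂ j₃ j₄ : J), j₁ ≠ j₂ → j₁ ≠ j₃ → j₁ ≠ j₄ → j₂ ≠ j₃ → j₂ ≠ j₄ → j₃ ≠ j₄ →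
    ∀ x, X i j₁ x ≠ 0 → X i j₂ x ≠ 0 → X i j₃ x ≠ 0 → X i j₄ x ≠ 0

/-- SUN. -/
def StmtSun : Prop :=
  ∀ {I J ι : Type u} (X : I → J → ι → ℤ), Comb X → ∀ (i k : I), i ≠ k →
    ∀ (j₁ j₂ j₃ j₄ : J), j₁ ≠ j₂ → j₁ ≠ j₃ → j₁ ≠ j₄ → j₂ ≠ j₃ → j₂ ≠ j₄ → j₃ ≠ j₄ →
    ∃ x, X i j₁ x ≠ 0 ∧ X i j₂ x ≠ 0 ∧ X i j₃ x ≠ 0 ∧ X i j₄ x ≠ 0

/-- PAIR. -/
def StmtPair : Prop :=
  ∀ {I J ι : Type u} (X : I → J → ι → ℤ), Comb X → ∀ (i k : I), i ≠ k →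
    ∀ (j₀ j₁ j₂ j₃ : J), j₀ ≠ j₁ → j₀ ≠ j₂ → j₀ ≠ j₃ → j₁ ≠ j₂ → j₁ ≠ j₃ → j₂ ≠ j₃ →
    ∀ x y : ι, X i j₀ x ≠ 0 → X i j₁ x ≠ 0 → X i j₂ x ≠ 0 → X i j₃ x ≠ 0 →
      X k j₀ y ≠ 0 → X k j₁ y ≠ 0 → X k j₂ y ≠ 0 → X k j₃ y ≠ 0 → X i j₀ y = 0

/-- COL4. -/
def StmtCol4 : Prop :=
  ∀ {I ι : Type u} (C : I → ι → ℤ), (∀ i, Val (C i)) → (∀ i, Supp3 (C i)) →
    (∀ i k, i ≠ k → Mate (C i) (C k)) →
    ∀ a : I → ι, (∀ i, C i (a i) ≠ 0) → (∀ i k, i ≠ k → C i (a k) = 0) →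
    ∀ (i₁ i₂ i₃ i₄ : I), i₁ ≠ i₂ → i₁ ≠ i₃ → i₁ ≠ i₄ → i₂ ≠ i₃ → i₂ ≠ i₄ → i₃ ≠ i₄ →
    ∃ b, C i₁ b ≠ 0 ∧ C i₂ b ≠ 0 ∧ C i₃ b ≠ 0 ∧ C i₄ b ≠ 0

/-- ASM. -/
def StmtAsm : Prop :=
  ∀ {I J ι : Type u} (X : I → J → ι → ℤ), Comb X → Nonempty I → Nonempty J →
    ∀ (a : I → ι) (b : J → ι), (∀ i j, X i j (a i) ≠ 0) →
      (∀ i k, i ≠ k → ∀ j, X i j (a k) = 0) → (∀ i j, X i j (b j) ≠ 0) → (∀ i j, b j ≠ a i) →
      Std X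

/-! ### Character pieces -/

/-- Nontrivial linear characters of `W₁ ⊔ W₂` trivial on `W₂`. -/
abbrev IdxL {G : Type u} [Group G] (W₁ W₂ : Subgroup G) : Type u :=
  {φ : ↥(W₁ ⊔ W₂) →* ℂˣ // φ ≠ 1 ∧ ∀ w : ↥(W₁ ⊔ W₂), (w : G) ∈ W₂ → φ w = 1}

/-- Nontrivial linear characters of `W₁ ⊔ W₂` trivial on `W₁`. -/
abbrev IdxR {G : Type u} [Group G] (W₁ W₂ : Subgroup G) : Type u :=
  {ψ : ↥(W₁ ⊔ W₂) →* ℂˣ // ψ ≠ 1 ∧ ∀ w : ↥(W₁ ⊔ W₂), (w : G) ∈ W₁ → ψ w = 1}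

/-- `IsCyclicTIFamily` without the field `eq_on`, and with `orthonormal` split in two. -/
structure PreFamily {G : Type u} [Group G] [Fintype G] (W₁ W₂ : Subgroup G)
    (χ : (↥(W₁ ⊔ W₂) →* ℂˣ) → (G → ℂ)) : Prop where
  irr_or_neg : ∀ ω, IsIrrCharacter G (χ ω) ∨ IsIrrCharacter G (-χ ω)
  norm_one : ∀ ω, classInner (χ ω) (χ ω) = 1
  orth : ∀ ω ω', ω ≠ ω' → classInner (χ ω) (χ ω') = 0
  map_one : χ 1 = fun _ => 1
  induced_eq : ∀ φ ψ : ↥(W₁ ⊔ W₂) →* ℂˣ, φ ≠ 1 → ψ ≠ 1 →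
    (∀ w : ↥(W₁ ⊔ W₂), (w : G) ∈ W₂ → φ w = 1) → (∀ w : ↥(W₁ ⊔ W₂), (w : G) ∈ W₁ → ψ w = 1) →
    indFun (W₁ ⊔ W₂) (fun w => 1 - (φ w : ℂ) - (ψ w : ℂ) + (φ w : ℂ) * (ψ w : ℂ)) =
      fun g => 1 - χ φ g - χ ψ g + χ (φ * ψ) g

/-- GRAM. -/
def StmtGram : Prop :=
  ∀ {G : Type u} [Group G] [Fintype G] [Fintype (IrrCharacter G)] (W₁ W₂ : Subgroup G),
    IsSelfNormalizingCyclic W₁ W₂ →
    ∃ (d : IrrCharacter G → ℤ) (X : IdxL W₁ W₂ → IdxR W₁ W₂ → IrrCharacter G → ℤ),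
      Arr d X ∧
      (∀ i j (χ : IrrCharacter G), (χ : G → ℂ) = (fun _ => 1) → X i j χ = 0) ∧
      ∀ i j (g : G),
        indFun (W₁ ⊔ W₂)
          (fun w => 1 - (i.1 w : ℂ) - (j.1 w : ℂ) + (i.1 w : ℂ) * (j.1 w : ℂ)) g =
          1 + ∑ χ : IrrCharacter G, (X i j χ : ℂ) * (χ : G → ℂ) g

/-- CARD. -/
def StmtCard : Prop :=
  ∀ {G : Type u} [Group G] [Fintype G] (W₁ W₂ : Subgroup G),
    IsSelfNormalizingCyclic W₁ W₂ → Odd (Nat.card ↥(W₁ ⊔ W₂)) →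
    (2 ≤ Nat.card (IdxL W₁ W₂) ∧ Nat.card (IdxL W₁ W₂) ≠ 3 ∧ 4 ≤ Nat.card (IdxR W₁ W₂)) ∨
    (2 ≤ Nat.card (IdxR W₁ W₂) ∧ Nat.card (IdxR W₁ W₂) ≠ 3 ∧ 4 ≤ Nat.card (IdxL W₁ W₂))

/-- FAM. -/
def StmtFam : Prop :=
  ∀ {G : Type u} [Group G] [Fintype G] [Fintype (IrrCharacter G)] (W₁ W₂ : Subgroup G),
    IsSelfNormalizingCyclic W₁ W₂ →
    ∀ X : IdxL W₁ W₂ → IdxR W₁ W₂ → IrrCharacter G → ℤ, Std X →
      (∀ i j (χ : IrrCharacter G), (χ : G → ℂ) = (fun _ => 1) → X i j χ = 0) →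
      (∀ i j (g : G),
        indFun (W₁ ⊔ W₂)
          (fun w => 1 - (i.1 w : ℂ) - (j.1 w : ℂ) + (i.1 w : ℂ) * (j.1 w : ℂ)) g =
          1 + ∑ χ : IrrCharacter G, (X i j χ : ℂ) * (χ : G → ℂ) g) →
      ∃ χ : (↥(W₁ ⊔ W₂) →* ℂˣ) → (G → ℂ), PreFamily W₁ W₂ χ

/-- EQON. -/
def StmtEqOn : Prop :=
  ∀ {G : Type u} [Group G] [Fintype G] (W₁ W₂ : Subgroup G),
    IsSelfNormalizingCyclic W₁ W₂ →
    ∀ χ : (↥(W₁ ⊔ W₂) →* ℂˣ) → (G → ℂ), PreFamily W₁ W₂ χ →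
      ∀ (ω : ↥(W₁ ⊔ W₂) →* ℂˣ) (w : ↥(W₁ ⊔ W₂)), (w : G) ∉ W₁ → (w : G) ∉ W₂ →
        χ ω w = (ω w : ℂ)

/-! ### A small toolkit -/

theorem Mate.symm {ι : Type u} {v w : ι → ℤ} (h : Mate v w) : Mate w v := by
  obtain ⟨t, h1, h2, h3⟩ := h
  exact ⟨t, by rw [← h2]; exact h1, h2.symm, fun s hs => (h3 s hs).symm⟩

theorem NonMate.symm {ι : Type u} {v w : ι → ℤ} (h : NonMate v w) : NonMate w v := by
  rcases h with h | ⟨t, r, htr, h1, h2, h3, h4, h5⟩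
  · exact Or.inl fun s => (h s).symm
  · refine Or.inr ⟨t, r, htr, by rw [← h2]; exact h1, h2.symm, ?_, by rw [h4]; ring,
      fun s hs hs' => (h5 s hs hs').symm⟩
    intro h0
    rw [h4, h0] at h3
    exact h3 (by ring)

/-- If two mates are both nonzero at `s`, then `s` is their unique common coordinate. -/
theorem Mate.at {ι : Type u} {v w : ι → ℤ} (h : Mate v w) {s : ι} (hv : v s ≠ 0) (hw : w s ≠ 0) :
    v s = w s ∧ ∀ s', s' ≠ s → v s' = 0 ∨ w s' = 0 := by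
  obtain ⟨t, h1, h2, h3⟩ := h
  have hst : s = t := by
    by_contra hne
    rcases h3 s hne with h | h
    · exact hv h
    · exact hw h
  subst hst
  exact ⟨h2, h3⟩

/-- Non-mates agreeing (nonzero) at `s` have exactly one more common coordinate, with opposite
values. -/
theorem NonMate.of_eq {ι : Type u} {v w : ι → ℤ} (h : NonMate v w) {s : ι} (hv : v s ≠ 0)
    (hvw : v s = w s) :
    ∃ r, r ≠ s ∧ v r ≠ 0 ∧ v r = -w r ∧ ∀ s', s' ≠ s → s' ≠ r → v s' = 0 ∨ w s' = 0 := by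
  rcases h with h | ⟨t, r, htr, h1, h2, h3, h4, h5⟩
  · rcases h s with h | h
    · exact absurd h hv
    · exact absurd (hvw.trans h) hv
  · by_cases hst : s = t
    · subst hst
      exact ⟨r, fun e => htr e.symm, h3, h4, h5⟩
    · by_cases hsr : s = r
      · subst hsr
        exfalso
        rw [hvw] at h4
        have : w s = 0 := by linarith
        exact hv (hvw.trans this)
      · rcases h5 s hst hsr with h | h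
        · exact absurd h hv
        · exact absurd (hvw.trans h) hv

/-- Non-mates opposite (nonzero) at `s` have exactly one more common coordinate, with equal
values. -/
theorem NonMate.of_neg {ι : Type u} {v w : ι → ℤ} (h : NonMate v w) {s : ι} (hv : v s ≠ 0)
    (hvw : v s = -w s) :
    ∃ t, t ≠ s ∧ v t ≠ 0 ∧ v t = w t ∧ ∀ s', s' ≠ s → s' ≠ t → v s' = 0 ∨ w s' = 0 := by
  rcases h with h | ⟨t, r, htr, h1, h2, h3, h4, h5⟩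
  · rcases h s with h | h
    · exact absurd h hv
    · rw [h] at hvw
      exact absurd (by simpa using hvw) hv
  · by_cases hsr : s = r
    · subst hsr
      exact ⟨t, htr, h1, h2, fun s' hs hs' => h5 s' hs' hs⟩
    · by_cases hst : s = t
      · subst hst
        exfalso
        rw [hvw] at h2
        have : w s = 0 := by linarith
        rw [this] at hvw
        exact hv (by simpa using hvw)
      · rcases h5 s hst hsr with h | h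
        · exact absurd h hv
        · rw [h] at hvw
          exact absurd (by simpa using hvw) hv

end Cfsg.Agent.H81.Cyc
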