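import Mathlib
import Cfsg.Prelude.Def_Blocks
import Cfsg.Agent.H82.Extra
import Cfsg.Agent.H82.IndDeg
import Cfsg.Agent.H4.IrrCount

set_option autoImplicit false
set_option linter.style.haveILetI false

/-!
# Counting characters of odd degree in 2-groups and in a group of order 24
-/

universe u

namespace Cfsg.Agent.H81.McKay

theorem card_odd_degree_two_group {N : Type u} [Group N] [Finite N] (k : ℕ)
    (hN : Nat.card N = 2 ^ k) :
    Nat.card {χ : Cfsg.IrrCharacter N // ¬ 2 ∣ Cfsg.charDegree (χ : N → ℂ)} =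
      (commutator N).index := by
  classical
  letI := Cfsg.Agent.H4.fintypeIrr N
  rw [Nat.card_eq_fintype_card, Fintype.card_subtype, ← Cfsg.Agent.H82.card_filter_linear]
  congr 1
  apply Finset.filter_congr
  intro χ _
  have hdvd := Cfsg.Agent.H82.charDegree_dvd_card χ
  rw [hN] at hdvd
  obtain ⟨j, hj, hjeq⟩ := (Nat.dvd_prime_pow Nat.prime_two).mp hdvd
  rw [hjeq]
  constructor
  · intro h
    rcases Nat.eq_zero_or_pos j with h0 | h0
    · rw [h0, pow_zero]
    · exact absurd (dvd_pow_self 2 h0.ne') h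
  · intro h h2
    rw [h] at h2
    exact absurd h2 (by norm_num)

theorem card_odd_degree_24 {N : Type u} [Group N] [Finite N] (hN : Nat.card N = 24)
    (hc : (commutator N).index = 3) :
    Nat.card {χ : Cfsg.IrrCharacter N // ¬ 2 ∣ Cfsg.charDegree (χ : N → ℂ)} = 4 := by
  classical
  letI := Cfsg.Agent.H4.fintypeIrr N
  have hsum : ∑ χ : Cfsg.IrrCharacter N, Cfsg.charDegree χ.1 ^ 2 = 24 := by
    have h := Cfsg.Agent.H4.sum_irr_sq (G := N)
    rw [finsum_eq_sum_of_fintype, hN] at h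
    have h2 : ((∑ χ : Cfsg.IrrCharacter N, Cfsg.charDegree χ.1 ^ 2 : ℕ) : ℂ) = ((24 : ℕ) : ℂ) := by
      rw [← h]
      push_cast
      refine Finset.sum_congr rfl fun χ _ => ?_
      rw [Cfsg.Agent.H82.irr_one_eq_charDegree]
    exact_mod_cast h2
  have hlin := Cfsg.Agent.H82.card_filter_linear (G := N)
  rw [hc] at hlin
  have hrange : ∀ χ : Cfsg.IrrCharacter N, Cfsg.charDegree χ.1 = 1 ∨ Cfsg.charDegree χ.1 = 2 ∨
      Cfsg.charDegree χ.1 = 3 ∨ Cfsg.charDegree χ.1 = 4 := by
    intro χ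
    have hdvd := Cfsg.Agent.H82.charDegree_dvd_card χ
    rw [hN] at hdvd
    have hpos := Cfsg.Agent.H82.charDegree_pos χ
    have hle : Cfsg.charDegree χ.1 ^ 2 ≤ 24 := by
      rw [← hsum]
      exact Finset.single_le_sum (f := fun χ : Cfsg.IrrCharacter N => Cfsg.charDegree χ.1 ^ 2)
        (fun _ _ => Nat.zero_le _) (Finset.mem_univ χ)
    have h5 : Cfsg.charDegree χ.1 < 5 := by
      by_contra h
      have : 5 ≤ Cfsg.charDegree χ.1 := by omega
      nlinarith
    interval_cases (Cfsg.charDegree χ.1) <;> simp_all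
  have hpt : ∀ χ : Cfsg.IrrCharacter N, Cfsg.charDegree χ.1 ^ 2 =
      (if Cfsg.charDegree χ.1 = 1 then 1 else 0) + 4 * (if Cfsg.charDegree χ.1 = 2 then 1 else 0) +
      9 * (if Cfsg.charDegree χ.1 = 3 then 1 else 0) +
      16 * (if Cfsg.charDegree χ.1 = 4 then 1 else 0) := by
    intro χ
    rcases hrange χ with h | h | h | h <;> rw [h] <;> norm_num
  have hodd : ∀ χ : Cfsg.IrrCharacter N, (if ¬ 2 ∣ Cfsg.charDegree χ.1 then 1 else 0) =
      (if Cfsg.charDegree χ.1 = 1 then 1 else 0) + (if Cfsg.charDegree χ.1 = 3 then 1 else 0) := by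
    intro χ
    rcases hrange χ with h | h | h | h <;> rw [h] <;> norm_num
  rw [Finset.sum_congr rfl (fun χ _ => hpt χ)] at hsum
  simp only [Finset.sum_add_distrib, ← Finset.mul_sum, Finset.sum_boole, Nat.cast_id] at hsum
  rw [Nat.card_eq_fintype_card, Fintype.card_subtype]
  have hcount : (Finset.univ.filter fun χ : Cfsg.IrrCharacter N => ¬ 2 ∣ Cfsg.charDegree χ.1).card =
      (Finset.univ.filter fun χ : Cfsg.IrrCharacter N => Cfsg.charDegree χ.1 = 1).card +
      (Finset.univ.filter fun χ : Cfsg.IrrCharacter N => Cfsg.charDegree χ.1 = 3).card := by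
    have h1 := Finset.sum_congr (s₁ := (Finset.univ : Finset (Cfsg.IrrCharacter N))) rfl
      (fun χ _ => hodd χ)
    simp only [Finset.sum_add_distrib, Finset.sum_boole, Nat.cast_id] at h1
    exact h1
  rw [hcount]
  omega

end Cfsg.Agent.H81.McKay

section Check

example {N : Type u} [Group N] [Finite N] (k : ℕ)
    (hN : Nat.card N = 2 ^ k) :
    Nat.card {χ : Cfsg.IrrCharacter N // ¬ 2 ∣ Cfsg.charDegree (χ : N → ℂ)} =
      (commutator N).index := Cfsg.Agent.H81.McKay.card_odd_degree_two_group k hN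

example {N : Type u} [Group N] [Finite N] (hN : Nat.card N = 24)
    (hc : (commutator N).index = 3) :
    Nat.card {χ : Cfsg.IrrCharacter N // ¬ 2 ∣ Cfsg.charDegree (χ : N → ℂ)} = 4 :=
  Cfsg.Agent.H81.McKay.card_odd_degree_24 hN hc

end Check
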