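/-
helper81 library (S0197, Brauer: a simple group with an involution centralizer `GL(2,3)` has
order 5616 or 7920): the exact statements of the pieces of the team project.
Every piece is a theorem of type `StmtXxx.{u}`.
-/
import Mathlib
import Cfsg.Prelude.Def_Characters

set_option autoImplicit false

namespace Cfsg.Agent.H81.GL23

open Cfsg
open scoped ComplexConjugate

universe u

/-- The local configuration inside a group `C` of order 48 with central involution `t`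
(`C = GL(2,3)`): `x` of order 8, `v` of order 6. -/
structure Loc {C : Type u} [Group C] (t x v : C) : Prop where
  tcent : ∀ g : C, g * t = t * g
  ht : orderOf t = 2
  card : Nat.card C = 48
  hx : orderOf x = 8
  hx4 : x ^ 4 = t
  hv : orderOf v = 6
  hv3 : v ^ 3 = t
  centX : ∀ g : C, g * x = x * g → g ∈ Subgroup.zpowers x
  centY : ∀ g : C, g * x ^ 2 = x ^ 2 * g → g ∈ Subgroup.zpowers x
  centV : ∀ g : C, g * v = v * g → g ∈ Subgroup.zpowers v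
  fusX : ∃ g : C, g * x * g⁻¹ = x ^ 3
  notX : ∀ g : C, g * x * g⁻¹ ≠ x⁻¹
  fusV : ∃ g : C, g * v * g⁻¹ = v⁻¹
  invY : ∃ s : C, (∀ w : C, orderOf w = 2 → w * x ^ 2 * w⁻¹ = (x ^ 2)⁻¹ → ∃ g : C, g * s * g⁻¹ = w) ∧
    Nat.card {w : C // orderOf w = 2 ∧ w * x ^ 2 * w⁻¹ = (x ^ 2)⁻¹} = 4

/-- The configuration in `G` extracted from `C_G(t) ≅ GL(2,3)`. -/
structure Cfg {G : Type u} [Group G] (t x v : G) : Prop where
  ht : orderOf t = 2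
  hx : orderOf x = 8
  hx4 : x ^ 4 = t
  hv : orderOf v = 6
  hv3 : v ^ 3 = t
  centT : Nat.card (Subgroup.centralizer ({t} : Set G)) = 48
  centX : Subgroup.centralizer ({x} : Set G) = Subgroup.zpowers x
  centY : Subgroup.centralizer ({x ^ 2} : Set G) = Subgroup.zpowers x
  centV : Subgroup.centralizer ({v} : Set G) = Subgroup.zpowers v
  fusX : ∃ g : G, g * x * g⁻¹ = x ^ 3
  notX : ∀ g : G, g * x * g⁻¹ ≠ x⁻¹
  fusV : ∃ g : G, g * v * g⁻¹ = v⁻¹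
  invY : ∃ s : G, (∀ w : G, orderOf w = 2 → w * x ^ 2 * w⁻¹ = (x ^ 2)⁻¹ → ∃ g : G, g * s * g⁻¹ = w) ∧
    Nat.card {w : G // orderOf w = 2 ∧ w * x ^ 2 * w⁻¹ = (x ^ 2)⁻¹} = 4

/-- MAT: the local configuration exists in any group isomorphic to `GL(2,3)`. -/
def StmtMat : Prop :=
  ∀ {C : Type u} [Group C] (_ : C ≃* Matrix.GeneralLinearGroup (Fin 2) (ZMod 3)) (t : C),
    orderOf t = 2 → (∀ g : C, g * t = t * g) → ∃ x v : C, Loc t x v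

/-- LIFT: from the centralizer to the group. -/
def StmtLift : Prop :=
  ∀ {G : Type u} [Group G] [Finite G] (t : G) (t' : Subgroup.centralizer ({t} : Set G)),
    (t' : G) = t → (∃ x v : Subgroup.centralizer ({t} : Set G), Loc t' x v) →
    ∃ x v : G, Cfg t x v

/-- SYL: the Sylow 2-subgroups have order 16. -/
def StmtSyl : Prop :=
  ∀ {G : Type u} [Group G] [Finite G] (t x v : G), Cfg t x v → ¬ 32 ∣ Nat.card G

/-- PERF: no nontrivial linear characters. -/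
def StmtPerf : Prop :=
  ∀ {G : Type u} [Group G] [Finite G] [IsSimpleGroup G] (t x v : G), Cfg t x v →
    ∀ χ : G → ℂ, IsIrrCharacter G χ → χ 1 = 1 → χ = fun _ => 1

/-- `F` takes the values `a₁, …, a₅` on the classes of `t, v, x², x, x⁻¹` and vanishes
elsewhere. -/
def Tab {G : Type u} [Group G] (t x v : G) (F : G → ℂ) (a₁ a₂ a₃ a₄ a₅ : ℂ) : Prop :=
  (∀ g, IsConj t g → F g = a₁) ∧ (∀ g, IsConj v g → F g = a₂) ∧
  (∀ g, IsConj (x ^ 2) g → F g = a₃) ∧ (∀ g, IsConj x g → F g = a₄) ∧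
  (∀ g, IsConj x⁻¹ g → F g = a₅) ∧
  (∀ g, ¬ IsConj t g → ¬ IsConj v g → ¬ IsConj (x ^ 2) g → ¬ IsConj x g → ¬ IsConj x⁻¹ g →
    F g = 0)

/-- TABA: generalized characters induced from `⟨x⟩`. -/
def StmtTabA : Prop :=
  ∀ {G : Type u} [Group G] [Fintype G] (t x v : G), Cfg t x v →
    ∃ (s : ℂ) (P₁ P₂ M₃ M₄ P₅ : G → ℂ), s ^ 2 = -2 ∧
      IsGeneralizedCharacter G P₁ ∧ IsGeneralizedCharacter G P₂ ∧
      IsGeneralizedCharacter G M₃ ∧ IsGeneralizedCharacter G M₄ ∧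
      IsGeneralizedCharacter G P₅ ∧
      Tab t x v P₁ 12 0 (-2) s (-s) ∧ Tab t x v P₂ 12 0 (-2) (-s) s ∧
      Tab t x v M₃ 0 0 4 2 2 ∧ Tab t x v M₄ 0 0 4 (-2) (-2) ∧ Tab t x v P₅ 24 0 4 0 0

/-- TABB: a generalized character induced from `⟨v⟩`. -/
def StmtTabB : Prop :=
  ∀ {G : Type u} [Group G] [Fintype G] (t x v : G), Cfg t x v →
    ∃ K₁ : G → ℂ, IsGeneralizedCharacter G K₁ ∧ Tab t x v K₁ 16 (-2) 0 0 0

/-- EVAL: the inner product of a class function with a function given by a table. -/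
def StmtEval : Prop :=
  ∀ {G : Type u} [Group G] [Fintype G] (t x v : G), Cfg t x v →
    ∀ (θ F : G → ℂ) (a₁ a₂ a₃ a₄ a₅ : ℂ), IsClassFunction G θ → Tab t x v F a₁ a₂ a₃ a₄ a₅ →
      classInner θ F = θ t * conj a₁ / 48 + θ v * conj a₂ / 6 +
        (θ (x ^ 2) * conj a₃ + θ x * conj a₄ + θ x⁻¹ * conj a₅) / 8

/-- The Gram matrix. -/
def Gm : Matrix (Fin 5) (Fin 5) ℤ :=
  !![2, 1, -1, -1, -1; 1, 2, -1, -1, -1; -1, -1, 3, 1, 2; -1, -1, 1, 3, 2; -1, -1, 2, 2, 4]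

/-- The multiplicities of the trivial character. -/
def T0 : Fin 5 → ℤ := ![0, 0, 1, 0, 1]

/-- The five generalized characters and what is needed of them. -/
structure Data {G : Type u} [Group G] [Fintype G] (t x : G) (s : ℂ) (M : Fin 5 → G → ℂ) :
    Prop where
  hs : s ^ 2 = -2
  gen : ∀ k, IsGeneralizedCharacter G (M k)
  gram : ∀ k l, classInner (M k) (M l) = (Gm k l : ℂ)
  deg : ∀ k, M k 1 = 0
  triv : ∀ k, classInner (M k) (fun _ => 1) = (T0 k : ℂ)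
  conj01 : ∀ g, M 1 g = conj (M 0 g)
  real : ∀ g, conj (M 2 g) = M 2 g ∧ conj (M 3 g) = M 3 g ∧ conj (M 4 g) = M 4 g
  valT : ∀ χ : G → ℂ, IsIrrCharacter G χ →
    χ t = -2 * classInner χ (M 0) - 2 * classInner χ (M 1) - 3 * classInner χ (M 2)
      - 3 * classInner χ (M 3) + 4 * classInner χ (M 4)
  valY : ∀ χ : G → ℂ, IsIrrCharacter G χ →
    χ (x ^ 2) = classInner χ (M 2) + classInner χ (M 3)
  valX : ∀ χ : G → ℂ, IsIrrCharacter G χ →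
    χ x = s * (classInner χ (M 0) - classInner χ (M 1)) + classInner χ (M 2)
      - classInner χ (M 3)

/-- DATA: the five generalized characters `M₁ = P₁ - K₁, M₂ = P₂ - K₁, M₃, M₄,
M₅ = P₅ - K₁`. -/
def StmtData : Prop :=
  ∀ {G : Type u} [Group G] [Fintype G] (t x v : G), Cfg t x v →
    ∀ (s : ℂ) (P₁ P₂ M₃ M₄ P₅ K₁ : G → ℂ), s ^ 2 = -2 →
      IsGeneralizedCharacter G P₁ → IsGeneralizedCharacter G P₂ →
      IsGeneralizedCharacter G M₃ → IsGeneralizedCharacter G M₄ →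
      IsGeneralizedCharacter G P₅ → IsGeneralizedCharacter G K₁ →
      Tab t x v P₁ 12 0 (-2) s (-s) → Tab t x v P₂ 12 0 (-2) (-s) s →
      Tab t x v M₃ 0 0 4 2 2 → Tab t x v M₄ 0 0 4 (-2) (-2) → Tab t x v P₅ 24 0 4 0 0 →
      Tab t x v K₁ 16 (-2) 0 0 0 →
      ∃ M : Fin 5 → G → ℂ, Data t x s M

/-- CC: two class multiplication constants of the class of `t`. -/
def StmtCC : Prop :=
  ∀ {G : Type u} [Group G] [Fintype G] (t x v : G), Cfg t x v →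
    ∃ P : ℕ, (P = 0 ∨ P = 4) ∧
      (∑ᶠ χ : IrrCharacter G,
        ((χ : G → ℂ) t) ^ 2 * (χ : G → ℂ) x⁻¹ / (χ : G → ℂ) 1 = 0) ∧
      ((Nat.card G : ℂ) * ∑ᶠ χ : IrrCharacter G,
        ((χ : G → ℂ) t) ^ 2 * (χ : G → ℂ) (x ^ 2) / (χ : G → ℂ) 1 = 2304 * (P : ℂ))

/-- The value at `t` of the character with coefficient vector `c`. -/
def vt (c : Fin 5 → ℤ) : ℤ := -2 * c 0 - 2 * c 1 - 3 * c 2 - 3 * c 3 + 4 * c 4

/-- The abstract (lattice + arithmetic) hypotheses. -/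
structure AbsHyp {ι : Type u} [Fintype ι] (N : ℕ) (i₀ : ι) (bar : ι → ι) (d : ι → ℕ)
    (u : ι → Fin 5 → ℤ) (P : ℕ) : Prop where
  bar_invol : ∀ i, bar (bar i) = i
  bar0 : bar i₀ = i₀
  dpos : ∀ i, 0 < d i
  dbar : ∀ i, d (bar i) = d i
  d0 : d i₀ = 1
  lin : ∀ i, d i = 1 → i = i₀
  u0 : u i₀ = T0
  ubar : ∀ i, u (bar i) 0 = u i 1 ∧ u (bar i) 1 = u i 0 ∧ u (bar i) 2 = u i 2 ∧
    u (bar i) 3 = u i 3 ∧ u (bar i) 4 = u i 4
  gram : ∀ k l, ∑ i, u i k * u i l = Gm k l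
  deg : ∀ k, ∑ i, u i k * (d i : ℤ) = 0
  e3 : ∑ i, ((vt (u i)) ^ 2 * (u i 2 - u i 3) : ℚ) / (d i : ℚ) = 0
  e2 : (N : ℚ) * ∑ i, ((vt (u i)) ^ 2 * (u i 2 + u i 3) : ℚ) / (d i : ℚ) = 2304 * (P : ℚ)
  hP : P = 0 ∨ P = 4
  h32 : ¬ 32 ∣ N

/-- GENVEC: generalized characters as integer vectors. -/
def StmtGenVec : Prop :=
  ∀ {G : Type u} [Group G] [Fintype G] [Fintype (IrrCharacter G)] (n : ℕ) (M : Fin n → G → ℂ),
    (∀ k, IsGeneralizedCharacter G (M k)) →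
    ∃ c : IrrCharacter G → Fin n → ℤ,
      (∀ k g, M k g = ∑ χ : IrrCharacter G, (c χ k : ℂ) * (χ : G → ℂ) g) ∧
      (∀ (χ : IrrCharacter G) (k : Fin n), classInner (χ : G → ℂ) (M k) = (c χ k : ℂ)) ∧
      (∀ k l, classInner (M k) (M l) = ∑ χ : IrrCharacter G, (c χ k : ℂ) * (c χ l : ℂ))

/-- BRIDGE: from characters to the abstract hypotheses. -/
def StmtBridge : Prop :=
  ∀ {G : Type u} [Group G] [Fintype G] (t x : G) (s : ℂ) (M : Fin 5 → G → ℂ) (P : ℕ),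
    Data t x s M →
    (∀ χ : G → ℂ, IsIrrCharacter G χ → χ 1 = 1 → χ = fun _ => 1) →
    ¬ 32 ∣ Nat.card G → (P = 0 ∨ P = 4) →
    (∑ᶠ χ : IrrCharacter G,
        ((χ : G → ℂ) t) ^ 2 * (χ : G → ℂ) x⁻¹ / (χ : G → ℂ) 1 = 0) →
    ((Nat.card G : ℂ) * ∑ᶠ χ : IrrCharacter G,
        ((χ : G → ℂ) t) ^ 2 * (χ : G → ℂ) (x ^ 2) / (χ : G → ℂ) 1 = 2304 * (P : ℂ)) →
    ∃ (inst : Fintype (IrrCharacter G)) (i₀ : IrrCharacter G)
      (bar : IrrCharacter G → IrrCharacter G) (d : IrrCharacter G → ℕ)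
      (u : IrrCharacter G → Fin 5 → ℤ), @AbsHyp _ inst (Nat.card G) i₀ bar d u P

/-- The shape of the coefficient matrix. -/
structure Shape {ι : Type u} (i₀ : ι) (bar : ι → ι) (u : ι → Fin 5 → ℤ)
    (R L Y Z W U : ι) (e e₃ e₄ e₄' e₅ : ℤ) : Prop where
  he : e = 1 ∨ e = -1
  he₃ : e₃ = 1 ∨ e₃ = -1
  he₄ : e₄ = 1 ∨ e₄ = -1
  he₄' : e₄' = 1 ∨ e₄' = -1
  he₅ : e₅ = 1 ∨ e₅ = -1
  nodup : [i₀, R, L, bar L, Y, Z, W, U].Nodup
  uR : u R = ![-e, -e, e, e, e]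
  uL : u L = ![e, 0, 0, 0, 0]
  uLb : u (bar L) = ![0, e, 0, 0, 0]
  uY : u Y = ![0, 0, e₃, 0, 0]
  uZ : u Z = ![0, 0, 0, e₄, e₄]
  uW : u W = ![0, 0, 0, e₄', 0]
  uU : u U = ![0, 0, 0, 0, e₅]
  zero : ∀ i, i ∉ [i₀, R, L, bar L, Y, Z, W, U] → ∀ k, u i k = 0

/-- LAT: the lattice classification. -/
def StmtLat : Prop :=
  ∀ {ι : Type u} [Fintype ι] (N : ℕ) (i₀ : ι) (bar : ι → ι) (d : ι → ℕ)
    (u : ι → Fin 5 → ℤ) (P : ℕ), AbsHyp N i₀ bar d u P →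
    ∃ (R L Y Z W U : ι) (e e₃ e₄ e₄' e₅ : ℤ), Shape i₀ bar u R L Y Z W U e e₃ e₄ e₄' e₅

/-- The numerical hypotheses. -/
structure NumHyp (N r y z w q : ℕ) (e e₃ e₄ e₄' e₅ : ℤ) (P : ℕ) : Prop where
  he : e = 1 ∨ e = -1
  he₃ : e₃ = 1 ∨ e₃ = -1
  he₄ : e₄ = 1 ∨ e₄ = -1
  he₄' : e₄' = 1 ∨ e₄' = -1
  he₅ : e₅ = 1 ∨ e₅ = -1
  hr : 1 < r
  hy : 1 < y
  hz : 1 < z
  hw : 1 < w
  hq : 1 < q
  eq1 : 1 + e * (r : ℤ) + e₃ * (y : ℤ) = 0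
  eq2 : e * (r : ℤ) + e₄ * (z : ℤ) + e₄' * (w : ℤ) = 0
  eq3 : 1 + e * (r : ℤ) + e₄ * (z : ℤ) + e₅ * (q : ℤ) = 0
  e3 : (1 : ℚ) + 9 * (e₃ : ℚ) / (y : ℚ) - (e₄ : ℚ) / (z : ℚ) - 9 * (e₄' : ℚ) / (w : ℚ) = 0
  e2 : (N : ℚ) * (1 + 8 * (e : ℚ) / (r : ℚ) + 9 * (e₃ : ℚ) / (y : ℚ) + (e₄ : ℚ) / (z : ℚ)
    + 9 * (e₄' : ℚ) / (w : ℚ)) = 2304 * (P : ℚ)
  hP : P = 0 ∨ P = 4
  h32 : ¬ 32 ∣ N

/-- SUM: the sums over the eight characters. -/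
def StmtSum : Prop :=
  ∀ {ι : Type u} [Fintype ι] (N : ℕ) (i₀ : ι) (bar : ι → ι) (d : ι → ℕ)
    (u : ι → Fin 5 → ℤ) (P : ℕ), AbsHyp N i₀ bar d u P →
    ∀ (R L Y Z W U : ι) (e e₃ e₄ e₄' e₅ : ℤ), Shape i₀ bar u R L Y Z W U e e₃ e₄ e₄' e₅ →
      NumHyp N (d R) (d Y) (d Z) (d W) (d U) e e₃ e₄ e₄' e₅ P

/-- NUM: the arithmetic. -/
def StmtNum : Prop :=
  ∀ (N r y z w q : ℕ) (e e₃ e₄ e₄' e₅ : ℤ) (P : ℕ), NumHyp N r y z w q e e₃ e₄ e₄' e₅ P →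
    N = 5616 ∨ N = 7920

end Cfsg.Agent.H81.GL23
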