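import Mathlib
import Cfsg.Prelude.Def_OddOrderChar
import Cfsg.Prelude.Def_OddOrderLocal

/-!
# S1511 team project (Peterfalvi (4.3)): exact statements of the pieces
-/

set_option autoImplicit false

namespace Cfsg.Agent.H81.TyP

open Cfsg

universe u

/-- The hypotheses of S1511 (without the oddness). -/
structure TypeP {L : Type u} [Group L] (K W₁ W₂ : Subgroup L) : Prop where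
  normal : K.Normal
  inf : K ⊓ W₁ = ⊥
  sup : K ⊔ W₁ = ⊤
  ne₁ : W₁ ≠ ⊥
  cyc₁ : IsCyclic W₁
  hall : Nat.Coprime (Nat.card W₁) W₁.index
  ne₂ : W₂ ≠ ⊥
  cyc₂ : IsCyclic W₂
  le : W₂ ≤ K
  cent : ∀ x ∈ W₁, x ≠ 1 → K ⊓ Subgroup.centralizer ({x} : Set L) = W₂

/-- The statement of S1502. -/
def StmtS1502 : Prop :=
  ∀ {G : Type u} [Group G] [Fintype G] (W₁ W₂ : Subgroup G),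
    IsSelfNormalizingCyclic W₁ W₂ → Odd (Nat.card ↥(W₁ ⊔ W₂)) →
    ∃ χ : (↥(W₁ ⊔ W₂) →* ℂˣ) → (G → ℂ), IsCyclicTIFamily W₁ W₂ χ

/-- CONJ. -/
def StmtConj : Prop :=
  ∀ {L : Type u} [Group L] [Fintype L] (K W₁ W₂ : Subgroup L), TypeP K W₁ W₂ →
    ∀ w g : L, w ∈ W₁ ⊔ W₂ → w ∉ W₂ → g⁻¹ * w * g ∈ W₁ ⊔ W₂ → g ∈ W₁ ⊔ W₂

/-- LIN. -/
def StmtLin : Prop :=
  ∀ {L : Type u} [Group L] [Fintype L] (K W₁ W₂ : Subgroup L), TypeP K W₁ W₂ →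
    ∀ φ : ↥(W₁ ⊔ W₂) →* ℂˣ, (∀ w : ↥(W₁ ⊔ W₂), (w : L) ∈ W₂ → φ w = 1) →
      ∃ Λ : L →* ℂˣ, ∀ w : ↥(W₁ ⊔ W₂), Λ (w : L) = φ w

/-- TIDIFF. -/
def StmtTIDiff : Prop :=
  ∀ {L : Type u} [Group L] [Fintype L] (W : Subgroup L) (V : Set L),
    (∀ w g : L, w ∈ W → w ∉ V → g⁻¹ * w * g ∈ W → g ∈ W) →
    ∀ Λ Λ' : L →* ℂˣ, (∀ w ∈ W, w ∈ V → Λ w = Λ' w) → ((∀ w ∈ W, Λ w = Λ' w) → Λ = Λ') →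
      indFun W (fun w => ((Λ (w : L) : ℂˣ) : ℂ) - ((Λ' (w : L) : ℂˣ) : ℂ)) =
        fun x => ((Λ x : ℂˣ) : ℂ) - ((Λ' x : ℂˣ) : ℂ)

/-- LINEQ. -/
def StmtLinEq : Prop :=
  ∀ {L : Type u} [Group L] [Fintype L] (W₁ W₂ : Subgroup L), IsSelfNormalizingCyclic W₁ W₂ →
    ∀ χ : (↥(W₁ ⊔ W₂) →* ℂˣ) → (L → ℂ), IsCyclicTIFamily W₁ W₂ χ →
    ∀ φ ψ₁ ψ₂ : ↥(W₁ ⊔ W₂) →* ℂˣ, φ ≠ 1 → (∀ w : ↥(W₁ ⊔ W₂), (w : L) ∈ W₂ → φ w = 1) →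
      ψ₁ ≠ 1 → ψ₂ ≠ 1 → ψ₁ ≠ ψ₂ → (∀ w : ↥(W₁ ⊔ W₂), (w : L) ∈ W₁ → ψ₁ w = 1) →
      (∀ w : ↥(W₁ ⊔ W₂), (w : L) ∈ W₁ → ψ₂ w = 1) →
      ∀ Λ : L →* ℂˣ, (∀ w : ↥(W₁ ⊔ W₂), Λ (w : L) = φ w) →
        χ φ = fun x => ((Λ x : ℂˣ) : ℂ)

/-- Induction of differences of linear characters agreeing on `W₂`. -/
def DiffInd {L : Type u} [Group L] [Fintype L] (W₁ W₂ : Subgroup L)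
    (χ : (↥(W₁ ⊔ W₂) →* ℂˣ) → (L → ℂ)) : Prop :=
  ∀ ω ω' : ↥(W₁ ⊔ W₂) →* ℂˣ, (∀ w : ↥(W₁ ⊔ W₂), (w : L) ∈ W₂ → ω w = ω' w) →
    indFun (W₁ ⊔ W₂) (fun w => (ω w : ℂ) - (ω' w : ℂ)) = χ ω - χ ω'

/-- K1. -/
def StmtK1 : Prop :=
  ∀ {L : Type u} [Group L] [Fintype L] (W₁ W₂ : Subgroup L), IsSelfNormalizingCyclic W₁ W₂ →
    ∀ χ : (↥(W₁ ⊔ W₂) →* ℂˣ) → (L → ℂ), IsCyclicTIFamily W₁ W₂ χ →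
    (∀ φ φ' : ↥(W₁ ⊔ W₂) →* ℂˣ, (∀ w : ↥(W₁ ⊔ W₂), (w : L) ∈ W₂ → φ w = 1) →
      (∀ w : ↥(W₁ ⊔ W₂), (w : L) ∈ W₂ → φ' w = 1) →
      indFun (W₁ ⊔ W₂) (fun w => (φ w : ℂ) - (φ' w : ℂ)) = χ φ - χ φ') →
    DiffInd W₁ W₂ χ

/-- VALS. -/
def StmtVals : Prop :=
  ∀ {L : Type u} [Group L] [Fintype L] (W₁ W₂ : Subgroup L), IsSelfNormalizingCyclic W₁ W₂ →
    ∀ χ : (↥(W₁ ⊔ W₂) →* ℂˣ) → (L → ℂ), IsCyclicTIFamily W₁ W₂ χ → DiffInd W₁ W₂ χ →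
    (∀ (ω : ↥(W₁ ⊔ W₂) →* ℂˣ) (w : ↥(W₁ ⊔ W₂)), (w : L) ∉ W₂ → χ ω w = (ω w : ℂ)) ∧
    (∀ θ : L → ℂ, IsClassFunction L θ → (∀ ω, classInner θ (χ ω) = 0) →
      ∀ w : ↥(W₁ ⊔ W₂), (w : L) ∉ W₂ → θ w = 0)

/-- DEG. -/
def StmtDeg : Prop :=
  ∀ {L : Type u} [Group L] [Fintype L] (W₁ W₂ : Subgroup L) (θ : L → ℂ),
    (IsIrrCharacter L θ ∨ IsIrrCharacter L (-θ)) →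
    ∀ ω : ↥(W₁ ⊔ W₂) →* ℂˣ,
      (∀ w : ↥(W₁ ⊔ W₂), (w : L) ∈ W₁ → (w : L) ≠ 1 → θ w = (ω w : ℂ)) →
      ∃ n : ℤ, θ 1 - 1 = n * (Nat.card W₁ : ℂ)

/-- PACK. -/
def StmtPack : Prop :=
  ∀ {L : Type u} [Group L] [Fintype L] (W₁ W₂ : Subgroup L)
    (χ : (↥(W₁ ⊔ W₂) →* ℂˣ) → (L → ℂ)), IsCyclicTIFamily W₁ W₂ χ → DiffInd W₁ W₂ χ →
    (∀ (ω : ↥(W₁ ⊔ W₂) →* ℂˣ) (w : ↥(W₁ ⊔ W₂)), (w : L) ∉ W₂ → χ ω w = (ω w : ℂ)) →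
    (∀ θ : L → ℂ, IsClassFunction L θ → (∀ ω, classInner θ (χ ω) = 0) →
      ∀ w : ↥(W₁ ⊔ W₂), (w : L) ∉ W₂ → θ w = 0) →
    (∀ ω, ∃ n : ℤ, χ ω 1 - 1 = n * (Nat.card W₁ : ℂ)) →
    ∃ (μ : (↥(W₁ ⊔ W₂) →* ℂˣ) → (L → ℂ)) (δ : (↥(W₁ ⊔ W₂) →* ℂˣ) → ℂ),
      Function.Injective μ ∧ (∀ ω, Cfsg.IsIrrCharacter L (μ ω)) ∧ (∀ ω, δ ω = 1 ∨ δ ω = -1) ∧
      (∀ ω ω' : ↥(W₁ ⊔ W₂) →* ℂˣ, (∀ w : ↥(W₁ ⊔ W₂), (w : L) ∈ W₂ → ω w = ω' w) →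
        δ ω = δ ω' ∧
          Cfsg.indFun (W₁ ⊔ W₂) (fun w => (ω w : ℂ) - (ω' w : ℂ)) = δ ω • (μ ω - μ ω')) ∧
      (∀ ω, ∀ w : ↥(W₁ ⊔ W₂), (w : L) ∉ W₂ → μ ω w = δ ω * (ω w : ℂ)) ∧
      (∀ θ : L → ℂ, Cfsg.IsIrrCharacter L θ → (∀ ω, θ ≠ μ ω) →
        ∀ w : ↥(W₁ ⊔ W₂), (w : L) ∉ W₂ → θ w = 0) ∧
      (∀ ω, ∃ n : ℤ, μ ω 1 - δ ω = n * (Nat.card W₁ : ℂ))

end Cfsg.Agent.H81.TyP
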