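import Mathlib
import Cfsg.Agent.H79.HcDefs
import Cfsg.Agent.H4.Irr
import Cfsg.Agent.H4.IrrCount
import Cfsg.Agent.H4.RBrauer

/-!
# S4440 piece P5 (VB): the characters over a given central character of a central `p'`-subgroup
-/

set_option autoImplicit false
set_option linter.style.haveILetI false

namespace Cfsg.Agent.H81.Hc

open Cfsg Cfsg.Agent.H79.Hc
open scoped ComplexConjugate

universe u

/-- For a central element `z`, `ψ(g z) ψ(1) = ψ(z) ψ(g)`. -/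
theorem irr_central_mul {G : Type u} [Group G] (ψ : IrrCharacter G) {z : G}
    (hz : z ∈ Subgroup.center G) (g : G) :
    (ψ : G → ℂ) (g * z) * (ψ : G → ℂ) 1 = (ψ : G → ℂ) z * (ψ : G → ℂ) g := by
  obtain ⟨n, ρ, hρ, h⟩ := ψ.2
  obtain ⟨ω, hω, -, -⟩ := Cfsg.Agent.H4.exists_central_scalar ρ hρ
  have h1 := Cfsg.Agent.H4.character_central_mul ρ ω z (hω z hz) g
  have h2 := Cfsg.Agent.H4.character_central_mul ρ ω z (hω z hz) 1
  rw [mul_one] at h2
  rw [h] at h1 h2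
  rw [Subgroup.mem_center_iff.mp hz g, h1, h2]
  ring

/-- Sum of `ψ(1) ψ(y)` over the irreducible characters vanishes for `y ≠ 1`. -/
theorem sum_irr_one_mul_eq_zero {G : Type u} [Group G] [Finite G] {y : G} (hy : y ≠ 1) :
    ∑ᶠ ψ : IrrCharacter G, (ψ : G → ℂ) 1 * (ψ : G → ℂ) y = 0 := by
  letI : Fintype G := Fintype.ofFinite G
  have h := Cfsg.Agent.H4.column_orthogonality (G := G) y 1
  have hcard : Nat.card {c : G // c * y * c⁻¹ = 1} = 0 := by
    haveI : IsEmpty {c : G // c * y * c⁻¹ = 1} := by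
      constructor
      rintro ⟨c, hc⟩
      apply hy
      have := congrArg (fun t => c⁻¹ * t * c) hc
      simpa [mul_assoc] using this
    exact Nat.card_of_isEmpty
  rw [hcard, Nat.cast_zero] at h
  rw [← h]
  congr 1
  funext ψ
  rw [Cfsg.Agent.H4.irr_one_conj, mul_comm]

/-- (VB), for any `p ≠ 1`. -/
theorem stmtVB_of_ne_one (p : ℕ) (hp : p ≠ 1) : StmtVB.{u} p := by
  intro G _ _ Z hZ hcop χ₀ x hx
  classical
  letI : Fintype G := Fintype.ofFinite G
  letI : Fintype Z := Fintype.ofFinite Z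
  letI := Cfsg.Agent.H4.fintypeIrr G
  -- the central characters
  set ω : IrrCharacter G → G → ℂ := fun ψ z => (ψ : G → ℂ) z / (ψ : G → ℂ) 1 with hω
  have hne : ∀ ψ : IrrCharacter G, (ψ : G → ℂ) 1 ≠ 0 := Cfsg.Agent.H4.irr_one_ne_zero
  have hωmul : ∀ (ψ : IrrCharacter G) (z : G), z ∈ Z → ∀ g : G,
      (ψ : G → ℂ) (g * z) = ω ψ z * (ψ : G → ℂ) g := by
    intro ψ z hz g
    have := irr_central_mul ψ (hZ hz) g
    simp only [hω]
    rw [div_mul_eq_mul_div, eq_div_iff (hne ψ)]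
    exact this
  have hωmul2 : ∀ (ψ : IrrCharacter G) (z w : G), z ∈ Z → ω ψ (w * z) = ω ψ z * ω ψ w := by
    intro ψ z w hz
    simp only [hω]
    rw [hωmul ψ z hz w]
    simp only [hω]
    ring
  have hω1 : ∀ ψ : IrrCharacter G, ω ψ 1 = 1 := by
    intro ψ
    simp only [hω]
    exact div_self (hne ψ)
  have hsame : ∀ ψ : IrrCharacter G,
      SameCentral Z (χ₀ : G → ℂ) (ψ : G → ℂ) ↔ ∀ z ∈ Z, ω χ₀ z = ω ψ z := by
    intro ψ
    unfold SameCentral
    refine forall₂_congr fun z _ => ?_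
    simp only [hω]
    rw [div_eq_div_iff (hne χ₀) (hne ψ)]
  -- orthogonality on `Z`
  have horth : ∀ ψ : IrrCharacter G,
      ∑ z : Z, ω χ₀ ((z : G)⁻¹) * ω ψ (z : G) =
        if SameCentral Z (χ₀ : G → ℂ) (ψ : G → ℂ) then (Nat.card Z : ℂ) else 0 := by
    intro ψ
    by_cases hs : SameCentral Z (χ₀ : G → ℂ) (ψ : G → ℂ)
    · rw [if_pos hs]
      have hs' := (hsame ψ).mp hs
      have : ∀ z : Z, ω χ₀ ((z : G)⁻¹) * ω ψ (z : G) = 1 := by
        intro z
        rw [← hs' z z.2, ← hωmul2 χ₀ _ _ (Z.inv_mem z.2), mul_inv_cancel, hω1]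
      simp [this, Nat.card_eq_fintype_card]
    · rw [if_neg hs]
      have hs' : ¬ ∀ z ∈ Z, ω χ₀ z = ω ψ z := fun h => hs ((hsame ψ).mpr h)
      push Not at hs'
      obtain ⟨z₀, hz₀, hz₀ne⟩ := hs'
      set θ : G → ℂ := fun z => ω χ₀ z⁻¹ * ω ψ z with hθ
      have hθmul : ∀ z : Z, θ (z₀ * z) = θ z₀ * θ z := by
        intro z
        simp only [hθ]
        rw [mul_inv_rev, hωmul2 χ₀ _ _ (Z.inv_mem hz₀), hωmul2 ψ _ _ z.2]
        ring
      have h1 : ∑ z : Z, θ z = θ z₀ * ∑ z : Z, θ z := by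
        rw [Finset.mul_sum, ← Equiv.sum_comp (Equiv.mulLeft (⟨z₀, hz₀⟩ : Z)) (fun z : Z => θ z)]
        refine Finset.sum_congr rfl fun z _ => ?_
        rw [← hθmul z]
        rfl
      have hθne : θ z₀ ≠ 1 := by
        intro h
        apply hz₀ne
        have h2 : ω χ₀ z₀ * ω χ₀ z₀⁻¹ = 1 := by
          rw [← hωmul2 χ₀ _ _ hz₀, inv_mul_cancel, hω1]
        simp only [hθ] at h
        calc ω χ₀ z₀ = ω χ₀ z₀ * (ω χ₀ z₀⁻¹ * ω ψ z₀) := by rw [h, mul_one]
          _ = (ω χ₀ z₀ * ω χ₀ z₀⁻¹) * ω ψ z₀ := by ring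
          _ = ω ψ z₀ := by rw [h2, one_mul]
      have h2 : (1 - θ z₀) * ∑ z : Z, θ z = 0 := by linear_combination h1
      rcases mul_eq_zero.mp h2 with h3 | h3
      · exact absurd (sub_eq_zero.mp h3).symm hθne
      · exact h3
  -- `x z ≠ 1` for `z ∈ Z`
  have hxz : ∀ z : Z, x * (z : G) ≠ 1 := by
    intro z hz1
    have hxZ : x ∈ Z := by
      have : x = (z : G)⁻¹ := eq_inv_of_mul_eq_one_left hz1
      rw [this]
      exact Z.inv_mem z.2
    have h1 : orderOf x ∣ Nat.card Z := by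
      have := orderOf_dvd_natCard (⟨x, hxZ⟩ : Z)
      rwa [Subgroup.orderOf_mk] at this
    have h2 : p ∣ Nat.card Z := hx.trans h1
    have h3 : p ∣ Nat.gcd (Nat.card Z) p := Nat.dvd_gcd h2 dvd_rfl
    rw [hcop] at h3
    exact hp (Nat.dvd_one.mp h3)
  -- the computation
  have hZne : (Nat.card Z : ℂ) ≠ 0 := by
    exact_mod_cast Nat.card_pos.ne'
  have hmain : (Nat.card Z : ℂ) *
      wsum {ψ : IrrCharacter G | SameCentral Z (χ₀ : G → ℂ) (ψ : G → ℂ)} x = 0 := by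
    have hw : wsum {ψ : IrrCharacter G | SameCentral Z (χ₀ : G → ℂ) (ψ : G → ℂ)} x =
        ∑ ψ : IrrCharacter G, (if SameCentral Z (χ₀ : G → ℂ) (ψ : G → ℂ) then
          (ψ : G → ℂ) 1 * (ψ : G → ℂ) x else 0) := by
      unfold wsum
      rw [finsum_mem_def, finsum_eq_sum_of_fintype]
      refine Finset.sum_congr rfl fun ψ _ => ?_
      by_cases hs : SameCentral Z (χ₀ : G → ℂ) (ψ : G → ℂ) <;> simp [hs]
    rw [hw, Finset.mul_sum]
    have h1 : ∀ ψ : IrrCharacter G,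
        (Nat.card Z : ℂ) * (if SameCentral Z (χ₀ : G → ℂ) (ψ : G → ℂ) then
          (ψ : G → ℂ) 1 * (ψ : G → ℂ) x else 0) =
        ∑ z : Z, ω χ₀ ((z : G)⁻¹) * ((ψ : G → ℂ) 1 * (ψ : G → ℂ) (x * (z : G))) := by
      intro ψ
      have h2 : ∀ z : Z, ω χ₀ ((z : G)⁻¹) * ((ψ : G → ℂ) 1 * (ψ : G → ℂ) (x * (z : G))) =
          (ω χ₀ ((z : G)⁻¹) * ω ψ (z : G)) * ((ψ : G → ℂ) 1 * (ψ : G → ℂ) x) := by
        intro z
        rw [hωmul ψ _ z.2 x]
        ring
      simp only [h2]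
      rw [← Finset.sum_mul, horth ψ]
      by_cases hs : SameCentral Z (χ₀ : G → ℂ) (ψ : G → ℂ) <;> simp [hs]
    simp only [h1]
    rw [Finset.sum_comm]
    apply Finset.sum_eq_zero
    intro z _
    rw [← Finset.mul_sum]
    have h3 := sum_irr_one_mul_eq_zero (hxz z)
    rw [finsum_eq_sum_of_fintype] at h3
    rw [h3, mul_zero]
  exact (mul_eq_zero.mp hmain).resolve_left hZne

/-- (VB) the characters with a given central character on a central `p'`-subgroup. -/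
theorem stmtVB (p : ℕ) [hp : Fact p.Prime] : StmtVB.{u} p :=
  stmtVB_of_ne_one p hp.out.ne_one

end Cfsg.Agent.H81.Hc
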