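import Mathlib
import Cfsg.Agent.H79.HcDefs
import Cfsg.Agent.H4.Irr
import Cfsg.Agent.H4.IrrCount

/-!
# S4440 piece P3 (LI): the weighted sum determines the set
-/

set_option autoImplicit false
set_option linter.style.haveILetI false

namespace Cfsg.Agent.H81.Hc

open Cfsg Cfsg.Agent.H79.Hc
open scoped ComplexConjugate

universe u

open Classical in
/-- The weighted sum as a combination of the irreducible characters. -/
theorem wsum_eq_finsum_irr {G : Type u} [Group G] [Finite G] (W : Set (IrrCharacter G)) :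
    (fun x => wsum W x) =
      ∑ᶠ χ : IrrCharacter G, (if χ ∈ W then (χ : G → ℂ) 1 else 0) • (χ : G → ℂ) := by
  classical
  funext x
  rw [Cfsg.Agent.H4.finsum_irr_apply]
  unfold wsum
  rw [finsum_mem_def]
  congr 1
  funext χ
  by_cases hχ : χ ∈ W <;> simp [hχ]

/-- (LI) the weighted sum determines the set. -/
theorem stmtLI : StmtLI.{u} := by
  intro G _ _ U U' h
  classical
  letI : Fintype G := Fintype.ofFinite G
  ext ψ
  have h1 := Cfsg.Agent.H4.classInner_finsum_irr
    (fun χ : IrrCharacter G => if χ ∈ U then (χ : G → ℂ) 1 else 0) ψ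
  have h2 := Cfsg.Agent.H4.classInner_finsum_irr
    (fun χ : IrrCharacter G => if χ ∈ U' then (χ : G → ℂ) 1 else 0) ψ
  rw [← wsum_eq_finsum_irr U] at h1
  rw [← wsum_eq_finsum_irr U'] at h2
  have h3 : (fun x => wsum U x) = fun x => wsum U' x := funext h
  rw [h3, h2] at h1
  have hne := Cfsg.Agent.H4.irr_one_ne_zero ψ
  by_cases hU : ψ ∈ U <;> by_cases hU' : ψ ∈ U' <;> simp_all

end Cfsg.Agent.H81.Hc
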