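import Mathlib
import Cfsg.Agent.H79.HcDefs
import Cfsg.Agent.H4.Irr
import Cfsg.Agent.H4.IrrCount

/-!
# S4440 piece P8 (POLY): the Burnside–Brauer polynomial trick
-/

set_option autoImplicit false
set_option linter.style.haveILetI false

namespace Cfsg.Agent.H81.Hc

open Cfsg Cfsg.Agent.H79.Hc
open scoped ComplexConjugate

universe u

/-- (POLY) the Burnside–Brauer polynomial trick. -/
theorem stmtPoly : StmtPoly.{u} := by
  intro Q _ _ C π hπ hC S hS ξ hξ ξ' hsum
  classical
  by_contra hξ'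
  have hstep : ∀ f : Q → ℂ, IsClassFunction Q f →
      (∀ η : IrrCharacter Q, η ∉ S → classInner f (η : Q → ℂ) = 0) →
      ∀ η : IrrCharacter Q, η ∉ S → classInner (fun q => f q * π q) (η : Q → ℂ) = 0 := by
    intro f hf hf0 η hη
    letI := Cfsg.Agent.H4.fintypeIrr Q
    have hexp := Cfsg.Agent.H4.classFunction_eq_finsum hf
    rw [Cfsg.Agent.H4.finsum_irr_eq_sum] at hexp
    have hfπ : (fun q => f q * π q) = ∑ χ : IrrCharacter Q,
        classInner f (χ : Q → ℂ) • (fun q => (χ : Q → ℂ) q * π q) := by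
      funext q
      have h1 := congrFun hexp q
      rw [Finset.sum_apply] at h1
      rw [Finset.sum_apply]
      simp only [Pi.smul_apply, smul_eq_mul] at h1 ⊢
      conv_lhs => rw [h1]
      rw [Finset.sum_mul]
      refine Finset.sum_congr rfl fun χ _ => ?_
      ring
    rw [hfπ, Cfsg.Agent.H4.classInner_sum_left]
    apply Finset.sum_eq_zero
    intro χ _
    rw [Cfsg.Agent.H4.classInner_smul_left]
    by_cases hχ : χ ∈ S
    · have h0 : classInner (fun q => (χ : Q → ℂ) q * π q) (η : Q → ℂ) = 0 := by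
        by_contra h
        exact hη (hS χ hχ η h)
      rw [h0, mul_zero]
    · rw [hf0 χ hχ, zero_mul]
  have hprod : ∀ s : Finset ℂ,
      IsClassFunction Q (fun q => (ξ : Q → ℂ) q * ∏ a ∈ s, (π q - a)) ∧
      ∀ η : IrrCharacter Q, η ∉ S →
        classInner (fun q => (ξ : Q → ℂ) q * ∏ a ∈ s, (π q - a)) (η : Q → ℂ) = 0 := by
    intro s
    induction s using Finset.induction_on with
    | empty =>
      simp only [Finset.prod_empty, mul_one]
      refine ⟨Cfsg.Agent.H4.irr_isClassFunction ξ, ?_⟩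
      intro η hη
      rw [Cfsg.Agent.H4.irr_inner, if_neg]
      rintro rfl
      exact hη hξ
    | insert a s ha ih =>
      obtain ⟨ih1, ih2⟩ := ih
      have heq : (fun q => (ξ : Q → ℂ) q * ∏ b ∈ insert a s, (π q - b)) =
          (fun q => ((ξ : Q → ℂ) q * ∏ b ∈ s, (π q - b)) * π q) -
            a • (fun q => (ξ : Q → ℂ) q * ∏ b ∈ s, (π q - b)) := by
        funext q
        simp only [Pi.sub_apply, Pi.smul_apply, smul_eq_mul]
        rw [Finset.prod_insert ha]
        ring
      rw [heq]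
      refine ⟨Cfsg.Agent.H4.isClassFunction_sub (Cfsg.Agent.H4.isClassFunction_mul ih1 hπ)
        (Cfsg.Agent.H4.isClassFunction_smul a ih1), ?_⟩
      intro η hη
      rw [Cfsg.Agent.H4.classInner_sub_left, Cfsg.Agent.H4.classInner_smul_left,
        hstep _ ih1 ih2 η hη, ih2 η hη]
      ring
  set s : Finset ℂ := (Finset.univ.image π).erase (π 1) with hs
  obtain ⟨-, h2⟩ := hprod s
  have h3 := h2 ξ' hξ'
  set c : ℂ := ∏ a ∈ s, (π 1 - a) with hc
  have hcne : c ≠ 0 := by
    rw [hc, Finset.prod_ne_zero_iff]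
    intro a ha
    rw [hs, Finset.mem_erase] at ha
    exact sub_ne_zero.mpr (Ne.symm ha.1)
  have hval : ∀ q : Q, (ξ : Q → ℂ) q * ∏ a ∈ s, (π q - a) =
      if q ∈ C then c * (ξ : Q → ℂ) q else 0 := by
    intro q
    by_cases hq : q ∈ C
    · rw [if_pos hq, (hC q).mpr hq]
      ring
    · rw [if_neg hq]
      have hne : π q ≠ π 1 := fun h => hq ((hC q).mp h)
      have hmem : π q ∈ s := by
        rw [hs, Finset.mem_erase]
        exact ⟨hne, Finset.mem_image_of_mem _ (Finset.mem_univ q)⟩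
      rw [Finset.prod_eq_zero hmem (sub_self _), mul_zero]
  unfold classInner at h3
  simp only [hval] at h3
  have hN : (Nat.card Q : ℂ) ≠ 0 := by
    exact_mod_cast Nat.card_pos.ne'
  have h4 : ∑ q : Q, (if q ∈ C then c * (ξ : Q → ℂ) q else 0) * conj ((ξ' : Q → ℂ) q) =
      c * ∑ᶠ q ∈ (C : Set Q), (ξ : Q → ℂ) q * conj ((ξ' : Q → ℂ) q) := by
    rw [finsum_mem_def, finsum_eq_sum_of_fintype, Finset.mul_sum]
    refine Finset.sum_congr rfl fun q _ => ?_
    by_cases hq : q ∈ C <;> simp [hq, mul_assoc]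
  rw [h4] at h3
  rcases mul_eq_zero.mp h3 with h5 | h5
  · exact (inv_ne_zero hN) h5
  · rcases mul_eq_zero.mp h5 with h6 | h6
    · exact hcne h6
    · exact hsum h6

end Cfsg.Agent.H81.Hc
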