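import Mathlib
import Cfsg.Agent.H79.HcDefs
import Cfsg.Agent.H4.Irr
import Cfsg.Agent.H4.IrrCount
import Cfsg.Agent.H4.Frob
import Cfsg.Agent.H82.Irr
import Cfsg.Agent.H32.HcInd
import Cfsg.Agent.H81.HcLI
import Cfsg.Agent.H81.HcVB

/-!
# S4440 piece P9 (SPLITCENTRAL): the split case, from (IND), (SPLITPI), (POLY)
-/

set_option autoImplicit false
set_option linter.style.haveILetI false

namespace Cfsg.Agent.H81.Hc

open Cfsg Cfsg.Agent.H79.Hc
open scoped ComplexConjugate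

universe u

/-- A `finsum` over the carrier of a subgroup as a sum over the subgroup. -/
theorem finsum_mem_subgroup {G : Type u} [Group G] (H : Subgroup G) [Fintype H] (f : G → ℂ) :
    ∑ᶠ s ∈ (H : Set G), f s = ∑ s : H, f (s : G) := by
  rw [← finsum_eq_sum_of_fintype]
  exact (finsum_set_coe_eq_finsum_mem (H : Set G)).symm

/-- (SPLITCENTRAL) the split case. -/
theorem stmtSplitCentral (p : ℕ) (hInd : StmtInd.{u} p) (hSplitPi : StmtSplitPi.{u})
    (hPoly : StmtPoly.{u}) : StmtSplitCentral.{u} p := by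
  intro G _ _ V Γ₁ Z _ hV hc hZ hCZ U hU χ hχU hχV ψ hψV hsame
  classical
  letI : Fintype G := Fintype.ofFinite G
  letI : Fintype Γ₁ := Fintype.ofFinite Γ₁
  letI : Fintype V := Fintype.ofFinite V
  -- `wsum U` is a class function, induced from the complement
  have hcf : IsClassFunction G (fun x => wsum U x) := by
    rw [wsum_eq_finsum_irr]
    exact Cfsg.Agent.H4.isClassFunction_finsum_irr _
  have hind := hInd G V Γ₁ hV hc (fun x => wsum U x) hcf hU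
  set f₁ : Γ₁ → ℂ := fun s => wsum U (s : G) / fixCount V (s : G) with hf₁
  have hf₁cf : IsClassFunction Γ₁ f₁ := by
    intro s t
    have h1 : wsum U ((t : G) * s * (t : G)⁻¹) = wsum U s := hcf s t
    simp only [hf₁]
    rw [Subgroup.coe_mul, Subgroup.coe_mul, Subgroup.coe_inv,
      Cfsg.Agent.H32.Hc.fixCount_conj, h1]
  have hSP := hSplitPi G V Γ₁ hc U f₁ hf₁cf hind
  -- the complement maps isomorphically onto the quotient
  let φ : Γ₁ →* G ⧸ V := (QuotientGroup.mk' V).comp Γ₁.subtype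
  have hφinj : Function.Injective φ := by
    intro s t hst
    have h1 : ((s : G) : G ⧸ V) = ((t : G) : G ⧸ V) := hst
    rw [QuotientGroup.eq] at h1
    have h2 : (s : G)⁻¹ * (t : G) ∈ Γ₁ := Γ₁.mul_mem (Γ₁.inv_mem s.2) t.2
    have h3 := Subgroup.disjoint_def.mp hc.disjoint h1 h2
    apply Subtype.ext
    exact inv_mul_eq_one.mp h3
  have hφsurj : Function.Surjective φ := by
    intro q
    obtain ⟨g, rfl⟩ := QuotientGroup.mk_surjective q
    obtain ⟨⟨v, s⟩, hvs⟩ := hc.2 g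
    refine ⟨s, ?_⟩
    have hvs' : (v : G) * (s : G) = g := hvs
    show ((s : G) : G ⧸ V) = (g : G ⧸ V)
    rw [← hvs', QuotientGroup.mk_mul, (QuotientGroup.eq_one_iff (v : G)).mpr v.2, one_mul]
  have hF : ∀ η : IrrCharacter G, (∀ v ∈ V, (η : G → ℂ) v = (η : G → ℂ) 1) →
      ∀ v ∈ V, ∀ g : G, (η : G → ℂ) (v * g) = (η : G → ℂ) g := by
    intro η hη v hv g
    obtain ⟨η', rfl⟩ := Cfsg.Agent.H82.exists_deflate V η hη
    rw [Cfsg.Agent.H82.inflate_apply, Cfsg.Agent.H82.inflate_apply]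
    rw [QuotientGroup.mk_mul, (QuotientGroup.eq_one_iff v).mpr hv, one_mul]
  have hres : ∀ η : IrrCharacter G, (∀ v ∈ V, (η : G → ℂ) v = (η : G → ℂ) 1) →
      IsIrrCharacter Γ₁ (fun s : Γ₁ => (η : G → ℂ) s) := by
    intro η hη
    obtain ⟨η', rfl⟩ := Cfsg.Agent.H82.exists_deflate V η hη
    exact Cfsg.Agent.H4.isIrrCharacter_comp_surjective φ hφsurj η'.2
  have hinf : ∀ ξ' : IrrCharacter Γ₁, ∃ ψ₁ : IrrCharacter G,
      (∀ v ∈ V, (ψ₁ : G → ℂ) v = (ψ₁ : G → ℂ) 1) ∧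
      ∀ s : Γ₁, (ψ₁ : G → ℂ) s = (ξ' : Γ₁ → ℂ) s := by
    intro ξ'
    let e : Γ₁ ≃* G ⧸ V := MulEquiv.ofBijective φ ⟨hφinj, hφsurj⟩
    have h1 : IsIrrCharacter (G ⧸ V) (fun q => (ξ' : Γ₁ → ℂ) (e.symm q)) :=
      Cfsg.Agent.H4.isIrrCharacter_comp_surjective e.symm.toMonoidHom e.symm.surjective ξ'.2
    refine ⟨Cfsg.Agent.H82.inflate V ⟨_, h1⟩, Cfsg.Agent.H82.inflate_mem V _, ?_⟩
    intro s
    rw [Cfsg.Agent.H82.inflate_apply]
    show (ξ' : Γ₁ → ℂ) (e.symm (QuotientGroup.mk (s : G))) = _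
    have h2 : (QuotientGroup.mk (s : G) : G ⧸ V) = e s := rfl
    rw [h2, MulEquiv.symm_apply_apply]
  -- the Burnside–Brauer step on the complement
  let C : Subgroup Γ₁ := (Subgroup.centralizer (V : Set G)).subgroupOf Γ₁
  have hCmem : ∀ q : Γ₁, q ∈ C ↔ ∀ v ∈ V, (q : G) * v = v * q := by
    intro q
    rw [Subgroup.mem_subgroupOf, Subgroup.mem_centralizer_iff]
    constructor
    · intro h v hv
      exact (h v hv).symm
    · intro h v hv
      exact (h v hv).symm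
  set π : Γ₁ → ℂ := fun s => fixCount V (s : G) with hπ
  have hπcf : IsClassFunction Γ₁ π := by
    intro s t
    simp only [hπ]
    rw [Subgroup.coe_mul, Subgroup.coe_mul, Subgroup.coe_inv, Cfsg.Agent.H32.Hc.fixCount_conj]
  have hπC : ∀ q : Γ₁, π q = π 1 ↔ q ∈ C := by
    intro q
    rw [hCmem]
    simp only [hπ, fixCount]
    rw [Nat.cast_inj]
    have h1 : Nat.card {v : V // (v : G) * ((1 : Γ₁) : G) = ((1 : Γ₁) : G) * (v : G)} =
        Nat.card V := by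
      apply Nat.card_congr
      exact Equiv.subtypeUnivEquiv (fun v => by simp)
    rw [h1]
    constructor
    · intro h v hv
      by_contra hne
      have h2 : ¬ ((⟨v, hv⟩ : V) : G) * (q : G) = (q : G) * ((⟨v, hv⟩ : V) : G) :=
        fun h' => hne h'.symm
      have h3 := Fintype.card_subtype_lt (p := fun v : V => (v : G) * (q : G) = (q : G) * (v : G)) h2
      rw [Nat.card_eq_fintype_card, Nat.card_eq_fintype_card] at h
      omega
    · intro h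
      apply Nat.card_congr
      exact Equiv.subtypeUnivEquiv (fun v => (h v v.2).symm)
  let S : Set (IrrCharacter Γ₁) := {ξ | ∃ η ∈ U, (∀ v ∈ V, (η : G → ℂ) v = (η : G → ℂ) 1) ∧
    ∀ s : Γ₁, (ξ : Γ₁ → ℂ) s = (η : G → ℂ) s}
  have hclosure : ∀ ξ ∈ S, ∀ ξ' : IrrCharacter Γ₁,
      classInner (fun q => (ξ : Γ₁ → ℂ) q * π q) (ξ' : Γ₁ → ℂ) ≠ 0 → ξ' ∈ S := by
    rintro ξ ⟨η, hηU, hηV, hηξ⟩ ξ' hne
    obtain ⟨ψ₁, hψ₁V, hψ₁⟩ := hinf ξ'
    refine ⟨ψ₁, ?_, hψ₁V, fun s => (hψ₁ s).symm⟩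
    apply hSP η hηU hηV ψ₁ hψ₁V
    intro h0
    apply hne
    unfold classInner
    rw [finsum_mem_subgroup] at h0
    have h1 : ∑ q : Γ₁, (ξ : Γ₁ → ℂ) q * π q * conj ((ξ' : Γ₁ → ℂ) q) =
        ∑ s : Γ₁, (η : G → ℂ) s * fixCount V s * conj ((ψ₁ : G → ℂ) s) := by
      refine Finset.sum_congr rfl fun q _ => ?_
      rw [hηξ q, hψ₁ q]
    rw [h1, h0, mul_zero]
  have hconc := hPoly Γ₁ C π hπcf hπC S hclosure
  -- apply to the restrictions of `χ` and `ψ`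
  let ξχ : IrrCharacter Γ₁ := ⟨fun s : Γ₁ => (χ : G → ℂ) s, hres χ hχV⟩
  let ξψ : IrrCharacter Γ₁ := ⟨fun s : Γ₁ => (ψ : G → ℂ) s, hres ψ hψV⟩
  have hξχS : ξχ ∈ S := ⟨χ, hχU, hχV, fun s => rfl⟩
  have hχ1 := Cfsg.Agent.H4.irr_one_ne_zero χ
  have hψ1 := Cfsg.Agent.H4.irr_one_ne_zero ψ
  have hsum : (∑ᶠ c ∈ (C : Set Γ₁), (ξχ : Γ₁ → ℂ) c * conj ((ξψ : Γ₁ → ℂ) c)) ≠ 0 := by
    have hterm : ∀ c ∈ (C : Set Γ₁), (ξχ : Γ₁ → ℂ) c * conj ((ξψ : Γ₁ → ℂ) c) =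
        (χ : G → ℂ) 1 * (ψ : G → ℂ) 1 := by
      intro c hcC
      have hcZ : (c : G) ∈ Z := hCZ c c.2 ((hCmem c).mp hcC)
      have h1 := hsame c hcZ
      have h2 : (ψ : G → ℂ) c * conj ((ψ : G → ℂ) c) = (ψ : G → ℂ) 1 * (ψ : G → ℂ) 1 := by
        rw [← Cfsg.Agent.H82.irr_inv ψ (c : G)]
        have h3 := irr_central_mul ψ (hZ hcZ) (c : G)⁻¹
        rw [inv_mul_cancel] at h3
        exact h3.symm
      show (χ : G → ℂ) c * conj ((ψ : G → ℂ) c) = _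
      apply mul_right_cancel₀ hψ1
      linear_combination (conj ((ψ : G → ℂ) c)) * h1 + ((χ : G → ℂ) 1) * h2
    rw [finsum_mem_congr rfl hterm]
    letI : Fintype C := Fintype.ofFinite C
    rw [finsum_mem_subgroup C (fun _ => (χ : G → ℂ) 1 * (ψ : G → ℂ) 1)]
    rw [Finset.sum_const, nsmul_eq_mul]
    apply mul_ne_zero
    · rw [Finset.card_univ]
      exact_mod_cast Fintype.card_ne_zero
    · exact mul_ne_zero hχ1 hψ1
  obtain ⟨η, hηU, hηV, hη⟩ := hconc ξχ hξχS ξψ hsum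
  have hψη : ψ = η := by
    apply Subtype.ext
    funext g
    obtain ⟨⟨v, s⟩, hvs⟩ := hc.2 g
    have hvs' : (v : G) * (s : G) = g := hvs
    rw [← hvs', hF ψ hψV v v.2, hF η hηV v v.2]
    exact hη s
  rw [hψη]
  exact hηU

end Cfsg.Agent.H81.Hc
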