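import Mathlib
import Cfsg.Prelude.Def_Blocks
import Cfsg.Prelude.Def_BlockRank
import Cfsg.Agent.H81.BlockDim
import Cfsg.Agent.S4425

set_option autoImplicit false
set_option linter.style.haveILetI false
set_option linter.unusedSectionVars false

/-!
# helper81: contributions `[p ^ a χ̃, ξ]` and heights (Brauer–Feit)

For `χ, ξ` in a block `B`, the integer `[p ^ a χ̃, ξ]` is nonzero with `p`-adic valuation
`ν_p(ξ 1)` exactly when `χ` has height zero.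
-/

namespace Cfsg.Agent.H81

open Cfsg Cfsg.Agent.H20
open ComplexConjugate

variable {G : Type*} [Group G] [Fintype G] {p : ℕ} [Fact p.Prime] {M : Ideal AlgInt}

/-- The central element with coefficients `conj (ξ g)` on the `p`-regular elements `g`. -/
noncomputable def zreg (p : ℕ) (ξ : G → ℂ) : MonoidAlgebra ℂ G :=
  ∑ g : G, MonoidAlgebra.single g (if p ∣ orderOf g then 0 else conj (ξ g))

theorem zreg_coeff (ξ : G → ℂ) (g : G) :
    (zreg p ξ).coeff g = if p ∣ orderOf g then 0 else conj (ξ g) := by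
  classical
  unfold zreg
  rw [MonoidAlgebra.coeff_sum, Finsupp.finsetSum_apply]
  simp only [MonoidAlgebra.coeff_single, Finsupp.single_apply]
  rw [Finset.sum_ite_eq']
  simp

theorem zreg_mem (hMp : M.IsPrime) (ξ : IrrCharacter G) :
    zreg p (ξ : G → ℂ) ∈ cfSubring G (localRing M hMp) := by
  refine ⟨fun g h => ?_, fun g => ?_⟩
  · rw [zreg_coeff, zreg_coeff, orderOf_conj_eq g h, Cfsg.Agent.H4.irr_isClassFunction ξ g h]
  · rw [zreg_coeff]
    split_ifs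
    · exact (localRing M hMp).zero_mem
    · rw [← irr_inv]
      exact memLocalRing_algInt hMp ⟨_, irr_isIntegral ξ g⁻¹⟩

/-- The function `p ^ a χ` on the `p`-regular elements, `0` elsewhere. -/
noncomputable def contribFun (p : ℕ) (χ : G → ℂ) : G → ℂ :=
  fun x => if p ∣ orderOf x then (0 : ℂ) else ((p ^ (Nat.card G).factorization p : ℕ) : ℂ) * χ x

theorem contrib_eq_omega (χ ξ : IrrCharacter G) :
    classInner (contribFun p (χ : G → ℂ)) (ξ : G → ℂ) =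
      (χ : G → ℂ) 1 / ((Nat.card G / p ^ (Nat.card G).factorization p : ℕ) : ℂ) *
        omega (χ : G → ℂ) (zreg p (ξ : G → ℂ)) := by
  classical
  have hp : p.Prime := Fact.out
  unfold classInner omega contribFun
  have hχ1 := irr_one_ne_zero χ
  have hcard : (Nat.card G : ℂ) = ((p ^ (Nat.card G).factorization p : ℕ) : ℂ) *
      ((Nat.card G / p ^ (Nat.card G).factorization p : ℕ) : ℂ) := by
    exact_mod_cast (Nat.ordProj_mul_ordCompl_eq_self (Nat.card G) p).symm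
  have h1 : ∑ g : G, (if p ∣ orderOf g then (0 : ℂ) else
      ((p ^ (Nat.card G).factorization p : ℕ) : ℂ) * (χ : G → ℂ) g) * conj ((ξ : G → ℂ) g) =
      ((p ^ (Nat.card G).factorization p : ℕ) : ℂ) *
        ∑ g : G, (zreg p (ξ : G → ℂ)).coeff g * (χ : G → ℂ) g := by
    rw [Finset.mul_sum]
    apply Finset.sum_congr rfl
    intro g _
    rw [zreg_coeff]
    split_ifs <;> ring
  rw [h1, hcard]
  have hpa : ((p ^ (Nat.card G).factorization p : ℕ) : ℂ) ≠ 0 := by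
    exact_mod_cast (pow_pos hp.pos _).ne'
  have hn : ((Nat.card G / p ^ (Nat.card G).factorization p : ℕ) : ℂ) ≠ 0 := by
    exact_mod_cast (Nat.ordCompl_pos p Nat.card_pos.ne').ne'
  field_simp

/-- The contributions are integers, and symmetric. -/
theorem contrib_int_symm (hM : IsPModular p M) (χ ξ : IrrCharacter G) :
    ∃ n : ℤ, classInner (contribFun p (χ : G → ℂ)) (ξ : G → ℂ) = n ∧
      classInner (contribFun p (ξ : G → ℂ)) (χ : G → ℂ) = n := by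
  classical
  obtain ⟨m, hm1, hm2⟩ := exists_int_coeff_pReg hM χ ((Nat.card G).factorization p)
    (Nat.sub_le _ _)
  have h1 : contribFun p (χ : G → ℂ) = ∑ᶠ ξ' : IrrCharacter G, (m ξ' : ℂ) • (ξ' : G → ℂ) := by
    funext x
    rw [Cfsg.Agent.H4.finsum_irr_apply, ← hm2 x]
    unfold contribFun
    rw [pRegularPart_apply]
    split_ifs <;> simp
  have h2 : classInner (contribFun p (χ : G → ℂ)) (ξ : G → ℂ) = m ξ := by
    rw [h1]; exact Cfsg.Agent.H4.classInner_finsum_irr _ ξ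
  refine ⟨m ξ, h2, ?_⟩
  have h3 : classInner (contribFun p (ξ : G → ℂ)) (χ : G → ℂ) =
      conj (classInner (contribFun p (χ : G → ℂ)) (ξ : G → ℂ)) := by
    unfold classInner contribFun
    rw [map_mul, map_inv₀, Complex.conj_natCast, map_sum]
    congr 1
    apply Finset.sum_congr rfl
    intro x _
    split_ifs
    · simp
    · rw [map_mul, map_mul, Complex.conj_natCast, Complex.conj_conj]; ring
  rw [h3, h2, map_intCast]

/-- For every irreducible `χ` some contribution `[p ^ a χ̃, ξ]`, `ξ` in the block of `χ`, is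
`p ^ ν_p(χ 1)` times an integer prime to `p`. -/
theorem exists_contrib_not_dvd (hM : IsPModular p M) (χ : IrrCharacter G) :
    ∃ ξ ∈ blockOf M (χ : G → ℂ), ∃ m : ℤ,
      classInner (contribFun p (χ : G → ℂ)) (ξ : G → ℂ) =
        ((p ^ (charDegree (χ : G → ℂ)).factorization p : ℕ) : ℂ) * m ∧ ¬ (p : ℤ) ∣ m := by
  classical
  letI := Cfsg.Agent.H4.fintypeIrr G
  have hp : p.Prime := Fact.out
  have hpC : (p : ℂ) ≠ 0 := by exact_mod_cast hp.ne_zero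
  obtain ⟨a, ha⟩ : ∃ a : ℕ, a = (Nat.card G).factorization p := ⟨_, rfl⟩
  obtain ⟨b, hb⟩ : ∃ b : ℕ, b = (charDegree (χ : G → ℂ)).factorization p := ⟨_, rfl⟩
  have hba : b ≤ a := by
    rw [hb, ha]
    exact (Nat.factorization_le_iff_dvd (irr_charDegree χ).2.ne' Nat.card_pos.ne').2
      (irr_charDegree_dvd χ) p
  have hpow : (p : ℂ) ^ a = (p : ℂ) ^ b * (p : ℂ) ^ (a - b) := by
    rw [← pow_add, Nat.add_sub_cancel' hba]
  obtain ⟨m, hm1, hm2⟩ := exists_int_coeff_pReg hM χ (a - b) (by rw [ha, hb])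
  by_contra hcon
  push Not at hcon
  have hall : ∀ ξ : IrrCharacter G, (p : ℤ) ∣ m ξ := by
    intro ξ
    by_cases hξ : ξ ∈ blockOf M (χ : G → ℂ)
    · apply hcon ξ hξ (m ξ)
      have h1 : contribFun p (χ : G → ℂ) =
          ∑ᶠ ξ' : IrrCharacter G, (((p ^ b : ℕ) : ℂ) * (m ξ' : ℂ)) • (ξ' : G → ℂ) := by
        funext x
        rw [Cfsg.Agent.H4.finsum_irr_apply]
        have h2 := hm2 x
        rw [Cfsg.Agent.H4.finsum_irr_eq_sum] at h2 ⊢
        simp only [mul_assoc]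
        rw [← Finset.mul_sum, ← h2, pRegularPart_apply]
        unfold contribFun
        rw [← ha]
        split_ifs
        · simp
        · push_cast
          rw [hpow]; ring
      rw [h1, ← hb]
      exact Cfsg.Agent.H4.classInner_finsum_irr _ ξ
    · rw [hm1 ξ hξ]; exact dvd_zero _
  choose m' hm' using hall
  apply (Cfsg.Agent.S4425.result p χ).2
  have h1 : (fun x : G => if p ∣ orderOf x then (0 : ℂ) else
      ((p ^ (Nat.card G).factorization p : ℕ) : ℂ) /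
        ((p ^ ((charDegree (χ : G → ℂ)).factorization p + 1) : ℕ) : ℂ) * (χ : G → ℂ) x) =
      ∑ᶠ ξ : IrrCharacter G, ((m' ξ : ℤ) : ℂ) • (ξ : G → ℂ) := by
    funext x
    rw [Cfsg.Agent.H4.finsum_irr_apply, Cfsg.Agent.H4.finsum_irr_eq_sum]
    have h2 := hm2 x
    rw [Cfsg.Agent.H4.finsum_irr_eq_sum] at h2
    have h3 : ∑ ξ : IrrCharacter G, (m ξ : ℂ) * (ξ : G → ℂ) x =
        (p : ℂ) * ∑ ξ : IrrCharacter G, ((m' ξ : ℤ) : ℂ) * (ξ : G → ℂ) x := by
      rw [Finset.mul_sum]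
      apply Finset.sum_congr rfl
      intro ξ _
      rw [hm' ξ]; push_cast; ring
    rw [h3, pRegularPart_apply] at h2
    rw [← ha, ← hb]
    split_ifs at h2 ⊢ with hx
    · rw [mul_zero] at h2
      exact ((mul_eq_zero.1 h2.symm).resolve_left hpC).symm
    · have h4 : ((p ^ a : ℕ) : ℂ) / ((p ^ (b + 1) : ℕ) : ℂ) = (p : ℂ) ^ (a - b) / (p : ℂ) := by
        push_cast
        rw [pow_succ, hpow]
        have : (p : ℂ) ^ b ≠ 0 := pow_ne_zero _ hpC
        field_simp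
      rw [h4, div_mul_eq_mul_div, h2]
      field_simp
  rw [h1]
  apply Cfsg.Agent.S4425.isGeneralizedCharacter_of_int
  · intro g h
    rw [Cfsg.Agent.H4.finsum_irr_apply, Cfsg.Agent.H4.finsum_irr_apply]
    congr 1
    funext ξ
    rw [Cfsg.Agent.H4.irr_isClassFunction ξ g h]
  · intro ψ
    exact ⟨m' ψ, Cfsg.Agent.H4.classInner_finsum_irr _ ψ⟩

/-- The arithmetic of `n · N' = p ^ k · u · Ω` with `Ω` a local integer. -/
theorem padic_arith (hM : IsPModular p M) (n : ℤ) (N' k u : ℕ) (Ω : ℂ)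
    (h : (n : ℂ) * (N' : ℂ) = (p : ℂ) ^ k * (u : ℂ) * Ω) (hN' : ¬ p ∣ N') (hu : ¬ p ∣ u)
    (hΩ : MemLocalRing M Ω) :
    ((p : ℤ) ^ k ∣ n) ∧ ((p : ℤ) ^ (k + 1) ∣ n ↔ MemLocalIdeal M Ω) := by
  have hp : p.Prime := Fact.out
  have hMp := isPrime_of_isPModular hM
  have hpC : (p : ℂ) ≠ 0 := by exact_mod_cast hp.ne_zero
  have hpi : Prime (p : ℤ) := Nat.prime_iff_prime_int.mp hp
  have hstep : ∀ i, i ≤ k → (p : ℤ) ^ i ∣ n := by
    intro i
    induction i with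
    | zero => intro _; simp
    | succ i ih =>
      intro hi
      obtain ⟨t, ht⟩ := ih (by omega)
      have h1 : (t : ℂ) * (N' : ℂ) = (p : ℂ) * ((p : ℂ) ^ (k - i - 1) * ((u : ℂ) * Ω)) := by
        have h2 : (p : ℂ) ^ k = (p : ℂ) ^ i * ((p : ℂ) * (p : ℂ) ^ (k - i - 1)) := by
          rw [← pow_succ', ← pow_add]; congr 1; omega
        have h3 : (p : ℂ) ^ i ≠ 0 := pow_ne_zero _ hpC
        apply mul_left_cancel₀ h3
        rw [ht] at h
        push_cast at h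
        rw [h2] at h
        linear_combination h
      have h4 : MemLocalIdeal M (((t * (N' : ℤ) : ℤ)) : ℂ) := by
        push_cast
        rw [h1]
        exact memLocalIdeal_mul_right hMp (memLocalIdeal_natCast_self hM)
          (memLocalRing_mul hMp (memLocalRing_pow hMp (memLocalRing_natCast hMp p) _)
            (memLocalRing_mul hMp (memLocalRing_natCast hMp u) hΩ))
      have h5 := (memLocalIdeal_intCast_iff hM _).1 h4
      rcases hpi.dvd_or_dvd h5 with h6 | h6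
      · obtain ⟨t', rfl⟩ := h6
        exact ⟨t', by rw [ht, pow_succ]; ring⟩
      · exact absurd (Int.natCast_dvd_natCast.1 h6) hN'
  refine ⟨hstep k le_rfl, ?_⟩
  obtain ⟨t, ht⟩ := hstep k le_rfl
  have h1 : (t : ℂ) * (N' : ℂ) = (u : ℂ) * Ω := by
    have h3 : (p : ℂ) ^ k ≠ 0 := pow_ne_zero _ hpC
    apply mul_left_cancel₀ h3
    rw [ht] at h
    push_cast at h
    linear_combination h
  constructor
  · intro hdiv
    have h2 : (p : ℤ) ∣ t := by
      rw [ht, pow_succ] at hdiv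
      exact (mul_dvd_mul_iff_left (pow_ne_zero k hpi.ne_zero)).1 hdiv
    have h3 : MemLocalIdeal M ((u : ℂ) * Ω) := by
      rw [← h1]
      exact memLocalIdeal_mul_right hMp ((memLocalIdeal_intCast_iff hM t).2 h2)
        (memLocalRing_natCast hMp N')
    rcases memLocalIdeal_or_of_mul hMp (memLocalRing_natCast hMp u) hΩ h3 with h4 | h4
    · exact absurd ((memLocalIdeal_natCast_iff hM u).1 h4) hu
    · exact h4
  · intro hΩI
    have h2 : MemLocalIdeal M (((t * (N' : ℤ) : ℤ)) : ℂ) := by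
      push_cast
      rw [h1]
      exact memLocalIdeal_mul_left hMp (memLocalRing_natCast hMp u) hΩI
    have h3 := (memLocalIdeal_intCast_iff hM _).1 h2
    rcases hpi.dvd_or_dvd h3 with h4 | h4
    · obtain ⟨t', rfl⟩ := h4
      exact ⟨t', by rw [ht, pow_succ]; ring⟩
    · exact absurd (Int.natCast_dvd_natCast.1 h4) hN'

/-- If `χ` has minimal `p`-part of degree in its block, every contribution `[p ^ a χ̃, ξ]` is
nonzero of `p`-adic valuation `ν_p(ξ 1)`. -/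
theorem contrib_of_height_zero (hM : IsPModular p M) (χ₀ χ ξ : IrrCharacter G)
    (hχ : χ ∈ blockOf M (χ₀ : G → ℂ)) (hξ : ξ ∈ blockOf M (χ₀ : G → ℂ))
    (hmin : ∀ ψ ∈ blockOf M (χ₀ : G → ℂ), (charDegree (χ : G → ℂ)).factorization p ≤
      (charDegree (ψ : G → ℂ)).factorization p) :
    ∃ n : ℤ, classInner (contribFun p (χ : G → ℂ)) (ξ : G → ℂ) = n ∧ n ≠ 0 ∧
      padicValInt p n = (charDegree (ξ : G → ℂ)).factorization p := by
  classical
  have hp : p.Prime := Fact.out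
  have hMp := isPrime_of_isPModular hM
  have hpC : (p : ℂ) ≠ 0 := by exact_mod_cast hp.ne_zero
  obtain ⟨n', hn'⟩ : ∃ n' : ℕ, n' = Nat.card G / p ^ (Nat.card G).factorization p := ⟨_, rfl⟩
  have hn'p : ¬ p ∣ n' := by
    rw [hn']; exact Nat.not_dvd_ordCompl hp Nat.card_pos.ne'
  have hn'C : (n' : ℂ) ≠ 0 := by
    have : n' ≠ 0 := fun h => hn'p (h ▸ dvd_zero p)
    exact_mod_cast this
  obtain ⟨n, hn1, hn2⟩ := contrib_int_symm hM χ ξ
  rw [contrib_eq_omega, ← hn'] at hn2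
  obtain ⟨Ω, hΩdef⟩ : ∃ Ω : ℂ, Ω = omega (ξ : G → ℂ) (zreg p (χ : G → ℂ)) := ⟨_, rfl⟩
  rw [← hΩdef] at hn2
  have hΩ : MemLocalRing M Ω := by
    rw [hΩdef]; exact omega_memLocalRing hMp ξ (zreg_mem hMp χ)
  obtain ⟨k, hk⟩ : ∃ k : ℕ, k = (charDegree (ξ : G → ℂ)).factorization p := ⟨_, rfl⟩
  obtain ⟨u, hu⟩ : ∃ u : ℕ, u = charDegree (ξ : G → ℂ) / p ^ k := ⟨_, rfl⟩
  have hup : ¬ p ∣ u := by
    rw [hu, hk]; exact Nat.not_dvd_ordCompl hp (irr_charDegree ξ).2.ne'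
  have hdegξ : (ξ : G → ℂ) 1 = (p : ℂ) ^ k * (u : ℂ) := by
    rw [(irr_charDegree ξ).1, hu, hk]
    exact_mod_cast (Nat.ordProj_mul_ordCompl_eq_self (charDegree (ξ : G → ℂ)) p).symm
  have heq : (n : ℂ) * (n' : ℂ) = (p : ℂ) ^ k * (u : ℂ) * Ω := by
    rw [← hn2, hdegξ]
    field_simp
  -- `Ω` is a unit
  have hΩn : ¬ MemLocalIdeal M Ω := by
    intro hI
    obtain ⟨ξ', hξ', m, hm1, hm2⟩ := exists_contrib_not_dvd hM χ
    obtain ⟨n₂, hn21, hn22⟩ := contrib_int_symm hM χ ξ'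
    rw [contrib_eq_omega, ← hn'] at hn22
    have hχ₀χ : SameBlock M (χ₀ : G → ℂ) (χ : G → ℂ) := hχ
    have hχ₀ξ : SameBlock M (χ₀ : G → ℂ) (ξ : G → ℂ) := hξ
    have hχξ' : SameBlock M (χ : G → ℂ) (ξ' : G → ℂ) := hξ'
    have hξ'B : ξ' ∈ blockOf M (χ₀ : G → ℂ) := Cfsg.Agent.H80.sameBlock_trans hMp hχ₀χ hχξ'
    obtain ⟨b, hb⟩ : ∃ b : ℕ, b = (charDegree (χ : G → ℂ)).factorization p := ⟨_, rfl⟩
    have hbdvd : p ^ b ∣ charDegree (ξ' : G → ℂ) :=
      (pow_dvd_pow p (hb ▸ hmin ξ' hξ'B)).trans (Nat.ordProj_dvd _ p)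
    obtain ⟨μ', hμ'⟩ := hbdvd
    have hdegξ' : (ξ' : G → ℂ) 1 = (p : ℂ) ^ b * (μ' : ℂ) := by
      rw [(irr_charDegree ξ').1, hμ']; push_cast; rfl
    obtain ⟨Ω', hΩ'def⟩ : ∃ Ω' : ℂ, Ω' = omega (ξ' : G → ℂ) (zreg p (χ : G → ℂ)) := ⟨_, rfl⟩
    rw [← hΩ'def, hdegξ'] at hn22
    rw [hn21, ← hb] at hm1
    have h1 : ((m * (n' : ℤ) : ℤ) : ℂ) = (μ' : ℂ) * Ω' := by
      have h2 : (p : ℂ) ^ b ≠ 0 := pow_ne_zero _ hpC
      push_cast
      rw [hm1] at hn22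
      push_cast at hn22
      field_simp at hn22
      linear_combination -hn22
    have h3 : MemLocalIdeal M (Ω' - Ω) := by
      rw [hΩ'def, hΩdef]
      exact omega_sub_omega_memLocalIdeal hMp _ _ (Cfsg.Agent.H4.irr_isClassFunction ξ')
        (Cfsg.Agent.H4.irr_isClassFunction ξ)
        (Cfsg.Agent.H80.sameBlock_trans hMp (Cfsg.Agent.H80.sameBlock_symm hχξ')
          (Cfsg.Agent.H80.sameBlock_trans hMp (Cfsg.Agent.H80.sameBlock_symm hχ₀χ) hχ₀ξ))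
        (zreg_mem hMp χ)
    have h4 : MemLocalIdeal M Ω' := by
      have := memLocalIdeal_add hMp h3 hI
      rwa [sub_add_cancel] at this
    have h5 : MemLocalIdeal M ((m * (n' : ℤ) : ℤ) : ℂ) := by
      rw [h1]; exact memLocalIdeal_mul_left hMp (memLocalRing_natCast hMp μ') h4
    have h6 := (memLocalIdeal_intCast_iff hM _).1 h5
    rcases (Nat.prime_iff_prime_int.mp hp).dvd_or_dvd h6 with h7 | h7
    · exact hm2 h7
    · exact hn'p (Int.natCast_dvd_natCast.1 h7)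
  obtain ⟨h1, h2⟩ := padic_arith hM n n' k u Ω heq hn'p hup hΩ
  have hn0 : n ≠ 0 := by
    rintro rfl
    apply hΩn
    have h3 : (p : ℂ) ^ k * (u : ℂ) * Ω = 0 := by rw [← heq]; simp
    have hu0 : (u : ℂ) ≠ 0 := by
      have : u ≠ 0 := fun h => hup (h ▸ dvd_zero p)
      exact_mod_cast this
    have h4 : Ω = 0 := by
      rcases mul_eq_zero.1 h3 with h5 | h5
      · rcases mul_eq_zero.1 h5 with h6 | h6
        · exact absurd h6 (pow_ne_zero _ hpC)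
        · exact absurd h6 hu0
      · exact h5
    rw [h4]; exact memLocalIdeal_zero hMp
  refine ⟨n, hn1, hn0, ?_⟩
  rw [← hk]
  have h3 := (padicValInt_dvd_iff k n).1 h1
  have h4 : ¬ (p : ℤ) ^ (k + 1) ∣ n := fun h => hΩn (h2.1 h)
  have h5 : ¬ (k + 1 ≤ padicValInt p n) := fun h =>
    h4 ((padicValInt_dvd_iff (k + 1) n).2 (Or.inr h))
  rcases h3 with h6 | h6
  · exact absurd h6 hn0
  · omega

/-- Conversely, a contribution of the right valuation forces `χ` to have minimal `p`-part of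
degree. -/
theorem height_zero_of_contrib (hM : IsPModular p M) (χ₀ χ ξ : IrrCharacter G)
    (hχ : χ ∈ blockOf M (χ₀ : G → ℂ)) (hξ : ξ ∈ blockOf M (χ₀ : G → ℂ)) (n : ℤ)
    (hn : classInner (contribFun p (χ : G → ℂ)) (ξ : G → ℂ) = n) (hn0 : n ≠ 0)
    (hv : padicValInt p n = (charDegree (ξ : G → ℂ)).factorization p)
    (ξ₁ : IrrCharacter G) (hξ₁ : ξ₁ ∈ blockOf M (χ₀ : G → ℂ)) :
    (charDegree (χ : G → ℂ)).factorization p ≤ (charDegree (ξ₁ : G → ℂ)).factorization p := by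
  classical
  have hp : p.Prime := Fact.out
  have hMp := isPrime_of_isPModular hM
  have hpC : (p : ℂ) ≠ 0 := by exact_mod_cast hp.ne_zero
  obtain ⟨n', hn'⟩ : ∃ n' : ℕ, n' = Nat.card G / p ^ (Nat.card G).factorization p := ⟨_, rfl⟩
  have hn'p : ¬ p ∣ n' := by
    rw [hn']; exact Nat.not_dvd_ordCompl hp Nat.card_pos.ne'
  have hn'C : (n' : ℂ) ≠ 0 := by
    have : n' ≠ 0 := fun h => hn'p (h ▸ dvd_zero p)
    exact_mod_cast this
  by_contra hlt
  push Not at hlt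
  obtain ⟨e₁, he₁⟩ : ∃ e₁ : ℕ, e₁ = (charDegree (ξ₁ : G → ℂ)).factorization p := ⟨_, rfl⟩
  rw [← he₁] at hlt
  have hχ₀χ : SameBlock M (χ₀ : G → ℂ) (χ : G → ℂ) := hχ
  have hχ₀ξ : SameBlock M (χ₀ : G → ℂ) (ξ : G → ℂ) := hξ
  have hχ₀ξ₁ : SameBlock M (χ₀ : G → ℂ) (ξ₁ : G → ℂ) := hξ₁
  -- degrees
  obtain ⟨w, hw⟩ : p ^ (e₁ + 1) ∣ charDegree (χ : G → ℂ) :=
    (pow_dvd_pow p hlt).trans (Nat.ordProj_dvd _ p)
  have hdegχ : (χ : G → ℂ) 1 = (p : ℂ) ^ (e₁ + 1) * (w : ℂ) := by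
    rw [(irr_charDegree χ).1, hw]; push_cast; rfl
  obtain ⟨μ₁, hμ₁⟩ : ∃ μ₁ : ℕ, μ₁ = charDegree (ξ₁ : G → ℂ) / p ^ e₁ := ⟨_, rfl⟩
  have hμ₁p : ¬ p ∣ μ₁ := by
    rw [hμ₁, he₁]; exact Nat.not_dvd_ordCompl hp (irr_charDegree ξ₁).2.ne'
  have hdegξ₁ : (ξ₁ : G → ℂ) 1 = (p : ℂ) ^ e₁ * (μ₁ : ℂ) := by
    rw [(irr_charDegree ξ₁).1, hμ₁, he₁]
    exact_mod_cast (Nat.ordProj_mul_ordCompl_eq_self (charDegree (ξ₁ : G → ℂ)) p).symm
  -- the pair `(χ, ξ₁)`
  obtain ⟨n₂, h21, h22⟩ := contrib_int_symm hM χ ξ₁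
  rw [contrib_eq_omega, ← hn', hdegχ] at h21
  rw [contrib_eq_omega, ← hn', hdegξ₁] at h22
  obtain ⟨Ωa, hΩa⟩ : ∃ Ωa : ℂ, Ωa = omega (χ : G → ℂ) (zreg p (ξ₁ : G → ℂ)) := ⟨_, rfl⟩
  obtain ⟨Ωb, hΩb⟩ : ∃ Ωb : ℂ, Ωb = omega (ξ₁ : G → ℂ) (zreg p (χ : G → ℂ)) := ⟨_, rfl⟩
  rw [← hΩa] at h21
  rw [← hΩb] at h22
  have hΩaR : MemLocalRing M Ωa := by
    rw [hΩa]; exact omega_memLocalRing hMp χ (zreg_mem hMp ξ₁)
  have hΩbR : MemLocalRing M Ωb := by
    rw [hΩb]; exact omega_memLocalRing hMp ξ₁ (zreg_mem hMp χ)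
  have h3 : (μ₁ : ℂ) * Ωb = (p : ℂ) * ((w : ℂ) * Ωa) := by
    have h4 : (p : ℂ) ^ e₁ ≠ 0 := pow_ne_zero _ hpC
    have h5 := h21.trans h22.symm
    rw [pow_succ] at h5
    field_simp at h5
    linear_combination -h5
  have hΩbI : MemLocalIdeal M Ωb := by
    have h4 : MemLocalIdeal M ((μ₁ : ℂ) * Ωb) := by
      rw [h3]
      exact memLocalIdeal_mul_right hMp (memLocalIdeal_natCast_self hM)
        (memLocalRing_mul hMp (memLocalRing_natCast hMp w) hΩaR)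
    rcases memLocalIdeal_or_of_mul hMp (memLocalRing_natCast hMp μ₁) hΩbR h4 with h5 | h5
    · exact absurd ((memLocalIdeal_natCast_iff hM μ₁).1 h5) hμ₁p
    · exact h5
  -- the pair `(χ, ξ)`
  obtain ⟨Ωc, hΩc⟩ : ∃ Ωc : ℂ, Ωc = omega (ξ : G → ℂ) (zreg p (χ : G → ℂ)) := ⟨_, rfl⟩
  have hΩcR : MemLocalRing M Ωc := by
    rw [hΩc]; exact omega_memLocalRing hMp ξ (zreg_mem hMp χ)
  have hΩcI : MemLocalIdeal M Ωc := by
    have h4 : MemLocalIdeal M (Ωc - Ωb) := by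
      rw [hΩc, hΩb]
      exact omega_sub_omega_memLocalIdeal hMp _ _ (Cfsg.Agent.H4.irr_isClassFunction ξ)
        (Cfsg.Agent.H4.irr_isClassFunction ξ₁)
        (Cfsg.Agent.H80.sameBlock_trans hMp (Cfsg.Agent.H80.sameBlock_symm hχ₀ξ) hχ₀ξ₁)
        (zreg_mem hMp χ)
    have := memLocalIdeal_add hMp h4 hΩbI
    rwa [sub_add_cancel] at this
  obtain ⟨n₃, h31, h32⟩ := contrib_int_symm hM χ ξ
  have hn3 : n₃ = n := by
    have : (n₃ : ℂ) = (n : ℂ) := h31.symm.trans hn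
    exact_mod_cast this
  rw [hn3, contrib_eq_omega, ← hn', ← hΩc] at h32
  obtain ⟨k, hk⟩ : ∃ k : ℕ, k = (charDegree (ξ : G → ℂ)).factorization p := ⟨_, rfl⟩
  obtain ⟨u, hu⟩ : ∃ u : ℕ, u = charDegree (ξ : G → ℂ) / p ^ k := ⟨_, rfl⟩
  have hup : ¬ p ∣ u := by
    rw [hu, hk]; exact Nat.not_dvd_ordCompl hp (irr_charDegree ξ).2.ne'
  have hdegξ : (ξ : G → ℂ) 1 = (p : ℂ) ^ k * (u : ℂ) := by
    rw [(irr_charDegree ξ).1, hu, hk]
    exact_mod_cast (Nat.ordProj_mul_ordCompl_eq_self (charDegree (ξ : G → ℂ)) p).symm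
  have heq : (n : ℂ) * (n' : ℂ) = (p : ℂ) ^ k * (u : ℂ) * Ωc := by
    rw [← h32, hdegξ]
    field_simp
  obtain ⟨_, h2⟩ := padic_arith hM n n' k u Ωc heq hn'p hup hΩcR
  have h5 := (padicValInt_dvd_iff (k + 1) n).1 (h2.2 hΩcI)
  rw [← hk] at hv
  rcases h5 with h6 | h6
  · exact hn0 h6
  · omega

/-- **Brauer–Feit**: height zero characterised by contributions. -/
theorem height_zero_iff_contrib (hM : IsPModular p M) (B : Set (IrrCharacter G))
    (hB : IsPBlock M B) (χ : IrrCharacter G) (hχ : χ ∈ B) :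
    (blockHeight p B (χ : G → ℂ) = 0 ↔ ∃ ξ ∈ B, ∃ n : ℤ,
      classInner (contribFun p (χ : G → ℂ)) (ξ : G → ℂ) = (n : ℂ) ∧ n ≠ 0 ∧
        padicValInt p n = (charDegree (ξ : G → ℂ)).factorization p) ∧
    (blockHeight p B (χ : G → ℂ) = 0 ↔ ∀ ξ ∈ B, ∃ n : ℤ,
      classInner (contribFun p (χ : G → ℂ)) (ξ : G → ℂ) = (n : ℂ) ∧ n ≠ 0 ∧
        padicValInt p n = (charDegree (ξ : G → ℂ)).factorization p) := by
  classical
  obtain ⟨χ₀, rfl⟩ := hB
  have hne : ((fun χ : IrrCharacter G => (charDegree (χ : G → ℂ)).factorization p) ''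
      blockOf M (χ₀ : G → ℂ)).Nonempty := ⟨_, χ, hχ, rfl⟩
  obtain ⟨χ₁, hχ₁, he⟩ := Nat.sInf_mem hne
  have he : (charDegree (χ₁ : G → ℂ)).factorization p =
      sInf ((fun χ : IrrCharacter G => (charDegree (χ : G → ℂ)).factorization p) ''
        blockOf M (χ₀ : G → ℂ)) := he
  have hh : blockHeight p (blockOf M (χ₀ : G → ℂ)) (χ : G → ℂ) = 0 ↔
      (charDegree (χ : G → ℂ)).factorization p ≤ (charDegree (χ₁ : G → ℂ)).factorization p := by
    unfold blockHeight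
    rw [← he]
    exact Nat.sub_eq_zero_iff_le
  have hA : (charDegree (χ : G → ℂ)).factorization p ≤
      (charDegree (χ₁ : G → ℂ)).factorization p → ∀ ξ ∈ blockOf M (χ₀ : G → ℂ), ∃ n : ℤ,
      classInner (contribFun p (χ : G → ℂ)) (ξ : G → ℂ) = (n : ℂ) ∧ n ≠ 0 ∧
        padicValInt p n = (charDegree (ξ : G → ℂ)).factorization p := fun h ξ hξ =>
    contrib_of_height_zero hM χ₀ χ ξ hχ hξ
      (fun ψ hψ => h.trans (he ▸ Nat.sInf_le ⟨ψ, hψ, rfl⟩))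
  have hB' : (∃ ξ ∈ blockOf M (χ₀ : G → ℂ), ∃ n : ℤ,
      classInner (contribFun p (χ : G → ℂ)) (ξ : G → ℂ) = (n : ℂ) ∧ n ≠ 0 ∧
        padicValInt p n = (charDegree (ξ : G → ℂ)).factorization p) →
      (charDegree (χ : G → ℂ)).factorization p ≤ (charDegree (χ₁ : G → ℂ)).factorization p :=
    fun ⟨ξ, hξ, n, h1, h2, h3⟩ => height_zero_of_contrib hM χ₀ χ ξ hχ hξ n h1 h2 h3 χ₁ hχ₁
  exact ⟨⟨fun h => ⟨χ, hχ, hA (hh.1 h) χ hχ⟩, fun h => hh.2 (hB' h)⟩,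
    ⟨fun h => hA (hh.1 h), fun h => hh.2 (hB' ⟨χ, hχ, h χ hχ⟩)⟩⟩

end Cfsg.Agent.H81
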