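import Mathlib
import Cfsg.Prelude.Def_Blocks
import Cfsg.Prelude.Def_BlockRank
import Cfsg.Agent.H81.Contrib

set_option autoImplicit false
set_option linter.style.haveILetI false
set_option linter.unusedSectionVars false

/-!
# helper81: the Brauer–Feit bound

`contrib_row`: the row of contributions of a height zero character `χ₁` of a block `B`:
integers `r ξ` (`ξ ∈ B`), nonzero, with `ν_p(r ξ) = h(ξ)` and `∑ r ξ ^ 2 = p ^ d · r χ₁`.
`sum_pow_height_le`: `∑_{χ ∈ B} p ^ (2 h(χ)) ≤ p ^ (2d) / 4 + 1`.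
-/

namespace Cfsg.Agent.H81

open Cfsg Cfsg.Agent.H20
open ComplexConjugate

variable {G : Type*} [Group G] [Fintype G] {p : ℕ} [Fact p.Prime] {M : Ideal AlgInt}

/-- The row of contributions of a character of height zero. -/
theorem contrib_row (hM : IsPModular p M) (χ₀ χ₁ : IrrCharacter G)
    (hχ₁ : χ₁ ∈ blockOf M (χ₀ : G → ℂ))
    (hmin : ∀ ψ ∈ blockOf M (χ₀ : G → ℂ), (charDegree (χ₁ : G → ℂ)).factorization p ≤
      (charDegree (ψ : G → ℂ)).factorization p) :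
    ∃ r : IrrCharacter G → ℤ,
      (∀ ξ ∈ blockOf M (χ₀ : G → ℂ), r ξ ≠ 0 ∧ padicValInt p (r ξ) =
        (charDegree (ξ : G → ℂ)).factorization p - (charDegree (χ₁ : G → ℂ)).factorization p) ∧
      ∑ᶠ ξ ∈ blockOf M (χ₀ : G → ℂ), r ξ ^ 2 =
        (p : ℤ) ^ ((Nat.card G).factorization p - (charDegree (χ₁ : G → ℂ)).factorization p) *
          r χ₁ := by
  classical
  letI := Cfsg.Agent.H4.fintypeIrr G
  have hp : p.Prime := Fact.out
  have hMp := isPrime_of_isPModular hM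
  have hpZ : (p : ℤ) ≠ 0 := by exact_mod_cast hp.ne_zero
  obtain ⟨a, ha⟩ : ∃ a : ℕ, a = (Nat.card G).factorization p := ⟨_, rfl⟩
  obtain ⟨e, he⟩ : ∃ e : ℕ, e = (charDegree (χ₁ : G → ℂ)).factorization p := ⟨_, rfl⟩
  have hea : e ≤ a := by
    rw [he, ha]
    exact (Nat.factorization_le_iff_dvd (irr_charDegree χ₁).2.ne' Nat.card_pos.ne').2
      (irr_charDegree_dvd χ₁) p
  rw [← ha, ← he]
  rw [← he] at hmin
  have hblock : blockOf M (χ₁ : G → ℂ) = blockOf M (χ₀ : G → ℂ) :=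
    Cfsg.Agent.H80.blockOf_eq_of_mem hMp hχ₁
  obtain ⟨m, hm1, hm2⟩ := exists_int_coeff_pReg hM χ₁ a (by rw [ha]; exact Nat.sub_le _ _)
  rw [hblock] at hm1
  have hF : contribFun p (χ₁ : G → ℂ) =
      ∑ᶠ ξ' : IrrCharacter G, (m ξ' : ℂ) • (ξ' : G → ℂ) := by
    funext x
    rw [Cfsg.Agent.H4.finsum_irr_apply, ← hm2 x]
    unfold contribFun
    rw [pRegularPart_apply, ← ha]
    split_ifs <;> simp
  have hcoef : ∀ ξ : IrrCharacter G,
      classInner (contribFun p (χ₁ : G → ℂ)) (ξ : G → ℂ) = m ξ := by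
    intro ξ
    rw [hF]; exact Cfsg.Agent.H4.classInner_finsum_irr _ ξ
  have hval : ∀ ξ ∈ blockOf M (χ₀ : G → ℂ), m ξ ≠ 0 ∧
      padicValInt p (m ξ) = (charDegree (ξ : G → ℂ)).factorization p := by
    intro ξ hξ
    obtain ⟨n, h1, h2, h3⟩ := contrib_of_height_zero hM χ₀ χ₁ ξ hχ₁ hξ (by rw [← he]; exact hmin)
    have h4 : n = m ξ := by
      have : (n : ℂ) = (m ξ : ℂ) := h1.symm.trans (hcoef ξ)
      exact_mod_cast this
    rw [← h4]
    exact ⟨h2, h3⟩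
  have hdiv : ∀ ξ : IrrCharacter G, (p : ℤ) ^ e ∣ m ξ := by
    intro ξ
    by_cases hξ : ξ ∈ blockOf M (χ₀ : G → ℂ)
    · rw [padicValInt_dvd_iff]
      right
      rw [(hval ξ hξ).2]
      exact hmin ξ hξ
    · rw [hm1 ξ hξ]; exact dvd_zero _
  choose r hr using hdiv
  have hpe : padicValInt p ((p : ℤ) ^ e) = e := by
    have h1 : ((p : ℤ) ^ e) = ((p ^ e : ℕ) : ℤ) := by push_cast; rfl
    rw [h1, padicValInt.of_nat, padicValNat.prime_pow]
  refine ⟨r, ?_, ?_⟩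
  · intro ξ hξ
    obtain ⟨h1, h2⟩ := hval ξ hξ
    rw [hr ξ] at h1 h2
    have hr0 : r ξ ≠ 0 := fun h => h1 (by rw [h, mul_zero])
    refine ⟨hr0, ?_⟩
    rw [padicValInt.mul (pow_ne_zero _ hpZ) hr0, hpe] at h2
    omega
  · -- Parseval
    have h1 : classInner (contribFun p (χ₁ : G → ℂ)) (contribFun p (χ₁ : G → ℂ)) =
        ∑ ξ : IrrCharacter G, (m ξ : ℂ) * (m ξ : ℂ) := by
      conv_lhs => rw [hF]
      rw [Cfsg.Agent.H32.classInner_finsum_finsum, Cfsg.Agent.H4.finsum_irr_eq_sum]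
      apply Finset.sum_congr rfl
      intro ξ _
      rw [map_intCast]
    have h2 : classInner (contribFun p (χ₁ : G → ℂ)) (contribFun p (χ₁ : G → ℂ)) =
        ((p ^ a : ℕ) : ℂ) * classInner (contribFun p (χ₁ : G → ℂ)) (χ₁ : G → ℂ) := by
      unfold classInner contribFun
      rw [← ha, mul_left_comm (((p ^ a : ℕ) : ℂ))]
      congr 1
      rw [Finset.mul_sum]
      apply Finset.sum_congr rfl
      intro x _
      split_ifs
      · simp
      · rw [map_mul, Complex.conj_natCast]; ring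
    rw [hcoef χ₁] at h2
    have h3 : ∑ ξ : IrrCharacter G, m ξ * m ξ = (p : ℤ) ^ a * m χ₁ := by
      have : ((∑ ξ : IrrCharacter G, m ξ * m ξ : ℤ) : ℂ) = (((p : ℤ) ^ a * m χ₁ : ℤ) : ℂ) := by
        push_cast
        rw [← h1, h2]
        push_cast
        rfl
      exact_mod_cast this
    obtain ⟨s, hs⟩ : ∃ s : Finset (IrrCharacter G),
        s = Finset.univ.filter (· ∈ blockOf M (χ₀ : G → ℂ)) := ⟨_, rfl⟩
    have hBs : blockOf M (χ₀ : G → ℂ) = (s : Set (IrrCharacter G)) := by ext χ; simp [hs]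
    rw [(finsum_mem_congr hBs (fun _ _ => rfl)).trans (finsum_mem_coe_finset _ _)]
    have h4 : ∑ ξ : IrrCharacter G, m ξ * m ξ = (p : ℤ) ^ (2 * e) * ∑ ξ ∈ s, r ξ ^ 2 := by
      rw [hs, Finset.sum_filter, Finset.mul_sum]
      apply Finset.sum_congr rfl
      intro ξ _
      split_ifs with hξ
      · rw [hr ξ]; ring
      · rw [hm1 ξ hξ]; ring
    rw [h4, hr χ₁] at h3
    have h5 : (p : ℤ) ^ (2 * e) ≠ 0 := pow_ne_zero _ hpZ
    apply mul_left_cancel₀ h5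
    rw [h3]
    have h6 : (p : ℤ) ^ a = (p : ℤ) ^ e * (p : ℤ) ^ (a - e) := by
      rw [← pow_add, Nat.add_sub_cancel' hea]
    rw [h6]
    ring

/-- **Brauer–Feit**: `∑_{χ ∈ B} p ^ (2 h(χ)) ≤ p ^ (2d) / 4 + 1`. -/
theorem sum_pow_height_le (hM : IsPModular p M) (B : Set (IrrCharacter G))
    (hB : IsPBlock M B) :
    ∑ᶠ χ ∈ B, p ^ (2 * blockHeight p B (χ : G → ℂ)) ≤ p ^ (2 * blockDefect p B) / 4 + 1 := by
  classical
  letI := Cfsg.Agent.H4.fintypeIrr G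
  have hp : p.Prime := Fact.out
  have hMp := isPrime_of_isPModular hM
  obtain ⟨χ₀, rfl⟩ := hB
  have h₀ : χ₀ ∈ blockOf M (χ₀ : G → ℂ) := mem_blockOf_self hM χ₀
  have hne : ((fun χ : IrrCharacter G => (charDegree (χ : G → ℂ)).factorization p) ''
      blockOf M (χ₀ : G → ℂ)).Nonempty := ⟨_, χ₀, h₀, rfl⟩
  obtain ⟨χ₁, hχ₁, he⟩ := Nat.sInf_mem hne
  have he : (charDegree (χ₁ : G → ℂ)).factorization p =
      sInf ((fun χ : IrrCharacter G => (charDegree (χ : G → ℂ)).factorization p) ''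
        blockOf M (χ₀ : G → ℂ)) := he
  have hmin : ∀ ψ ∈ blockOf M (χ₀ : G → ℂ), (charDegree (χ₁ : G → ℂ)).factorization p ≤
      (charDegree (ψ : G → ℂ)).factorization p := fun ψ hψ => he ▸ Nat.sInf_le ⟨ψ, hψ, rfl⟩
  obtain ⟨r, hr1, hr2⟩ := contrib_row hM χ₀ χ₁ hχ₁ hmin
  obtain ⟨D, hD⟩ : ∃ D : ℕ, D = blockDefect p (blockOf M (χ₀ : G → ℂ)) := ⟨_, rfl⟩
  have hD' : D = (Nat.card G).factorization p - (charDegree (χ₁ : G → ℂ)).factorization p := by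
    rw [hD]; unfold blockDefect; rw [← he]
  rw [← hD', ] at hr2
  rw [← hD]
  have hh : ∀ ξ : IrrCharacter G, blockHeight p (blockOf M (χ₀ : G → ℂ)) (ξ : G → ℂ) =
      (charDegree (ξ : G → ℂ)).factorization p - (charDegree (χ₁ : G → ℂ)).factorization p := by
    intro ξ
    unfold blockHeight
    rw [← he]
  obtain ⟨s, hs⟩ : ∃ s : Finset (IrrCharacter G),
      s = Finset.univ.filter (· ∈ blockOf M (χ₀ : G → ℂ)) := ⟨_, rfl⟩
  have hmem : ∀ χ, χ ∈ s ↔ χ ∈ blockOf M (χ₀ : G → ℂ) := fun χ => by simp [hs]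
  have hBs : blockOf M (χ₀ : G → ℂ) = (s : Set (IrrCharacter G)) := by ext χ; simp [hs]
  rw [(finsum_mem_congr hBs (fun _ _ => rfl)).trans (finsum_mem_coe_finset _ _)] at hr2 ⊢
  have hχ₁s : χ₁ ∈ s := (hmem χ₁).2 hχ₁
  rw [← Finset.add_sum_erase s _ hχ₁s] at hr2 ⊢
  have h1 : p ^ (2 * blockHeight p (blockOf M (χ₀ : G → ℂ)) (χ₁ : G → ℂ)) = 1 := by
    rw [hh, Nat.sub_self, mul_zero, pow_zero]
  rw [h1, add_comm]
  apply Nat.add_le_add_right
  rw [Nat.le_div_iff_mul_le (by norm_num)]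
  -- termwise bound
  have h2 : ∀ ξ ∈ s.erase χ₁,
      ((p ^ (2 * blockHeight p (blockOf M (χ₀ : G → ℂ)) (ξ : G → ℂ)) : ℕ) : ℤ) ≤ r ξ ^ 2 := by
    intro ξ hξ
    have hξB : ξ ∈ blockOf M (χ₀ : G → ℂ) := (hmem ξ).1 (Finset.mem_of_mem_erase hξ)
    obtain ⟨h3, h4⟩ := hr1 ξ hξB
    rw [hh, ← h4]
    have h5 : (p : ℤ) ^ (padicValInt p (r ξ)) ∣ r ξ :=
      (padicValInt_dvd_iff _ _).2 (Or.inr le_rfl)
    obtain ⟨t, ht⟩ := h5
    have ht0 : t ≠ 0 := fun h => h3 (by rw [ht, h, mul_zero])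
    have ht1 : 1 ≤ t ^ 2 := by
      have : 0 < t ^ 2 := by positivity
      omega
    have h6 : r ξ ^ 2 = ((p : ℤ) ^ (padicValInt p (r ξ))) ^ 2 * t ^ 2 := by
      conv_lhs => rw [ht]
      ring
    rw [h6]
    push_cast
    rw [pow_mul']
    have h7 : (0 : ℤ) ≤ ((p : ℤ) ^ padicValInt p (r ξ)) ^ 2 := by positivity
    nlinarith
  have h3 : ((∑ ξ ∈ s.erase χ₁,
      p ^ (2 * blockHeight p (blockOf M (χ₀ : G → ℂ)) (ξ : G → ℂ)) : ℕ) : ℤ) ≤
      ∑ ξ ∈ s.erase χ₁, r ξ ^ 2 := by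
    push_cast
    apply Finset.sum_le_sum
    intro ξ hξ
    have := h2 ξ hξ
    push_cast at this
    exact this
  have h4 : ∑ ξ ∈ s.erase χ₁, r ξ ^ 2 = (p : ℤ) ^ D * r χ₁ - r χ₁ ^ 2 := by
    rw [← hr2]; ring
  have h5 : ((∑ ξ ∈ s.erase χ₁,
      p ^ (2 * blockHeight p (blockOf M (χ₀ : G → ℂ)) (ξ : G → ℂ)) : ℕ) : ℤ) * 4 ≤
      ((p ^ (2 * D) : ℕ) : ℤ) := by
    push_cast
    rw [h4] at h3
    push_cast at h3
    have h6 : (p : ℤ) ^ (2 * D) = ((p : ℤ) ^ D) ^ 2 := by rw [pow_mul']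
    rw [h6]
    nlinarith [sq_nonneg ((p : ℤ) ^ D - 2 * r χ₁)]
  exact_mod_cast h5

end Cfsg.Agent.H81
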