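import Mathlib
import Cfsg.Agent.H81.CycDefs
import Cfsg.Agent.H4.Irr

/-!
# S1502 team project: assembly of the pieces
-/

set_option autoImplicit false
set_option linter.style.haveILetI false

namespace Cfsg.Agent.H81.Cyc

open Cfsg

universe u

/-! ### Choosing further indices -/

theorem exists_ne3 {J : Type u} (h : 4 ≤ Nat.card J) (a b c : J) :
    ∃ e, e ≠ a ∧ e ≠ b ∧ e ≠ c := by
  classical
  have hfin : Finite J := Nat.finite_of_card_ne_zero (by omega)
  have : Fintype J := Fintype.ofFinite J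
  by_contra hne
  push Not at hne
  have hsub : (Finset.univ : Finset J) ⊆ {a, b, c} := by
    intro e _
    by_cases h1 : e = a
    · simp [h1]
    by_cases h2 : e = b
    · simp [h2]
    have := hne e h1 h2
    simp [this]
  have hcard := Finset.card_le_card hsub
  have h3 : ({a, b, c} : Finset J).card ≤ 3 := Finset.card_le_three
  rw [Finset.card_univ, ← Nat.card_eq_fintype_card] at hcard
  omega

theorem exists_ne1 {I : Type u} (h : 2 ≤ Nat.card I) (a : I) : ∃ e, e ≠ a := by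
  classical
  have hfin : Finite I := Nat.finite_of_card_ne_zero (by omega)
  have : Fintype I := Fintype.ofFinite I
  by_contra hne
  push Not at hne
  have hsub : (Finset.univ : Finset I) ⊆ {a} := by
    intro e _
    simp [hne e]
  have hcard := Finset.card_le_card hsub
  rw [Finset.card_univ, ← Nat.card_eq_fintype_card, Finset.card_singleton] at hcard
  omega

theorem exists_ne3' {I : Type u} (h2 : 2 ≤ Nat.card I) (h3 : Nat.card I ≠ 3) (a b c : I)
    (hab : a ≠ b) (hac : a ≠ c) (hbc : b ≠ c) : ∃ e, e ≠ a ∧ e ≠ b ∧ e ≠ c := by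
  classical
  have hfin : Finite I := Nat.finite_of_card_ne_zero (by omega)
  have : Fintype I := Fintype.ofFinite I
  by_contra hne
  push Not at hne
  apply h3
  have huniv : (Finset.univ : Finset I) = {a, b, c} := by
    ext e
    simp only [Finset.mem_univ, Finset.mem_insert, Finset.mem_singleton, true_iff]
    by_cases h1 : e = a
    · exact Or.inl h1
    by_cases h2 : e = b
    · exact Or.inr (Or.inl h2)
    exact Or.inr (Or.inr (hne e h1 h2))
  rw [Nat.card_eq_fintype_card, ← Finset.card_univ, huniv]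
  exact Finset.card_eq_three.mpr ⟨a, b, c, hab, hac, hbc, rfl⟩

/-! ### The lattice core -/

theorem comb_of_arr (hV : StmtVec3.{u}) (hDot : StmtDot.{u}) {I J ι : Type u} [Fintype ι]
    (d : ι → ℤ) (X : I → J → ι → ℤ) (h : Arr d X) : Comb X := by
  have hv : ∀ i j, Val (X i j) ∧ Supp3 (X i j) := fun i j => hV (X i j) (h.h3 i j)
  have hdeg : ∀ i j i' j', ∑ t, X i j t * d t = ∑ t, X i' j' t * d t := by
    intro i j i' j'
    rw [h.hD, h.hD]
  refine ⟨fun i j => (hv i j).1, fun i j => (hv i j).2, ?_, ?_, ?_⟩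
  · intro i j j' hj
    exact (hDot d (X i j) (X i j') h.hd (hv i j).1 (hv i j).2 (hv i j').1 (hv i j').2).1
      (h.hr i j j' hj) (hdeg i j i j')
  · intro i i' j hi
    exact (hDot d (X i j) (X i' j) h.hd (hv i j).1 (hv i j).2 (hv i' j).1 (hv i' j).2).1
      (h.hc i i' j hi) (hdeg i j i' j)
  · intro i i' j j' hi hj
    exact (hDot d (X i j) (X i' j') h.hd (hv i j).1 (hv i j).2 (hv i' j').1 (hv i' j').2).2
      (h.h0 i i' j j' hi hj)

theorem row_center (hS : StmtSun.{u}) {I J ι : Type u} (X : I → J → ι → ℤ) (hX : Comb X)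
    (hI : 2 ≤ Nat.card I) (hJ : 4 ≤ Nat.card J) (i : I) : ∃ x, ∀ j, X i j x ≠ 0 := by
  obtain ⟨k, hk⟩ := exists_ne1 hI i
  have hne : Nonempty J := by
    by_contra hemp
    rw [not_nonempty_iff] at hemp
    rw [Nat.card_of_isEmpty] at hJ
    omega
  obtain ⟨j₁⟩ := hne
  obtain ⟨j₂, h21, -, -⟩ := exists_ne3 hJ j₁ j₁ j₁
  obtain ⟨t, ht1, ht2, ht3⟩ := hX.row i j₁ j₂ (Ne.symm h21)
  refine ⟨t, fun j => ?_⟩
  by_cases hj1 : j = j₁
  · rw [hj1]; exact ht1
  by_cases hj2 : j = j₂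
  · rw [hj2, ← ht2]; exact ht1
  obtain ⟨j₄, h41, h42, h4j⟩ := exists_ne3 hJ j₁ j₂ j
  obtain ⟨x, hx1, hx2, hx3, -⟩ := hS X hX i k (Ne.symm hk) j₁ j₂ j j₄ (Ne.symm h21) (Ne.symm hj1)
    (Ne.symm h41) (Ne.symm hj2) (Ne.symm h42) (Ne.symm h4j)
  have hxt : x = t := by
    by_contra hne
    rcases ht3 x hne with h | h
    · exact hx1 h
    · exact hx2 h
  rw [← hxt]
  exact hx3

theorem pair_global (hP : StmtPair.{u}) {I J ι : Type u} (X : I → J → ι → ℤ) (hX : Comb X)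
    (hJ : 4 ≤ Nat.card J) (a : I → ι) (ha : ∀ i j, X i j (a i) ≠ 0) (i k : I) (hik : i ≠ k)
    (j : J) : X i j (a k) = 0 := by
  obtain ⟨j₁, h1, -, -⟩ := exists_ne3 hJ j j j
  obtain ⟨j₂, h2, h21, -⟩ := exists_ne3 hJ j j₁ j₁
  obtain ⟨j₃, h3, h31, h32⟩ := exists_ne3 hJ j j₁ j₂
  exact hP X hX i k hik j j₁ j₂ j₃ (Ne.symm h1) (Ne.symm h2) (Ne.symm h3) (Ne.symm h21)
    (Ne.symm h31) (Ne.symm h32) (a i) (a k) (ha i j) (ha i j₁) (ha i j₂) (ha i j₃)
    (ha k j) (ha k j₁) (ha k j₂) (ha k j₃)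

theorem col_center (hC : StmtCol4.{u}) {I J ι : Type u} (X : I → J → ι → ℤ) (hX : Comb X)
    (hI2 : 2 ≤ Nat.card I) (hI3 : Nat.card I ≠ 3) (a : I → ι) (ha : ∀ i j, X i j (a i) ≠ 0)
    (hp : ∀ i k, i ≠ k → ∀ j, X i j (a k) = 0) (j : J) :
    ∃ b, ∀ i, X i j b ≠ 0 ∧ b ≠ a i := by
  have hne : Nonempty I := by
    by_contra hemp
    rw [not_nonempty_iff] at hemp
    rw [Nat.card_of_isEmpty] at hI2
    omega
  obtain ⟨i₁⟩ := hne
  obtain ⟨i₂, h21⟩ := exists_ne1 hI2 i₁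
  obtain ⟨t, ht1, ht2, ht3⟩ := hX.col i₁ i₂ j (Ne.symm h21)
  have hall : ∀ i, X i j t ≠ 0 := by
    intro i
    by_cases hi1 : i = i₁
    · rw [hi1]; exact ht1
    by_cases hi2 : i = i₂
    · rw [hi2, ← ht2]; exact ht1
    obtain ⟨i₄, h41, h42, h4i⟩ := exists_ne3' hI2 hI3 i₁ i₂ i (Ne.symm h21) (Ne.symm hi1)
      (Ne.symm hi2)
    obtain ⟨b, hb1, hb2, hb3, -⟩ := hC (fun i => X i j) (fun i => hX.val i j)
      (fun i => hX.supp i j) (fun i k hik => hX.col i k j hik) a (fun i => ha i j)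
      (fun i k hik => hp i k hik j) i₁ i₂ i i₄ (Ne.symm h21) (Ne.symm hi1) (Ne.symm h41)
      (Ne.symm hi2) (Ne.symm h42) (Ne.symm h4i)
    have hbt : b = t := by
      by_contra hne
      rcases ht3 b hne with h | h
      · exact hb1 h
      · exact hb2 h
    rw [← hbt]
    exact hb3
  refine ⟨t, fun i => ⟨hall i, ?_⟩⟩
  obtain ⟨k, hk⟩ := exists_ne1 hI2 i
  intro hta
  have := hp k i hk j
  rw [← hta] at this
  exact hall k this

theorem Arr.transpose {I J ι : Type u} [Fintype ι] {d : ι → ℤ} {X : I → J → ι → ℤ}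
    (h : Arr d X) : Arr d (fun j i => X i j) :=
  ⟨h.hd, fun j i => h.h3 i j, fun j i i' hi => h.hc i i' j hi, fun j j' i hj => h.hr i j j' hj,
    fun j j' i i' hj hi => h.h0 i i' j j' hi hj, fun j i => h.hD i j⟩

theorem Std.of_transpose {I J ι : Type u} {X : I → J → ι → ℤ} (h : Std (fun j i => X i j)) :
    Std X := by
  obtain ⟨a, b, c, ea, eb, ec, h1, h2, h3, h4, h5, h6, h7, h8, h9, h10, h11, h12, h13⟩ := h
  refine ⟨b, a, fun i j => c j i, eb, ea, fun i j => ec j i, h2, h1, fun i j => h3 j i, h5, h4,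
    ?_, fun i j => (h7 j i).symm, fun i k l => h9 i l k, fun j k l => h8 j l k,
    fun i j => h11 j i, fun i j => h10 j i, fun i j => h12 j i,
    fun i j t ht1 ht2 ht3 => h13 j i t ht2 ht1 ht3⟩
  intro i j k l hc
  have := h6 j i l k hc
  exact ⟨this.2, this.1⟩

theorem lat (hV : StmtVec3.{u}) (hDot : StmtDot.{u}) (hS : StmtSun.{u}) (hP : StmtPair.{u})
    (hC : StmtCol4.{u}) (hA : StmtAsm.{u}) {I J ι : Type u} [Fintype ι] (d : ι → ℤ)
    (X : I → J → ι → ℤ) (h : Arr d X) (hI2 : 2 ≤ Nat.card I) (hI3 : Nat.card I ≠ 3)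
    (hJ : 4 ≤ Nat.card J) : Std X := by
  have hX : Comb X := comb_of_arr hV hDot d X h
  have hIne : Nonempty I := by
    by_contra hemp
    rw [not_nonempty_iff] at hemp
    rw [Nat.card_of_isEmpty] at hI2
    omega
  have hJne : Nonempty J := by
    by_contra hemp
    rw [not_nonempty_iff] at hemp
    rw [Nat.card_of_isEmpty] at hJ
    omega
  choose a ha using fun i => row_center hS X hX hI2 hJ i
  have hp : ∀ i k, i ≠ k → ∀ j, X i j (a k) = 0 := pair_global hP X hX hJ a ha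
  choose b hb using fun j => col_center hC X hX hI2 hI3 a ha hp j
  exact hA X hX hIne hJne a b ha hp (fun i j => (hb j i).1) (fun i j => (hb j i).2)

/-- S1502 from the pieces. -/
theorem main_of_pieces (hV : StmtVec3.{u}) (hDot : StmtDot.{u}) (hS : StmtSun.{u})
    (hP : StmtPair.{u}) (hC : StmtCol4.{u}) (hA : StmtAsm.{u}) (hGram : StmtGram.{u})
    (hCard : StmtCard.{u}) (hFam : StmtFam.{u}) (hEq : StmtEqOn.{u})
    {G : Type u} [Group G] [Fintype G] (W₁ W₂ : Subgroup G)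
    (hW : Cfsg.IsSelfNormalizingCyclic W₁ W₂) (hodd : Odd (Nat.card ↥(W₁ ⊔ W₂))) :
    ∃ χ : (↥(W₁ ⊔ W₂) →* ℂˣ) → (G → ℂ), Cfsg.IsCyclicTIFamily W₁ W₂ χ := by
  letI : Fintype (IrrCharacter G) := Cfsg.Agent.H4.fintypeIrr G
  obtain ⟨d, X, hArr, hX0, hexp⟩ := hGram W₁ W₂ hW
  have hStd : Std X := by
    rcases hCard W₁ W₂ hW hodd with ⟨h2, h3, h4⟩ | ⟨h2, h3, h4⟩
    · exact lat hV hDot hS hP hC hA d X hArr h2 h3 h4
    · exact Std.of_transpose (lat hV hDot hS hP hC hA d (fun j i => X i j) hArr.transpose h2 h3 h4)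
  obtain ⟨χ, hχ⟩ := hFam W₁ W₂ hW X hStd hX0 hexp
  refine ⟨χ, ⟨hχ.irr_or_neg, ?_, hχ.map_one, hEq W₁ W₂ hW χ hχ, hχ.induced_eq⟩⟩
  intro ω ω'
  by_cases h : ω = ω'
  · subst h
    rw [if_pos rfl]
    exact hχ.norm_one ω
  · rw [if_neg h]
    exact hχ.orth ω ω' h

end Cfsg.Agent.H81.Cyc
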