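/-
helper81 (S0197): the piece EVAL (inner product with a tabulated function).
-/
import Cfsg.Agent.H81.GL23Defs
import Cfsg.Agent.H81.ClassSum

set_option autoImplicit false
set_option linter.style.haveILetI false

namespace Cfsg.Agent.H81.GL23

open Cfsg
open scoped ComplexConjugate

universe u

theorem orderOf_conj_eq {G : Type u} [Group G] (c a : G) :
    orderOf (c * a * c⁻¹) = orderOf a := by
  have h := orderOf_injective (MulAut.conj c).toMonoidHom (MulAut.conj c).injective a
  simpa using h

theorem isConj_orderOf {G : Type u} [Group G] {a b : G} (h : IsConj a b) :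
    orderOf b = orderOf a := by
  obtain ⟨c, rfl⟩ := isConj_iff.mp h
  exact orderOf_conj_eq c a

open Classical in
/-- The number of conjugates. -/
theorem card_isConj {G : Type u} [Group G] [Fintype G] (r : G) :
    ((Finset.univ.filter (fun g : G => IsConj r g)).card : ℂ) =
      (Nat.card G : ℂ) / (Nat.card (Subgroup.centralizer ({r} : Set G)) : ℂ) := by
  have h : Finset.univ.filter (fun g : G => IsConj r g) = conjFinset r := by
    ext g; simp [mem_conjFinset, isConj_iff]
  rw [h]
  have h1 := card_centralizer_mul_card_conjFinset r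
  have hpos : (Nat.card (Subgroup.centralizer ({r} : Set G)) : ℂ) ≠ 0 := by
    exact_mod_cast (Nat.card_pos).ne'
  rw [eq_div_iff hpos, mul_comm]
  exact_mod_cast h1

open Classical in
theorem sum_ite_isConj {G : Type u} [Group G] [Fintype G] (r : G) (c : ℂ) :
    ∑ g : G, (if IsConj r g then c else 0) =
      (Nat.card G : ℂ) / (Nat.card (Subgroup.centralizer ({r} : Set G)) : ℂ) * c := by
  rw [Finset.sum_ite, Finset.sum_const, Finset.sum_const_zero, add_zero, nsmul_eq_mul,
    card_isConj]

theorem centralizer_inv {G : Type u} [Group G] (x : G) :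
    Subgroup.centralizer ({x⁻¹} : Set G) = Subgroup.centralizer ({x} : Set G) := by
  ext g
  rw [Subgroup.mem_centralizer_singleton_iff, Subgroup.mem_centralizer_singleton_iff]
  constructor
  · intro h
    have : x * (x⁻¹ * g) * x = x * (g * x⁻¹) * x := by rw [h]
    simpa [mul_assoc] using this
  · intro h
    have : x⁻¹ * (x * g) * x⁻¹ = x⁻¹ * (g * x) * x⁻¹ := by rw [h]
    simpa [mul_assoc] using this

/-- Facts on the five classes. -/
theorem Cfg.ord_sq {G : Type u} [Group G] {t x v : G} (hc : Cfg t x v) :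
    orderOf (x ^ 2) = 4 := by
  rw [orderOf_pow' x (by norm_num), hc.hx]; norm_num

theorem Cfg.card_cent {G : Type u} [Group G] {t x v : G} (hc : Cfg t x v) :
    Nat.card (Subgroup.centralizer ({v} : Set G)) = 6 ∧
    Nat.card (Subgroup.centralizer ({x ^ 2} : Set G)) = 8 ∧
    Nat.card (Subgroup.centralizer ({x} : Set G)) = 8 ∧
    Nat.card (Subgroup.centralizer ({x⁻¹} : Set G)) = 8 := by
  refine ⟨?_, ?_, ?_, ?_⟩
  · rw [hc.centV, Nat.card_zpowers, hc.hv]
  · rw [hc.centY, Nat.card_zpowers, hc.hx]
  · rw [hc.centX, Nat.card_zpowers, hc.hx]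
  · rw [centralizer_inv, hc.centX, Nat.card_zpowers, hc.hx]

open Classical in
theorem eval : StmtEval.{u} := by
  intro G _ _ t x v hc θ F a₁ a₂ a₃ a₄ a₅ hθ hF
  obtain ⟨h1, h2, h3, h4, h5, h0⟩ := hF
  have ox2 := hc.ord_sq
  have oxi : orderOf x⁻¹ = 8 := by rw [orderOf_inv, hc.hx]
  have hθc : ∀ r g : G, IsConj r g → θ g = θ r := by
    intro r g h
    obtain ⟨c, rfl⟩ := isConj_iff.mp h
    exact hθ r c
  have hxx : ∀ g : G, IsConj x g → ¬ IsConj x⁻¹ g := by
    intro g hg hg'
    obtain ⟨c, hcc⟩ := isConj_iff.mp (hg.trans hg'.symm)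
    exact hc.notX c hcc
  have hpt : ∀ g : G, θ g * conj (F g) =
      (if IsConj t g then θ t * conj a₁ else 0) + (if IsConj v g then θ v * conj a₂ else 0) +
      (if IsConj (x ^ 2) g then θ (x ^ 2) * conj a₃ else 0) +
      (if IsConj x g then θ x * conj a₄ else 0) +
      (if IsConj x⁻¹ g then θ x⁻¹ * conj a₅ else 0) := by
    intro g
    by_cases c1 : IsConj t g
    · have o := (isConj_orderOf c1).trans hc.ht
      have n2 : ¬ IsConj v g := fun h => by
        have := (isConj_orderOf h).trans hc.hv; omega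
      have n3 : ¬ IsConj (x ^ 2) g := fun h => by
        have := (isConj_orderOf h).trans ox2; omega
      have n4 : ¬ IsConj x g := fun h => by
        have := (isConj_orderOf h).trans hc.hx; omega
      have n5 : ¬ IsConj x⁻¹ g := fun h => by
        have := (isConj_orderOf h).trans oxi; omega
      rw [if_pos c1, if_neg n2, if_neg n3, if_neg n4, if_neg n5, h1 g c1, hθc t g c1]; ring
    by_cases c2 : IsConj v g
    · have o := (isConj_orderOf c2).trans hc.hv
      have n3 : ¬ IsConj (x ^ 2) g := fun h => by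
        have := (isConj_orderOf h).trans ox2; omega
      have n4 : ¬ IsConj x g := fun h => by
        have := (isConj_orderOf h).trans hc.hx; omega
      have n5 : ¬ IsConj x⁻¹ g := fun h => by
        have := (isConj_orderOf h).trans oxi; omega
      rw [if_neg c1, if_pos c2, if_neg n3, if_neg n4, if_neg n5, h2 g c2, hθc v g c2]; ring
    by_cases c3 : IsConj (x ^ 2) g
    · have o := (isConj_orderOf c3).trans ox2
      have n4 : ¬ IsConj x g := fun h => by
        have := (isConj_orderOf h).trans hc.hx; omega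
      have n5 : ¬ IsConj x⁻¹ g := fun h => by
        have := (isConj_orderOf h).trans oxi; omega
      rw [if_neg c1, if_neg c2, if_pos c3, if_neg n4, if_neg n5, h3 g c3, hθc _ g c3]; ring
    by_cases c4 : IsConj x g
    · rw [if_neg c1, if_neg c2, if_neg c3, if_pos c4, if_neg (hxx g c4), h4 g c4, hθc _ g c4]
      ring
    by_cases c5 : IsConj x⁻¹ g
    · rw [if_neg c1, if_neg c2, if_neg c3, if_neg c4, if_pos c5, h5 g c5, hθc _ g c5]; ring
    · rw [if_neg c1, if_neg c2, if_neg c3, if_neg c4, if_neg c5, h0 g c1 c2 c3 c4 c5]; simp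
  obtain ⟨k2, k3, k4, k5⟩ := hc.card_cent
  have hG : (Nat.card G : ℂ) ≠ 0 := by exact_mod_cast (Nat.card_pos).ne'
  unfold classInner
  rw [Finset.sum_congr rfl (fun g _ => hpt g)]
  simp only [Finset.sum_add_distrib, sum_ite_isConj, hc.centT, k2, k3, k4, k5]
  push_cast
  field_simp
  ring

end Cfsg.Agent.H81.GL23
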