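/-
helper81 (S0197): the piece DATA (the five generalized characters and their inner products).
-/
import Cfsg.Agent.H81.GL23Eval
import Cfsg.Agent.H4.Irr
import Cfsg.Agent.H32.Virtual

set_option autoImplicit false
set_option linter.style.haveILetI false

namespace Cfsg.Agent.H81.GL23

open Cfsg
open scoped ComplexConjugate

universe u

section

variable {G : Type u} [Group G] {t x v : G}

theorem tab_sub {F F' : G → ℂ} {a₁ a₂ a₃ a₄ a₅ b₁ b₂ b₃ b₄ b₅ : ℂ}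
    (h : Tab t x v F a₁ a₂ a₃ a₄ a₅) (h' : Tab t x v F' b₁ b₂ b₃ b₄ b₅) :
    Tab t x v (F - F') (a₁ - b₁) (a₂ - b₂) (a₃ - b₃) (a₄ - b₄) (a₅ - b₅) := by
  obtain ⟨h1, h2, h3, h4, h5, h0⟩ := h
  obtain ⟨h1', h2', h3', h4', h5', h0'⟩ := h'
  refine ⟨fun g hg => ?_, fun g hg => ?_, fun g hg => ?_, fun g hg => ?_, fun g hg => ?_,
    fun g n1 n2 n3 n4 n5 => ?_⟩
  · rw [Pi.sub_apply, h1 g hg, h1' g hg]
  · rw [Pi.sub_apply, h2 g hg, h2' g hg]
  · rw [Pi.sub_apply, h3 g hg, h3' g hg]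
  · rw [Pi.sub_apply, h4 g hg, h4' g hg]
  · rw [Pi.sub_apply, h5 g hg, h5' g hg]
  · rw [Pi.sub_apply, h0 g n1 n2 n3 n4 n5, h0' g n1 n2 n3 n4 n5, sub_zero]

theorem tab_conj {F : G → ℂ} {a₁ a₂ a₃ a₄ a₅ : ℂ} (h : Tab t x v F a₁ a₂ a₃ a₄ a₅) :
    Tab t x v (fun g => conj (F g)) (conj a₁) (conj a₂) (conj a₃) (conj a₄) (conj a₅) := by
  obtain ⟨h1, h2, h3, h4, h5, h0⟩ := h
  refine ⟨fun g hg => ?_, fun g hg => ?_, fun g hg => ?_, fun g hg => ?_, fun g hg => ?_,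
    fun g n1 n2 n3 n4 n5 => ?_⟩
  · show conj (F g) = _; rw [h1 g hg]
  · show conj (F g) = _; rw [h2 g hg]
  · show conj (F g) = _; rw [h3 g hg]
  · show conj (F g) = _; rw [h4 g hg]
  · show conj (F g) = _; rw [h5 g hg]
  · show conj (F g) = _; rw [h0 g n1 n2 n3 n4 n5, map_zero]

open Classical in
theorem tab_unique {F F' : G → ℂ} {a₁ a₂ a₃ a₄ a₅ : ℂ} (h : Tab t x v F a₁ a₂ a₃ a₄ a₅)
    (h' : Tab t x v F' a₁ a₂ a₃ a₄ a₅) : F = F' := by
  obtain ⟨h1, h2, h3, h4, h5, h0⟩ := h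
  obtain ⟨h1', h2', h3', h4', h5', h0'⟩ := h'
  funext g
  by_cases c1 : IsConj t g
  · rw [h1 g c1, h1' g c1]
  by_cases c2 : IsConj v g
  · rw [h2 g c2, h2' g c2]
  by_cases c3 : IsConj (x ^ 2) g
  · rw [h3 g c3, h3' g c3]
  by_cases c4 : IsConj x g
  · rw [h4 g c4, h4' g c4]
  by_cases c5 : IsConj x⁻¹ g
  · rw [h5 g c5, h5' g c5]
  · rw [h0 g c1 c2 c3 c4 c5, h0' g c1 c2 c3 c4 c5]

theorem gen_classFun {θ : G → ℂ} (h : IsGeneralizedCharacter G θ) : IsClassFunction G θ := by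
  obtain ⟨Φ, Ψ, hΦ, hΨ, rfl⟩ := h
  intro g c
  simp only [Pi.sub_apply]
  rw [Cfsg.Agent.H4.isClassFunction_of_isCharacter hΦ g c,
    Cfsg.Agent.H4.isClassFunction_of_isCharacter hΨ g c]

theorem classInner_conj_symm [Fintype G] (φ ψ : G → ℂ) :
    classInner φ ψ = conj (classInner ψ φ) := by
  unfold classInner
  rw [map_mul, map_sum, map_inv₀, Complex.conj_natCast]
  congr 1
  apply Finset.sum_congr rfl
  intro g _
  rw [map_mul, Complex.conj_conj, mul_comm]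

end

/-- The tables. -/
def A1 : Fin 5 → ℂ := ![-4, -4, 0, 0, 8]
def A2 : Fin 5 → ℂ := ![2, 2, 0, 0, 2]
def A3 : Fin 5 → ℂ := ![-2, -2, 4, 4, 4]
def A4 (s : ℂ) : Fin 5 → ℂ := ![s, -s, 2, -2, 0]
def A5 (s : ℂ) : Fin 5 → ℂ := ![-s, s, 2, -2, 0]

/-- The five generalized characters. -/
def Mfun {G : Type u} (P₁ P₂ M₃ M₄ P₅ K₁ : G → ℂ) : Fin 5 → G → ℂ :=
  ![P₁ - K₁, P₂ - K₁, M₃, M₄, P₅ - K₁]

theorem data : StmtData.{u} := by
  intro G _ _ t x v hc s P₁ P₂ M₃ M₄ P₅ K₁ hs g1 g2 g3 g4 g5 gK t1 t2 t3 t4 t5 tK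
  have hre : s.re = 0 := by
    have h1 := congrArg Complex.re hs
    have h2 := congrArg Complex.im hs
    simp [pow_two, Complex.mul_re, Complex.mul_im] at h1 h2
    by_contra hne
    have him : s.im = 0 := by
      have h3 : s.re * s.im = 0 := by linarith
      rcases mul_eq_zero.mp h3 with h | h
      · exact absurd h hne
      · exact h
    rw [him] at h1
    nlinarith [sq_nonneg s.re]
  have hconj : conj s = -s := by
    apply Complex.ext <;> simp [hre]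
  have T1 : Tab t x v (P₁ - K₁) (-4) 2 (-2) s (-s) := by
    have h := tab_sub t1 tK
    convert h using 1 <;> norm_num
  have T2 : Tab t x v (P₂ - K₁) (-4) 2 (-2) (-s) s := by
    have h := tab_sub t2 tK
    convert h using 1 <;> norm_num
  have T5 : Tab t x v (P₅ - K₁) 8 2 4 0 0 := by
    have h := tab_sub t5 tK
    convert h using 1 <;> norm_num
  have hT : ∀ k : Fin 5, Tab t x v (Mfun P₁ P₂ M₃ M₄ P₅ K₁ k) (A1 k) (A2 k) (A3 k) (A4 s k)
      (A5 s k) := by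
    intro k; fin_cases k
    · exact T1
    · exact T2
    · exact t3
    · exact t4
    · exact T5
  have hgen : ∀ k : Fin 5, IsGeneralizedCharacter G (Mfun P₁ P₂ M₃ M₄ P₅ K₁ k) := by
    intro k; fin_cases k
    · exact Cfsg.Agent.H32.isGeneralizedCharacter_sub g1 gK
    · exact Cfsg.Agent.H32.isGeneralizedCharacter_sub g2 gK
    · exact g3
    · exact g4
    · exact Cfsg.Agent.H32.isGeneralizedCharacter_sub g5 gK
  have hcf : ∀ k : Fin 5, IsClassFunction G (Mfun P₁ P₂ M₃ M₄ P₅ K₁ k) :=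
    fun k => gen_classFun (hgen k)
  have hin : ∀ (θ : G → ℂ), IsClassFunction G θ → ∀ k : Fin 5,
      classInner θ (Mfun P₁ P₂ M₃ M₄ P₅ K₁ k) = θ t * conj (A1 k) / 48 + θ v * conj (A2 k) / 6 +
        (θ (x ^ 2) * conj (A3 k) + θ x * conj (A4 s k) + θ x⁻¹ * conj (A5 s k)) / 8 :=
    fun θ hθ k => eval t x v hc θ _ _ _ _ _ _ hθ (hT k)
  have hvalM : ∀ k : Fin 5, Mfun P₁ P₂ M₃ M₄ P₅ K₁ k t = A1 k ∧
      Mfun P₁ P₂ M₃ M₄ P₅ K₁ k v = A2 k ∧ Mfun P₁ P₂ M₃ M₄ P₅ K₁ k (x ^ 2) = A3 k ∧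
      Mfun P₁ P₂ M₃ M₄ P₅ K₁ k x = A4 s k ∧ Mfun P₁ P₂ M₃ M₄ P₅ K₁ k x⁻¹ = A5 s k :=
    fun k => ⟨(hT k).1 t (IsConj.refl t), (hT k).2.1 v (IsConj.refl v),
      (hT k).2.2.1 _ (IsConj.refl _), (hT k).2.2.2.1 x (IsConj.refl x),
      (hT k).2.2.2.2.1 _ (IsConj.refl _)⟩
  have ox2 := hc.ord_sq
  have oxi : orderOf x⁻¹ = 8 := by rw [orderOf_inv, hc.hx]
  have hirr : ∀ χ : G → ℂ, IsIrrCharacter G χ → IsClassFunction G χ := fun χ hχ =>
    Cfsg.Agent.H4.isClassFunction_of_isCharacter (Cfsg.Agent.H4.isCharacter_of_isIrrCharacter hχ)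
  refine ⟨Mfun P₁ P₂ M₃ M₄ P₅ K₁, hs, hgen, ?_, ?_, ?_, ?_, ?_, ?_, ?_, ?_⟩
  · -- gram
    intro k l
    rw [hin _ (hcf k) l, (hvalM k).1, (hvalM k).2.1, (hvalM k).2.2.1, (hvalM k).2.2.2.1,
      (hvalM k).2.2.2.2]
    fin_cases k <;> fin_cases l <;> simp [A1, A2, A3, A4, A5, Gm, hconj, Complex.conj_ofNat] <;>
      first | ring1 | linear_combination (-1/4 : ℂ) * hs | linear_combination (1/4 : ℂ) * hs
  · -- deg
    intro k
    refine (hT k).2.2.2.2.2 1 ?_ ?_ ?_ ?_ ?_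
    · intro h; have := isConj_orderOf h; rw [orderOf_one, hc.ht] at this; omega
    · intro h; have := isConj_orderOf h; rw [orderOf_one, hc.hv] at this; omega
    · intro h; have := isConj_orderOf h; rw [orderOf_one, ox2] at this; omega
    · intro h; have := isConj_orderOf h; rw [orderOf_one, hc.hx] at this; omega
    · intro h; have := isConj_orderOf h; rw [orderOf_one, oxi] at this; omega
  · -- triv
    intro k
    rw [classInner_conj_symm, hin (fun _ => 1) (fun _ _ => rfl) k]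
    fin_cases k <;> simp [A1, A2, A3, A4, A5, T0, hconj, Complex.conj_ofNat] <;> norm_num
  · -- conj01
    intro g
    have h := tab_unique (hT 1) (by
      have h := tab_conj (hT 0)
      convert h using 1 <;> simp [A1, A2, A3, A4, A5, hconj, Complex.conj_ofNat])
    exact congrFun h g
  · -- real
    intro g
    refine ⟨?_, ?_, ?_⟩
    · have h := tab_unique (hT 2) (by
        have h := tab_conj (hT 2)
        convert h using 1 <;> simp [A1, A2, A3, A4, A5, hconj, Complex.conj_ofNat])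
      exact (congrFun h g).symm
    · have h := tab_unique (hT 3) (by
        have h := tab_conj (hT 3)
        convert h using 1 <;> simp [A1, A2, A3, A4, A5, hconj, Complex.conj_ofNat])
      exact (congrFun h g).symm
    · have h := tab_unique (hT 4) (by
        have h := tab_conj (hT 4)
        convert h using 1 <;> simp [A1, A2, A3, A4, A5, hconj, Complex.conj_ofNat])
      exact (congrFun h g).symm
  · -- valT
    intro χ hχ
    rw [hin χ (hirr χ hχ) 0, hin χ (hirr χ hχ) 1, hin χ (hirr χ hχ) 2, hin χ (hirr χ hχ) 3,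
      hin χ (hirr χ hχ) 4]
    simp [A1, A2, A3, A4, A5, hconj, Complex.conj_ofNat]
    ring
  · -- valY
    intro χ hχ
    rw [hin χ (hirr χ hχ) 2, hin χ (hirr χ hχ) 3]
    simp [A1, A2, A3, A4, A5, hconj, Complex.conj_ofNat]
    ring
  · -- valX
    intro χ hχ
    rw [hin χ (hirr χ hχ) 0, hin χ (hirr χ hχ) 1, hin χ (hirr χ hχ) 2, hin χ (hirr χ hχ) 3]
    simp [A1, A2, A3, A4, A5, hconj, Complex.conj_ofNat]
    linear_combination ((χ x - χ x⁻¹) / 4) * hs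

end Cfsg.Agent.H81.GL23
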