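/-
helper81 (S0197): the value of an induced class function as a sum over the subgroup.
-/
import Cfsg.Agent.H81.GL23Eval
import Cfsg.Agent.H19.IndFun

set_option autoImplicit false
set_option linter.style.haveILetI false

namespace Cfsg.Agent.H81.GL23

open Cfsg
open scoped ComplexConjugate

universe u

open Classical in
/-- `indFun H φ g = |C_G(g)| / |H| * ∑_{h ∈ H, h ~ g} φ h`. -/
theorem indFun_eq_sum {G : Type u} [Group G] [Fintype G] (H : Subgroup G) (φ : H → ℂ) (g : G) :
    indFun H φ g = (Nat.card (Subgroup.centralizer ({g} : Set G)) : ℂ) / (Nat.card H : ℂ) *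
      ∑ h : H, (if IsConj g (h : G) then φ h else 0) := by
  unfold indFun
  have h1 : ∑ x : G, extendByZero H φ (x⁻¹ * g * x) =
      ∑ x : G, extendByZero H φ (x * g * x⁻¹) := by
    apply Fintype.sum_equiv (Equiv.inv G)
    intro x; simp
  have hfilt : Finset.univ.filter (fun k : G => IsConj g k) = conjFinset g := by
    ext k; simp [mem_conjFinset, isConj_iff]
  have h2 : ∑ k ∈ conjFinset g, extendByZero H φ k =
      ∑ h : H, (if IsConj g (h : G) then φ h else 0) := by
    rw [← hfilt, Finset.sum_filter]
    have h3 : ∑ k : G, (if IsConj g k then extendByZero H φ k else 0) =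
        ∑ k ∈ Finset.univ.filter (fun k : G => k ∈ H),
          (if IsConj g k then extendByZero H φ k else 0) := by
      symm
      apply Finset.sum_filter_of_ne
      intro k _ hk
      by_contra hkH
      apply hk
      rw [Cfsg.Agent.H19.extendByZero_of_not_mem H φ hkH]; simp
    rw [h3, Finset.sum_subtype (Finset.univ.filter (fun k : G => k ∈ H))
      (p := fun k : G => k ∈ H) (by intro k; simp)]
    apply Finset.sum_congr rfl
    intro h _
    rw [Cfsg.Agent.H19.extendByZero_coe]
  rw [h1, sum_conj_eq_card_smul, h2, nsmul_eq_mul]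
  ring

end Cfsg.Agent.H81.GL23
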