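/-
helper81 (S0197): assembly of the pieces of the team project.
-/
import Cfsg.Agent.H81.GL23Defs

set_option autoImplicit false
set_option linter.style.haveILetI false

namespace Cfsg.Agent.H81.GL23

open Cfsg

universe u

theorem main_of_pieces (hMat : StmtMat.{u}) (hLift : StmtLift.{u}) (hSyl : StmtSyl.{u})
    (hPerf : StmtPerf.{u}) (hTabA : StmtTabA.{u}) (hTabB : StmtTabB.{u})
    (hData : StmtData.{u}) (hCC : StmtCC.{u}) (hBridge : StmtBridge.{u})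
    (hLat : StmtLat.{u}) (hSum : StmtSum.{u}) (hNum : StmtNum)
    {G : Type u} [Group G] [Finite G] [IsSimpleGroup G] (t : G) (ht : orderOf t = 2)
    (iso : Subgroup.centralizer ({t} : Set G) ≃* Matrix.GeneralLinearGroup (Fin 2) (ZMod 3)) :
    Nat.card G = 5616 ∨ Nat.card G = 7920 := by
  classical
  haveI : Fintype G := Fintype.ofFinite G
  have htm : t ∈ Subgroup.centralizer ({t} : Set G) := by
    rw [Subgroup.mem_centralizer_singleton_iff]
  have hot' : orderOf (⟨t, htm⟩ : Subgroup.centralizer ({t} : Set G)) = 2 := by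
    rw [← ht]
    exact (Subgroup.orderOf_coe (⟨t, htm⟩ : Subgroup.centralizer ({t} : Set G))).symm
  have hcen : ∀ g : Subgroup.centralizer ({t} : Set G),
      g * (⟨t, htm⟩ : Subgroup.centralizer ({t} : Set G)) = ⟨t, htm⟩ * g := by
    intro g
    apply Subtype.ext
    have h := g.2
    rw [Subgroup.mem_centralizer_singleton_iff] at h
    simpa using h
  obtain ⟨x', v', hloc⟩ := hMat iso ⟨t, htm⟩ hot' hcen
  obtain ⟨x, v, hcfg⟩ := hLift t ⟨t, htm⟩ rfl ⟨x', v', hloc⟩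
  have h32 := hSyl t x v hcfg
  have hperf := hPerf t x v hcfg
  obtain ⟨s, P₁, P₂, M₃, M₄, P₅, hs, g1, g2, g3, g4, g5, t1, t2, t3, t4, t5⟩ :=
    hTabA t x v hcfg
  obtain ⟨K₁, gK, tK⟩ := hTabB t x v hcfg
  obtain ⟨M, hD⟩ :=
    hData t x v hcfg s P₁ P₂ M₃ M₄ P₅ K₁ hs g1 g2 g3 g4 g5 gK t1 t2 t3 t4 t5 tK
  obtain ⟨P, hP, hE3, hE2⟩ := hCC t x v hcfg
  obtain ⟨inst, i₀, bar, d, u, hA⟩ := hBridge t x s M P hD hperf h32 hP hE3 hE2
  obtain ⟨R, L, Y, Z, W, U, e, e₃, e₄, e₄', e₅, hS⟩ := @hLat _ inst _ i₀ bar d u P hA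
  exact hNum _ _ _ _ _ _ _ _ _ _ _ _
    (@hSum _ inst _ i₀ bar d u P hA R L Y Z W U e e₃ e₄ e₄' e₅ hS)

end Cfsg.Agent.H81.GL23
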