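/-
helper81 (S0197): the piece TABA (generalized characters induced from `⟨x⟩`).
-/
import Cfsg.Agent.H81.GL23Ind
import Cfsg.Agent.H4.Chars
import Cfsg.Agent.H4.BrauerBasic
import Cfsg.Agent.H4.Induction
import Cfsg.Agent.H4.Exceptional
import Cfsg.Agent.H32.Virtual

set_option autoImplicit false
set_option linter.style.haveILetI false

namespace Cfsg.Agent.H81.GL23

open Cfsg
open scoped ComplexConjugate

universe u

section

variable {G : Type u} [Group G] {t x v : G}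

theorem not_isConj_of_orderOf_ne {a b : G} (h : orderOf a ≠ orderOf b) : ¬ IsConj a b :=
  fun hab => h (isConj_orderOf hab).symm

/-- The generator of `zpowers x`. -/
def genX (x : G) : Subgroup.zpowers x := ⟨x, Subgroup.mem_zpowers x⟩

theorem Cfg.pow8 (hc : Cfg t x v) : x ^ 8 = 1 := by
  rw [← hc.hx]; exact pow_orderOf_eq_one x

theorem Cfg.pow7 (hc : Cfg t x v) : x ^ 7 = x⁻¹ := by
  apply eq_inv_of_mul_eq_one_left
  rw [← pow_succ]; exact hc.pow8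

theorem Cfg.conj3 (hc : Cfg t x v) : IsConj x (x ^ 3) := by
  obtain ⟨c, h⟩ := hc.fusX; exact isConj_iff.mpr ⟨c, h⟩

theorem Cfg.conj6 (hc : Cfg t x v) : IsConj (x ^ 2) (x ^ 6) := by
  obtain ⟨c, h⟩ := hc.fusX
  refine isConj_iff.mpr ⟨c, ?_⟩
  rw [← conj_pow, h, ← pow_mul]

theorem Cfg.conj5 (hc : Cfg t x v) : IsConj x⁻¹ (x ^ 5) := by
  obtain ⟨c, h⟩ := hc.fusX
  have h15 : x ^ (3 * 5) = x ^ 7 := by
    calc x ^ (3 * 5) = x ^ 8 * x ^ 7 := by rw [← pow_add]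
      _ = x ^ 7 := by rw [hc.pow8, one_mul]
  have : c * x ^ 5 * c⁻¹ = x⁻¹ := by
    rw [← conj_pow, h, ← pow_mul, h15, hc.pow7]
  exact (isConj_iff.mpr ⟨c, this⟩).symm

theorem Cfg.ord_pow (hc : Cfg t x v) : orderOf (x ^ 1) = 8 ∧ orderOf (x ^ 2) = 4 ∧
    orderOf (x ^ 3) = 8 ∧ orderOf (x ^ 4) = 2 ∧ orderOf (x ^ 5) = 8 ∧ orderOf (x ^ 6) = 4 ∧
    orderOf (x ^ 7) = 8 := by
  refine ⟨?_, ?_, ?_, ?_, ?_, ?_, ?_⟩ <;> rw [orderOf_pow' x (by norm_num), hc.hx] <;> norm_num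

open Classical in
theorem sum_zpowers [Fintype G] (hc : Cfg t x v) (F : Subgroup.zpowers x → ℂ) :
    ∑ h : Subgroup.zpowers x, F h = ∑ j ∈ Finset.range 8, F (genX x ^ j) := by
  have ho : orderOf (genX x) = 8 := by rw [genX, Subgroup.orderOf_mk, hc.hx]
  have hinj : Function.Injective (fun j : Fin 8 => genX x ^ (j : ℕ)) := by
    intro a b hab
    apply Fin.ext
    exact pow_injOn_Iio_orderOf (Set.mem_Iio.mpr (by rw [ho]; exact a.2))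
      (Set.mem_Iio.mpr (by rw [ho]; exact b.2)) hab
  have hsurj : Function.Surjective (fun j : Fin 8 => genX x ^ (j : ℕ)) := by
    intro h
    obtain ⟨k, hk⟩ := Subgroup.mem_zpowers_iff.mp h.2
    have hk8 : x ^ (k % 8) = x ^ k := by simpa [hc.hx] using zpow_mod_orderOf x k
    refine ⟨⟨(k % 8).toNat, by omega⟩, ?_⟩
    apply Subtype.ext
    simp only [Subgroup.coe_pow, genX]
    rw [← hk, ← hk8, ← zpow_natCast, Int.toNat_of_nonneg (Int.emod_nonneg k (by norm_num))]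
  rw [← Fin.sum_univ_eq_sum_range (fun j => F (genX x ^ j)) 8]
  exact (Fintype.sum_equiv (Equiv.ofBijective _ ⟨hinj, hsurj⟩) _ _ (fun j => rfl)).symm

open Classical in
theorem ind_tab [Fintype G] (hc : Cfg t x v) (φ : Subgroup.zpowers x → ℂ) (f : ℕ → ℂ)
    (hf : ∀ j : ℕ, φ (genX x ^ j) = f j) (h0 : f 0 = 0) :
    Tab t x v (indFun (Subgroup.zpowers x) φ) (6 * f 4) 0 (f 2 + f 6) (f 1 + f 3)
      (f 5 + f 7) := by
  have hA : (Nat.card (Subgroup.zpowers x) : ℂ) = 8 := by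
    rw [Nat.card_zpowers, hc.hx]; norm_num
  have key : ∀ g : G, indFun (Subgroup.zpowers x) φ g =
      (Nat.card (Subgroup.centralizer ({g} : Set G)) : ℂ) / 8 *
        ∑ j ∈ Finset.range 8, (if IsConj g (x ^ j) then f j else 0) := by
    intro g
    rw [indFun_eq_sum, hA, sum_zpowers hc]
    congr 1
    apply Finset.sum_congr rfl
    intro j _
    have e : ((genX x ^ j : Subgroup.zpowers x) : G) = x ^ j := by simp [genX]
    rw [hf, e]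
  have hcl := Cfsg.Agent.H4.indFun_isClassFunction (Subgroup.zpowers x) φ
  have hcl' : ∀ r g : G, IsConj r g →
      indFun (Subgroup.zpowers x) φ g = indFun (Subgroup.zpowers x) φ r := by
    intro r g h; obtain ⟨c, rfl⟩ := isConj_iff.mp h; exact hcl r c
  obtain ⟨o1, o2, o3, o4, o5, o6, o7⟩ := hc.ord_pow
  have o0 : orderOf (x ^ 0) = 1 := by rw [pow_zero, orderOf_one]
  obtain ⟨k2, k3, k4, k5⟩ := hc.card_cent
  have oxi : orderOf x⁻¹ = 8 := by rw [orderOf_inv, hc.hx]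
  have ot := hc.ht
  have ov := hc.hv
  have ox := hc.hx
  have ne : ∀ {a b : G} {m n : ℕ}, orderOf a = m → orderOf b = n → m ≠ n → ¬ IsConj a b :=
    fun ha hb hmn => not_isConj_of_orderOf_ne (by rw [ha, hb]; exact hmn)
  have nxx : ¬ IsConj x x⁻¹ := fun h => by
    obtain ⟨c, hcc⟩ := isConj_iff.mp h; exact hc.notX c hcc
  have c3 := hc.conj3
  have c6 := hc.conj6
  have c5 := hc.conj5
  have p7 := hc.pow7
  have p1 : x ^ 1 = x := pow_one x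
  have e4t : IsConj t (x ^ 4) := by rw [hc.hx4]
  have e2y : IsConj (x ^ 2) (x ^ 2) := IsConj.refl _
  have e1x : IsConj x (x ^ 1) := by rw [p1]
  have e7i : IsConj x⁻¹ (x ^ 7) := by rw [p7]
  refine ⟨?_, ?_, ?_, ?_, ?_, ?_⟩
  · intro g hg
    rw [hcl' t g hg, key t, hc.centT]
    simp only [Finset.sum_range_succ, Finset.sum_range_zero]
    rw [if_neg (ne ot o0 (by norm_num)), if_neg (ne ot o1 (by norm_num)),
      if_neg (ne ot o2 (by norm_num)), if_neg (ne ot o3 (by norm_num)), if_pos e4t,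
      if_neg (ne ot o5 (by norm_num)), if_neg (ne ot o6 (by norm_num)),
      if_neg (ne ot o7 (by norm_num))]
    push_cast; ring
  · intro g hg
    rw [hcl' v g hg, key v, k2]
    simp only [Finset.sum_range_succ, Finset.sum_range_zero]
    rw [if_neg (ne ov o0 (by norm_num)), if_neg (ne ov o1 (by norm_num)),
      if_neg (ne ov o2 (by norm_num)), if_neg (ne ov o3 (by norm_num)),
      if_neg (ne ov o4 (by norm_num)),
      if_neg (ne ov o5 (by norm_num)), if_neg (ne ov o6 (by norm_num)),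
      if_neg (ne ov o7 (by norm_num))]
    simp
  · intro g hg
    rw [hcl' _ g hg, key (x ^ 2), k3]
    simp only [Finset.sum_range_succ, Finset.sum_range_zero]
    rw [if_neg (ne o2 o0 (by norm_num)), if_neg (ne o2 o1 (by norm_num)),
      if_pos e2y, if_neg (ne o2 o3 (by norm_num)),
      if_neg (ne o2 o4 (by norm_num)),
      if_neg (ne o2 o5 (by norm_num)), if_pos c6,
      if_neg (ne o2 o7 (by norm_num))]
    push_cast; ring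
  · intro g hg
    rw [hcl' _ g hg, key x, k4]
    simp only [Finset.sum_range_succ, Finset.sum_range_zero]
    rw [if_neg (ne ox o0 (by norm_num)), if_pos e1x,
      if_neg (ne ox o2 (by norm_num)), if_pos c3,
      if_neg (ne ox o4 (by norm_num)),
      if_neg (fun h => nxx (h.trans c5.symm) : ¬ IsConj x (x ^ 5)),
      if_neg (ne ox o6 (by norm_num)),
      if_neg (by rw [p7]; exact nxx : ¬ IsConj x (x ^ 7))]
    push_cast; ring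
  · intro g hg
    rw [hcl' _ g hg, key x⁻¹, k5]
    simp only [Finset.sum_range_succ, Finset.sum_range_zero]
    rw [if_neg (ne oxi o0 (by norm_num)),
      if_neg (by rw [p1]; exact fun h => nxx h.symm : ¬ IsConj x⁻¹ (x ^ 1)),
      if_neg (ne oxi o2 (by norm_num)),
      if_neg (fun h => nxx (c3.trans h.symm) : ¬ IsConj x⁻¹ (x ^ 3)),
      if_neg (ne oxi o4 (by norm_num)),
      if_pos c5, if_neg (ne oxi o6 (by norm_num)),
      if_pos e7i]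
    push_cast; ring
  · intro g n1 n2 n3 n4 n5
    rw [key g]
    simp only [Finset.sum_range_succ, Finset.sum_range_zero]
    have q1 : ¬ IsConj g (x ^ 1) := fun h => n4 (by rw [p1] at h; exact h.symm)
    have q2 : ¬ IsConj g (x ^ 2) := fun h => n3 h.symm
    have q3 : ¬ IsConj g (x ^ 3) := fun h => n4 (c3.trans h.symm)
    have q4 : ¬ IsConj g (x ^ 4) := fun h => n1 (by rw [hc.hx4] at h; exact h.symm)
    have q5 : ¬ IsConj g (x ^ 5) := fun h => n5 (c5.trans h.symm)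
    have q6 : ¬ IsConj g (x ^ 6) := fun h => n3 (c6.trans h.symm)
    have q7 : ¬ IsConj g (x ^ 7) := fun h => n5 (by rw [p7] at h; exact h.symm)
    rw [h0, if_neg q1, if_neg q2, if_neg q3, if_neg q4, if_neg q5, if_neg q6, if_neg q7]
    simp

theorem ind_tab' [Fintype G] (hc : Cfg t x v) (φ : Subgroup.zpowers x → ℂ) (f : ℕ → ℂ)
    (hf : ∀ j : ℕ, φ (genX x ^ j) = f j) (h0 : f 0 = 0) (a₁ a₃ a₄ a₅ : ℂ)
    (h1 : 6 * f 4 = a₁) (h3 : f 2 + f 6 = a₃) (h4 : f 1 + f 3 = a₄) (h5 : f 5 + f 7 = a₅) :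
    Tab t x v (indFun (Subgroup.zpowers x) φ) a₁ 0 a₃ a₄ a₅ := by
  subst h1 h3 h4 h5
  exact ind_tab hc φ f hf h0

end

theorem tabA : StmtTabA.{u} := by
  intro G _ _ t x v hc
  obtain ⟨ζ, hζ⟩ := IsAlgClosed.exists_pow_nat_eq (-1 : ℂ) (by norm_num : 0 < 4)
  have hζ0 : ζ ≠ 0 := by
    intro h; rw [h] at hζ; norm_num at hζ
  have hζ8 : (Units.mk0 ζ hζ0) ^ 8 = 1 := by
    apply Units.ext
    simp only [Units.val_pow_eq_pow_val, Units.val_mk0, Units.val_one]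
    linear_combination (ζ ^ 4 - 1) * hζ
  have ho : orderOf (genX x) = 8 := by rw [genX, Subgroup.orderOf_mk, hc.hx]
  have hgen : ∀ y : Subgroup.zpowers x, y ∈ Subgroup.zpowers (genX x) := by
    intro y
    obtain ⟨k, hk⟩ := Subgroup.mem_zpowers_iff.mp y.2
    refine Subgroup.mem_zpowers_iff.mpr ⟨k, ?_⟩
    apply Subtype.ext
    simp only [Subgroup.coe_zpow, genX]
    exact hk
  have hdvd : orderOf (Units.mk0 ζ hζ0) ∣ orderOf (genX x) := by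
    rw [ho]; exact orderOf_dvd_of_pow_eq_one hζ8
  set lam : Subgroup.zpowers x →* ℂˣ := monoidHomOfForallMemZpowers hgen hdvd with hlam
  have hlamx : lam (genX x) = Units.mk0 ζ hζ0 := monoidHomOfForallMemZpowers_apply_gen hgen hdvd
  have hval : ∀ j : ℕ, ((lam (genX x ^ j) : ℂˣ) : ℂ) = ζ ^ j := by
    intro j
    rw [map_pow, hlamx]; simp
  have hch : ∀ k : ℕ, IsCharacter (Subgroup.zpowers x) (fun h => ((lam h : ℂˣ) : ℂ) ^ k) := by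
    intro k
    have h := Cfsg.Agent.H4.isCharacter_of_hom (lam ^ k)
    have e : (fun h => (((lam ^ k) h : ℂˣ) : ℂ)) = fun h => ((lam h : ℂˣ) : ℂ) ^ k := by
      funext h; simp
    rwa [e] at h
  have hI : ∀ k : ℕ, IsGeneralizedCharacter G
      (indFun (Subgroup.zpowers x) (fun h => ((lam h : ℂˣ) : ℂ) ^ k)) := fun k =>
    Cfsg.Agent.H32.isGeneralizedCharacter_of_isCharacter
      (Cfsg.Agent.H4.isCharacter_indFun _ _ (hch k))
  have hsub : ∀ a b : ℕ, IsGeneralizedCharacter G (indFun (Subgroup.zpowers x)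
      (fun h => ((lam h : ℂˣ) : ℂ) ^ a - ((lam h : ℂˣ) : ℂ) ^ b)) := by
    intro a b
    have e : (fun h : Subgroup.zpowers x => ((lam h : ℂˣ) : ℂ) ^ a - ((lam h : ℂˣ) : ℂ) ^ b) =
        (fun h => ((lam h : ℂˣ) : ℂ) ^ a) - (fun h => ((lam h : ℂˣ) : ℂ) ^ b) := rfl
    rw [e, Cfsg.Agent.H4.indFun_sub]
    exact Cfsg.Agent.H32.isGeneralizedCharacter_sub (hI a) (hI b)
  have h5 : IsGeneralizedCharacter G (indFun (Subgroup.zpowers x)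
      (fun h => ((lam h : ℂˣ) : ℂ) ^ 0 + ((lam h : ℂˣ) : ℂ) ^ 4 - ((lam h : ℂˣ) : ℂ) ^ 1
        - ((lam h : ℂˣ) : ℂ) ^ 5)) := by
    have e : (fun h : Subgroup.zpowers x => ((lam h : ℂˣ) : ℂ) ^ 0 + ((lam h : ℂˣ) : ℂ) ^ 4
        - ((lam h : ℂˣ) : ℂ) ^ 1 - ((lam h : ℂˣ) : ℂ) ^ 5) =
        ((fun h => ((lam h : ℂˣ) : ℂ) ^ 0) + (fun h => ((lam h : ℂˣ) : ℂ) ^ 4))
          - (fun h => ((lam h : ℂˣ) : ℂ) ^ 1) - (fun h => ((lam h : ℂˣ) : ℂ) ^ 5) := rfl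
    rw [e, Cfsg.Agent.H4.indFun_sub, Cfsg.Agent.H4.indFun_sub]
    exact Cfsg.Agent.H32.isGeneralizedCharacter_sub
      (Cfsg.Agent.H32.isGeneralizedCharacter_sub
        (Cfsg.Agent.H32.isGeneralizedCharacter_of_isCharacter
          (Cfsg.Agent.H4.isCharacter_indFun _ _ (Cfsg.Agent.H4.isCharacter_add (hch 0) (hch 4))))
        (hI 1)) (hI 5)
  have TP1 : Tab t x v (indFun (Subgroup.zpowers x) (fun h => ((lam h : ℂˣ) : ℂ) ^ 2 - ((lam h : ℂˣ) : ℂ) ^ 5))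
      12 0 (-2) (ζ + ζ ^ 3) (-(ζ + ζ ^ 3)) := by
    refine ind_tab' hc _ (fun j => (ζ ^ j) ^ 2 - (ζ ^ j) ^ 5) ?_ ?_ _ _ _ _ ?_ ?_ ?_ ?_
    · intro j; simp only [hval]
    · ring
    · linear_combination ((-12) * ζ ^ 0 + (12) * ζ ^ 4 + (-6) * ζ ^ 8 + (6) * ζ ^ 12 + (-6) * ζ ^ 16) * hζ
    · linear_combination ((2) * ζ ^ 0 + (-1) * ζ ^ 4 + (1) * ζ ^ 8 + (-1) * ζ ^ 10 + (1) * ζ ^ 14 + (-1) * ζ ^ 18 + (1) * ζ ^ 22 + (-1) * ζ ^ 26) * hζ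
    · linear_combination ((-1) * ζ ^ 1 + (1) * ζ ^ 2 + (-1) * ζ ^ 3 + (1) * ζ ^ 7 + (-1) * ζ ^ 11) * hζ
    · linear_combination ((1) * ζ ^ 1 + (1) * ζ ^ 3 + (-1) * ζ ^ 5 + (-1) * ζ ^ 7 + (1) * ζ ^ 9 + (1) * ζ ^ 10 + (1) * ζ ^ 11 + (-1) * ζ ^ 13 + (-1) * ζ ^ 15 + (1) * ζ ^ 17 + (1) * ζ ^ 19 + (-1) * ζ ^ 21 + (-1) * ζ ^ 23 + (1) * ζ ^ 27 + (-1) * ζ ^ 31) * hζ
  have TP2 : Tab t x v (indFun (Subgroup.zpowers x) (fun h => ((lam h : ℂˣ) : ℂ) ^ 2 - ((lam h : ℂˣ) : ℂ) ^ 1))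
      12 0 (-2) (-(ζ + ζ ^ 3)) (ζ + ζ ^ 3) := by
    refine ind_tab' hc _ (fun j => (ζ ^ j) ^ 2 - (ζ ^ j) ^ 1) ?_ ?_ _ _ _ _ ?_ ?_ ?_ ?_
    · intro j; simp only [hval]
    · ring
    · linear_combination ((-12) * ζ ^ 0 + (6) * ζ ^ 4) * hζ
    · linear_combination ((2) * ζ ^ 0 + (-1) * ζ ^ 2 + (-1) * ζ ^ 4 + (1) * ζ ^ 8) * hζ
    · linear_combination ((1) * ζ ^ 2) * hζ
    · linear_combination ((-1) * ζ ^ 1 + (-1) * ζ ^ 3 + (1) * ζ ^ 10) * hζ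
  have TM3 : Tab t x v (indFun (Subgroup.zpowers x) (fun h => ((lam h : ℂˣ) : ℂ) ^ 0 - ((lam h : ℂˣ) : ℂ) ^ 2))
      0 0 4 2 2 := by
    refine ind_tab' hc _ (fun j => (ζ ^ j) ^ 0 - (ζ ^ j) ^ 2) ?_ ?_ _ _ _ _ ?_ ?_ ?_ ?_
    · intro j; simp only [hval]
    · ring
    · linear_combination ((6) * ζ ^ 0 + (-6) * ζ ^ 4) * hζ
    · linear_combination ((-2) * ζ ^ 0 + (1) * ζ ^ 4 + (-1) * ζ ^ 8) * hζ
    · linear_combination ((-1) * ζ ^ 2) * hζ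
    · linear_combination ((-1) * ζ ^ 10) * hζ
  have TM4 : Tab t x v (indFun (Subgroup.zpowers x) (fun h => ((lam h : ℂˣ) : ℂ) ^ 4 - ((lam h : ℂˣ) : ℂ) ^ 2))
      0 0 4 (-2) (-2) := by
    refine ind_tab' hc _ (fun j => (ζ ^ j) ^ 4 - (ζ ^ j) ^ 2) ?_ ?_ _ _ _ _ ?_ ?_ ?_ ?_
    · intro j; simp only [hval]
    · ring
    · linear_combination ((-6) * ζ ^ 8 + (6) * ζ ^ 12) * hζ
    · linear_combination ((-4) * ζ ^ 0 + (3) * ζ ^ 4 + (-2) * ζ ^ 8 + (1) * ζ ^ 12 + (-1) * ζ ^ 16 + (1) * ζ ^ 20) * hζ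
    · linear_combination ((2) * ζ ^ 0 + (-1) * ζ ^ 2 + (-1) * ζ ^ 4 + (1) * ζ ^ 8) * hζ
    · linear_combination ((2) * ζ ^ 0 + (-2) * ζ ^ 4 + (2) * ζ ^ 8 + (-1) * ζ ^ 10 + (-2) * ζ ^ 12 + (2) * ζ ^ 16 + (-1) * ζ ^ 20 + (1) * ζ ^ 24) * hζ
  have TP5 : Tab t x v (indFun (Subgroup.zpowers x) (fun h => ((lam h : ℂˣ) : ℂ) ^ 0 + ((lam h : ℂˣ) : ℂ) ^ 4 - ((lam h : ℂˣ) : ℂ) ^ 1 - ((lam h : ℂˣ) : ℂ) ^ 5))
      24 0 4 0 0 := by
    refine ind_tab' hc _ (fun j => (ζ ^ j) ^ 0 + (ζ ^ j) ^ 4 - (ζ ^ j) ^ 1 - (ζ ^ j) ^ 5) ?_ ?_ _ _ _ _ ?_ ?_ ?_ ?_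
    · intro j; simp only [hval]
    · ring
    · linear_combination ((-18) * ζ ^ 0 + (12) * ζ ^ 4 + (-12) * ζ ^ 8 + (12) * ζ ^ 12 + (-6) * ζ ^ 16) * hζ
    · linear_combination ((-2) * ζ ^ 0 + (-1) * ζ ^ 2 + (2) * ζ ^ 4 + (-1) * ζ ^ 8 + (-1) * ζ ^ 10 + (1) * ζ ^ 12 + (1) * ζ ^ 14 + (-1) * ζ ^ 16 + (-1) * ζ ^ 18 + (1) * ζ ^ 20 + (1) * ζ ^ 22 + (-1) * ζ ^ 26) * hζ
    · linear_combination ((2) * ζ ^ 0 + (-1) * ζ ^ 1 + (-1) * ζ ^ 3 + (-1) * ζ ^ 4 + (1) * ζ ^ 7 + (1) * ζ ^ 8 + (-1) * ζ ^ 11) * hζ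
    · linear_combination ((2) * ζ ^ 0 + (-2) * ζ ^ 4 + (-1) * ζ ^ 5 + (-1) * ζ ^ 7 + (2) * ζ ^ 8 + (1) * ζ ^ 9 + (1) * ζ ^ 11 + (-2) * ζ ^ 12 + (-1) * ζ ^ 13 + (-1) * ζ ^ 15 + (2) * ζ ^ 16 + (1) * ζ ^ 17 + (1) * ζ ^ 19 + (-1) * ζ ^ 20 + (-1) * ζ ^ 21 + (-1) * ζ ^ 23 + (1) * ζ ^ 24 + (1) * ζ ^ 27 + (-1) * ζ ^ 31) * hζ
  have hs : (ζ + ζ ^ 3) ^ 2 = -2 := by
    linear_combination (2 + ζ ^ 2) * hζ
  exact ⟨ζ + ζ ^ 3, _, _, _, _, _, hs, hsub 2 5, hsub 2 1, hsub 0 2, hsub 4 2, h5,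
    TP1, TP2, TM3, TM4, TP5⟩

end Cfsg.Agent.H81.GL23
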