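/-
helper81 (S0197): the piece TABB (a generalized character induced from `⟨v⟩`).
-/
import Cfsg.Agent.H81.GL23TabA

set_option autoImplicit false
set_option linter.style.haveILetI false

namespace Cfsg.Agent.H81.GL23

open Cfsg
open scoped ComplexConjugate

universe u

section

variable {G : Type u} [Group G] {t x v : G}

theorem Cfg.vpow6 (hc : Cfg t x v) : v ^ 6 = 1 := by
  rw [← hc.hv]; exact pow_orderOf_eq_one v

theorem Cfg.vpow5 (hc : Cfg t x v) : v ^ 5 = v⁻¹ := by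
  apply eq_inv_of_mul_eq_one_left
  rw [← pow_succ]; exact hc.vpow6

theorem Cfg.vord_pow (hc : Cfg t x v) : orderOf (v ^ 1) = 6 ∧ orderOf (v ^ 2) = 3 ∧
    orderOf (v ^ 3) = 2 ∧ orderOf (v ^ 4) = 3 ∧ orderOf (v ^ 5) = 6 := by
  refine ⟨?_, ?_, ?_, ?_, ?_⟩ <;> rw [orderOf_pow' v (by norm_num), hc.hv] <;> norm_num

open Classical in
theorem sum_zpowersV [Fintype G] (hc : Cfg t x v) (F : Subgroup.zpowers v → ℂ) :
    ∑ h : Subgroup.zpowers v, F h = ∑ j ∈ Finset.range 6, F (genX v ^ j) := by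
  have ho : orderOf (genX v) = 6 := by rw [genX, Subgroup.orderOf_mk, hc.hv]
  have hinj : Function.Injective (fun j : Fin 6 => genX v ^ (j : ℕ)) := by
    intro a b hab
    apply Fin.ext
    exact pow_injOn_Iio_orderOf (Set.mem_Iio.mpr (by rw [ho]; exact a.2))
      (Set.mem_Iio.mpr (by rw [ho]; exact b.2)) hab
  have hsurj : Function.Surjective (fun j : Fin 6 => genX v ^ (j : ℕ)) := by
    intro h
    obtain ⟨k, hk⟩ := Subgroup.mem_zpowers_iff.mp h.2
    have hk6 : v ^ (k % 6) = v ^ k := by simpa [hc.hv] using zpow_mod_orderOf v k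
    refine ⟨⟨(k % 6).toNat, by omega⟩, ?_⟩
    apply Subtype.ext
    simp only [Subgroup.coe_pow, genX]
    rw [← hk, ← hk6, ← zpow_natCast, Int.toNat_of_nonneg (Int.emod_nonneg k (by norm_num))]
  rw [← Fin.sum_univ_eq_sum_range (fun j => F (genX v ^ j)) 6]
  exact (Fintype.sum_equiv (Equiv.ofBijective _ ⟨hinj, hsurj⟩) _ _ (fun j => rfl)).symm

open Classical in
theorem ind_tabB [Fintype G] (hc : Cfg t x v) (φ : Subgroup.zpowers v → ℂ) (f : ℕ → ℂ)
    (hf : ∀ j : ℕ, φ (genX v ^ j) = f j) (h0 : f 0 = 0) (h2 : f 2 = 0) (h4 : f 4 = 0) :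
    Tab t x v (indFun (Subgroup.zpowers v) φ) (8 * f 3) (f 1 + f 5) 0 0 0 := by
  have hA : (Nat.card (Subgroup.zpowers v) : ℂ) = 6 := by
    rw [Nat.card_zpowers, hc.hv]; norm_num
  have key : ∀ g : G, indFun (Subgroup.zpowers v) φ g =
      (Nat.card (Subgroup.centralizer ({g} : Set G)) : ℂ) / 6 *
        ∑ j ∈ Finset.range 6, (if IsConj g (v ^ j) then f j else 0) := by
    intro g
    rw [indFun_eq_sum, hA, sum_zpowersV hc]
    congr 1
    apply Finset.sum_congr rfl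
    intro j _
    have e : ((genX v ^ j : Subgroup.zpowers v) : G) = v ^ j := by simp [genX]
    rw [hf, e]
  have hcl := Cfsg.Agent.H4.indFun_isClassFunction (Subgroup.zpowers v) φ
  have hcl' : ∀ r g : G, IsConj r g →
      indFun (Subgroup.zpowers v) φ g = indFun (Subgroup.zpowers v) φ r := by
    intro r g h; obtain ⟨c, rfl⟩ := isConj_iff.mp h; exact hcl r c
  obtain ⟨o1, o2, o3, o4, o5⟩ := hc.vord_pow
  obtain ⟨k2, k3, k4, k5⟩ := hc.card_cent
  have oxi : orderOf x⁻¹ = 8 := by rw [orderOf_inv, hc.hx]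
  have oy := hc.ord_sq
  have ot := hc.ht
  have ov := hc.hv
  have ox := hc.hx
  have ne : ∀ {a b : G} {m n : ℕ}, orderOf a = m → orderOf b = n → m ≠ n → ¬ IsConj a b :=
    fun ha hb hmn => not_isConj_of_orderOf_ne (by rw [ha, hb]; exact hmn)
  have p1 : v ^ 1 = v := pow_one v
  have p5 := hc.vpow5
  have e3t : IsConj t (v ^ 3) := by rw [hc.hv3]
  have e1v : IsConj v (v ^ 1) := by rw [p1]
  have e5v : IsConj v (v ^ 5) := by
    rw [p5]; obtain ⟨c, h⟩ := hc.fusV; exact isConj_iff.mpr ⟨c, h⟩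
  refine ⟨?_, ?_, ?_, ?_, ?_, ?_⟩
  · intro g hg
    rw [hcl' t g hg, key t, hc.centT]
    simp only [Finset.sum_range_succ, Finset.sum_range_zero]
    rw [h0, h2, h4, if_neg (ne ot o1 (by norm_num)), if_pos e3t, if_neg (ne ot o5 (by norm_num))]
    simp only [ite_self]
    push_cast; ring
  · intro g hg
    rw [hcl' v g hg, key v, k2]
    simp only [Finset.sum_range_succ, Finset.sum_range_zero]
    rw [h0, h2, h4, if_pos e1v, if_neg (ne ov o3 (by norm_num)), if_pos e5v]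
    simp only [ite_self]
    push_cast; ring
  · intro g hg
    rw [hcl' _ g hg, key (x ^ 2), k3]
    simp only [Finset.sum_range_succ, Finset.sum_range_zero]
    rw [h0, h2, h4, if_neg (ne oy o1 (by norm_num)), if_neg (ne oy o3 (by norm_num)),
      if_neg (ne oy o5 (by norm_num))]
    simp
  · intro g hg
    rw [hcl' _ g hg, key x, k4]
    simp only [Finset.sum_range_succ, Finset.sum_range_zero]
    rw [h0, h2, h4, if_neg (ne ox o1 (by norm_num)), if_neg (ne ox o3 (by norm_num)),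
      if_neg (ne ox o5 (by norm_num))]
    simp
  · intro g hg
    rw [hcl' _ g hg, key x⁻¹, k5]
    simp only [Finset.sum_range_succ, Finset.sum_range_zero]
    rw [h0, h2, h4, if_neg (ne oxi o1 (by norm_num)), if_neg (ne oxi o3 (by norm_num)),
      if_neg (ne oxi o5 (by norm_num))]
    simp
  · intro g n1 n2 n3 n4 n5
    rw [key g]
    simp only [Finset.sum_range_succ, Finset.sum_range_zero]
    have q1 : ¬ IsConj g (v ^ 1) := fun h => n2 (by rw [p1] at h; exact h.symm)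
    have q3 : ¬ IsConj g (v ^ 3) := fun h => n1 (by rw [hc.hv3] at h; exact h.symm)
    have q5 : ¬ IsConj g (v ^ 5) := fun h => n2 (e5v.trans h.symm)
    rw [h0, h2, h4, if_neg q1, if_neg q3, if_neg q5]
    simp

end

theorem tabB : StmtTabB.{u} := by
  intro G _ _ t x v hc
  obtain ⟨ξ, hξ⟩ : ∃ ξ : ℂ, ξ ^ 2 = ξ - 1 := by
    have hp := Complex.isPrimitiveRoot_exp 6 (by norm_num)
    set z := Complex.exp (2 * Real.pi * Complex.I / (6 : ℕ)) with hz
    refine ⟨z, ?_⟩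
    have h6 : z ^ 6 = 1 := hp.pow_eq_one
    have h2 : z ^ 2 ≠ 1 := hp.pow_ne_one_of_pos_of_lt (by norm_num) (by norm_num)
    have h3 : z ^ 3 ≠ 1 := hp.pow_ne_one_of_pos_of_lt (by norm_num) (by norm_num)
    have h3' : z ^ 3 = -1 := by
      have : (z ^ 3 - 1) * (z ^ 3 + 1) = 0 := by linear_combination h6
      rcases mul_eq_zero.mp this with h | h
      · exact absurd (sub_eq_zero.mp h) h3
      · linear_combination h
    have hz1 : z + 1 ≠ 0 := by
      intro h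
      apply h2
      have : z = -1 := by linear_combination h
      rw [this]; norm_num
    have : (z + 1) * (z ^ 2 - z + 1) = 0 := by linear_combination h3'
    rcases mul_eq_zero.mp this with h | h
    · exact absurd h hz1
    · linear_combination h
  have hξ0 : ξ ≠ 0 := by
    intro h; rw [h] at hξ; norm_num at hξ
  have hξ6 : (Units.mk0 ξ hξ0) ^ 6 = 1 := by
    apply Units.ext
    simp only [Units.val_pow_eq_pow_val, Units.val_mk0, Units.val_one]
    linear_combination (ξ ^ 4 + ξ ^ 3 - ξ - 1) * hξ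
  have ho : orderOf (genX v) = 6 := by rw [genX, Subgroup.orderOf_mk, hc.hv]
  have hgen : ∀ y : Subgroup.zpowers v, y ∈ Subgroup.zpowers (genX v) := by
    intro y
    obtain ⟨k, hk⟩ := Subgroup.mem_zpowers_iff.mp y.2
    refine Subgroup.mem_zpowers_iff.mpr ⟨k, ?_⟩
    apply Subtype.ext
    simp only [Subgroup.coe_zpow, genX]
    exact hk
  have hdvd : orderOf (Units.mk0 ξ hξ0) ∣ orderOf (genX v) := by
    rw [ho]; exact orderOf_dvd_of_pow_eq_one hξ6
  set lam : Subgroup.zpowers v →* ℂˣ := monoidHomOfForallMemZpowers hgen hdvd with hlam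
  have hlamx : lam (genX v) = Units.mk0 ξ hξ0 := monoidHomOfForallMemZpowers_apply_gen hgen hdvd
  have hval : ∀ j : ℕ, ((lam (genX v ^ j) : ℂˣ) : ℂ) = ξ ^ j := by
    intro j
    rw [map_pow, hlamx]; simp
  have hch : ∀ k : ℕ, IsCharacter (Subgroup.zpowers v) (fun h => ((lam h : ℂˣ) : ℂ) ^ k) := by
    intro k
    have h := Cfsg.Agent.H4.isCharacter_of_hom (lam ^ k)
    have e : (fun h => (((lam ^ k) h : ℂˣ) : ℂ)) = fun h => ((lam h : ℂˣ) : ℂ) ^ k := by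
      funext h; simp
    rwa [e] at h
  have hI : ∀ k : ℕ, IsGeneralizedCharacter G
      (indFun (Subgroup.zpowers v) (fun h => ((lam h : ℂˣ) : ℂ) ^ k)) := fun k =>
    Cfsg.Agent.H32.isGeneralizedCharacter_of_isCharacter
      (Cfsg.Agent.H4.isCharacter_indFun _ _ (hch k))
  have hgenK : IsGeneralizedCharacter G (indFun (Subgroup.zpowers v)
      (fun h => ((lam h : ℂˣ) : ℂ) ^ 2 - ((lam h : ℂˣ) : ℂ) ^ 5)) := by
    have e : (fun h : Subgroup.zpowers v => ((lam h : ℂˣ) : ℂ) ^ 2 - ((lam h : ℂˣ) : ℂ) ^ 5) =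
        (fun h => ((lam h : ℂˣ) : ℂ) ^ 2) - (fun h => ((lam h : ℂˣ) : ℂ) ^ 5) := rfl
    rw [e, Cfsg.Agent.H4.indFun_sub]
    exact Cfsg.Agent.H32.isGeneralizedCharacter_sub (hI 2) (hI 5)
  have hT := ind_tabB hc (fun h => ((lam h : ℂˣ) : ℂ) ^ 2 - ((lam h : ℂˣ) : ℂ) ^ 5)
    (fun j => (ξ ^ j) ^ 2 - (ξ ^ j) ^ 5) (by intro j; simp only [hval]) (by ring)
    (by linear_combination ((1) * ξ ^ 4 + (1) * ξ ^ 5 + (-1) * ξ ^ 7 + (-1) * ξ ^ 8) * hξ) (by linear_combination ((1) * ξ ^ 8 + (1) * ξ ^ 9 + (-1) * ξ ^ 11 + (-1) * ξ ^ 12 + (1) * ξ ^ 14 + (1) * ξ ^ 15 + (-1) * ξ ^ 17 + (-1) * ξ ^ 18) * hξ)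
  have e1 : 8 * ((ξ ^ 3) ^ 2 - (ξ ^ 3) ^ 5) = 16 := by linear_combination ((-16) * ξ ^ 0 + (-16) * ξ ^ 1 + (16) * ξ ^ 3 + (16) * ξ ^ 4 + (-8) * ξ ^ 6 + (-8) * ξ ^ 7 + (8) * ξ ^ 9 + (8) * ξ ^ 10 + (-8) * ξ ^ 12 + (-8) * ξ ^ 13) * hξ
  have e2 : ((ξ ^ 1) ^ 2 - (ξ ^ 1) ^ 5) + ((ξ ^ 5) ^ 2 - (ξ ^ 5) ^ 5) = -2 := by
    linear_combination ((2) * ξ ^ 0 + (2) * ξ ^ 1 + (1) * ξ ^ 2 + (-1) * ξ ^ 3 + (-2) * ξ ^ 4 + (-2) * ξ ^ 5 + (2) * ξ ^ 7 + (2) * ξ ^ 8 + (-1) * ξ ^ 10 + (-1) * ξ ^ 11 + (1) * ξ ^ 13 + (1) * ξ ^ 14 + (-1) * ξ ^ 16 + (-1) * ξ ^ 17 + (1) * ξ ^ 19 + (1) * ξ ^ 20 + (-1) * ξ ^ 22 + (-1) * ξ ^ 23) * hξ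
  simp only [e1, e2] at hT
  exact ⟨_, hgenK, hT⟩

end Cfsg.Agent.H81.GL23
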