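import Mathlib
import Cfsg.Agent.H79.HcDefs
import Cfsg.Agent.H4.Irr
import Cfsg.Agent.H4.IrrCount
import Cfsg.Agent.H4.Frob
import Cfsg.Agent.H4.CharBasic
import Cfsg.Agent.H4.BrauerBasic
import Cfsg.Agent.H4.RelC
import Cfsg.Agent.H4.Induction
import Cfsg.Agent.Lib.Clifford
import Cfsg.Agent.Lib.Gallagher

/-!
# S4440 piece P20 (TRANSA): a character over `θ` factors as `β · θt` on the central extension
-/

set_option autoImplicit false
set_option linter.style.haveILetI false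

namespace Cfsg.Agent.H81.Hc

open Cfsg Cfsg.Agent.H79.Hc
open scoped ComplexConjugate

universe u

/-- (TRANSA) Gallagher: a character of `G` over `θ` factors as `β · θt` on `Ĝ`. -/
theorem stmtTransA : StmtTransA.{u} := by
  intro G _ _ K _ _ θ Ĝ _ _ π θt ν hCE ψ hψθ
  classical
  letI : Fintype G := Fintype.ofFinite G
  letI : Fintype Ĝ := Fintype.ofFinite Ĝ
  obtain ⟨hsurj, hcentral, hkerexp, hirr, hres, hresirr, hnumul, hnune, hnuconj⟩ := hCE
  set N : Subgroup Ĝ := K.comap π with hN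
  haveI hNn : N.Normal := Subgroup.Normal.comap inferInstance π
  letI : Fintype N := Fintype.ofFinite N
  have h1K : π 1 ∈ K := by rw [map_one]; exact K.one_mem
  have hν1 : ν 1 = 1 := by
    have h1 := hnumul 1 1 h1K h1K
    rw [mul_one] at h1
    have h2 := hnune 1 h1K
    have h3 : 1 * ν 1 = ν 1 * ν 1 := by rw [one_mul]; exact h1
    exact (mul_right_cancel₀ h2 h3).symm
  let lam : N →* ℂˣ := MonoidHom.mk'
    (fun n => Units.mk0 (ν (n : Ĝ))⁻¹ (inv_ne_zero (hnune n n.2))) (by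
      intro a b
      apply Units.ext
      simp only [Units.val_mk0, Units.val_mul, Subgroup.coe_mul]
      rw [hnumul a b a.2 b.2, mul_inv])
  set φ : N → ℂ := fun n => ((lam n : ℂˣ) : ℂ) with hφdef
  have hφval : ∀ n : N, φ n = (ν (n : Ĝ))⁻¹ := fun n => rfl
  have hφ : IsIrrCharacter N φ := Cfsg.Agent.H4.isIrrCharacter_of_hom lam
  set ϑ : N → ℂ := fun n => θt (n : Ĝ) with hϑdef
  have hϑ : IsIrrCharacter N ϑ := hresirr
  have hθtc : IsCharacter Ĝ θt := Cfsg.Agent.H4.isCharacter_of_isIrrCharacter hirr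
  have hθtcf : IsClassFunction Ĝ θt := Cfsg.Agent.H4.isClassFunction_of_isCharacter hθtc
  have hφinv : ∀ g : Ĝ, Cfsg.Agent.Clifford.conjChar N φ g = φ := by
    intro g
    funext n
    rw [Cfsg.Agent.Clifford.conjChar_apply, hφval, hφval]
    congr 1
    exact hnuconj n g n.2
  have hϑinv : ∀ g : Ĝ, Cfsg.Agent.Clifford.conjChar N ϑ g = ϑ := by
    intro g
    funext n
    rw [Cfsg.Agent.Clifford.conjChar_apply]
    exact hθtcf n g
  let πN : N →* K := π.subgroupComap K
  have hπN : Function.Surjective πN := MonoidHom.subgroupComap_surjective_of_surjective π K hsurj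
  have hprodeq : φ * ϑ = fun n : N => (θ : K → ℂ) (πN n) := by
    funext n
    rw [Pi.mul_apply, hφval]
    show (ν (n : Ĝ))⁻¹ * θt (n : Ĝ) = _
    rw [hres n n.2, ← mul_assoc, inv_mul_cancel₀ (hnune n n.2), one_mul]
    rfl
  have hprod : IsIrrCharacter N (φ * ϑ) := by
    rw [hprodeq]
    exact Cfsg.Agent.H4.isIrrCharacter_comp_surjective πN hπN θ.2
  obtain ⟨-, -, hgal⟩ := Cfsg.Agent.Clifford.gallagher N hφ hϑ hφinv hϑinv hprod hθtc (fun n => rfl)
  have hψ' : IsIrrCharacter Ĝ (fun x => (ψ : G → ℂ) (π x)) :=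
    Cfsg.Agent.H4.isIrrCharacter_comp_surjective π hsurj ψ.2
  have hψ'cf := Cfsg.Agent.H4.isClassFunction_of_isCharacter
    (Cfsg.Agent.H4.isCharacter_of_isIrrCharacter hψ')
  have hover : classInner (indFun N (φ * ϑ)) (fun x => (ψ : G → ℂ) (π x)) ≠ 0 := by
    rw [Cfsg.Agent.H4.frobenius_reciprocity N (φ * ϑ) _ hψ'cf, hprodeq]
    have h1 : (fun h : N => (fun x => (ψ : G → ℂ) (π x)) (h : Ĝ)) =
        fun n : N => (fun k : K => (ψ : G → ℂ) k) (πN n) := rfl
    rw [h1, Cfsg.Agent.H4.classInner_comp_surj' πN hπN (θ : K → ℂ) (fun k : K => (ψ : G → ℂ) k)]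
    rw [← Cfsg.Agent.H4.classInner_conj_symm]
    intro h0
    apply hψθ
    simpa using h0
  obtain ⟨β, hβ, hβφ, hβeq⟩ := hgal _ hψ' hover
  refine ⟨⟨β, hβ⟩, ?_, ?_⟩
  · intro x
    exact (congrFun hβeq x).symm
  · have hβc := Cfsg.Agent.H4.isCharacter_of_isIrrCharacter hβ
    have hβcf := Cfsg.Agent.H4.isClassFunction_of_isCharacter hβc
    have h1 : classInner (fun n : N => β n) φ ≠ 0 := by
      rw [Cfsg.Agent.H4.frobenius_reciprocity N φ β hβcf] at hβφ
      rw [← Cfsg.Agent.H4.classInner_conj_symm]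
      intro h0
      apply hβφ
      simpa using h0
    have hcl := Cfsg.Agent.Clifford.clifford_res N hβ hφ h1
    have hset : {ψ₂ : N → ℂ | ∃ g : Ĝ, ψ₂ = Cfsg.Agent.Clifford.conjChar N φ g} = {φ} := by
      ext ψ₂
      constructor
      · rintro ⟨g, hg⟩
        rw [hg, hφinv]
        rfl
      · intro h
        exact ⟨1, by rw [hφinv]; exact h⟩
    rw [hset, finsum_mem_singleton] at hcl
    have hφ1 : φ 1 = 1 := by
      rw [hφval, Subgroup.coe_one, hν1, inv_one]
    have hβN : ∀ n : N, β n = β 1 * φ n := by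
      intro n
      have h2 := congrFun hcl n
      have h3 := congrFun hcl 1
      simp only [Pi.smul_apply, smul_eq_mul] at h2 h3
      rw [hφ1, mul_one, Subgroup.coe_one] at h3
      rw [h2, ← h3]
    intro x k hk
    obtain ⟨d, ρ, hρ, hβρ⟩ := hβ
    have hφk : ‖φ ⟨k, hk⟩‖ = 1 := by
      have h4 : ((lam ⟨k, hk⟩ : ℂˣ) : ℂ) ^ (orderOf (⟨k, hk⟩ : N)) = 1 := by
        rw [← Units.val_pow_eq_pow_val, ← map_pow, pow_orderOf_eq_one, map_one, Units.val_one]
      exact Complex.norm_eq_one_of_pow_eq_one h4 (orderOf_pos _).ne'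
    have hfin : Module.finrank ℂ (Fin d → ℂ) = d := Module.finrank_fin_fun ℂ
    have hβ1 : β 1 = (d : ℂ) := by
      rw [← hβρ, Representation.char_one, hfin]
    have hnorm : ‖ρ.character k‖ = (Module.finrank ℂ (Fin d → ℂ) : ℝ) := by
      rw [hβρ, hβN ⟨k, hk⟩, norm_mul, hφk, mul_one, hβ1, hfin, Complex.norm_natCast]
    obtain ⟨ω, hω⟩ := (Cfsg.Agent.H4.character_norm_eq_iff ρ k).mp hnorm
    have hd : (d : ℂ) ≠ 0 := by
      rw [← hβ1]
      exact Cfsg.Agent.Clifford.irr_one_ne_zero' ⟨d, ρ, hρ, hβρ⟩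
    have hωφ : ω = φ ⟨k, hk⟩ := by
      have h5 : ρ.character k = ω * (d : ℂ) := by
        rw [Representation.character, hω, map_smul, LinearMap.trace_id, smul_eq_mul, hfin]
      rw [hβρ] at h5
      have h6 := hβN ⟨k, hk⟩
      rw [hβ1] at h6
      have h7 : ω * (d : ℂ) = φ ⟨k, hk⟩ * (d : ℂ) := by
        rw [← h5, mul_comm]
        exact h6
      exact mul_right_cancel₀ hd h7
    show β (x * k) = (ν k)⁻¹ * β x
    rw [← hβρ]
    have h8 : ρ.character (x * k) = ω * ρ.character x := by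
      simp only [Representation.character, map_mul, hω]
      rw [mul_smul_comm, map_smul, smul_eq_mul]
      congr 2
    rw [h8, hωφ]
    rfl

end Cfsg.Agent.H81.Hc
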