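import Mathlib
import Cfsg.Prelude.Def_Characters
import Cfsg.Prelude.Def_Blocks
import Cfsg.Agent.H4.PSection2
import Cfsg.Agent.H4.Irr
import Cfsg.Agent.H20.LocalRing
import Cfsg.Agent.H20.CentralChar
import Cfsg.Agent.H20.BlockIdem
import Cfsg.Agent.H20.DefectOrder
import Cfsg.Agent.H79.GaloisAut
import Cfsg.Agent.H79.GaloisChar
import Cfsg.Agent.H79.GaloisAct
import Cfsg.Agent.H79.CharValues
import Cfsg.Agent.H79.PElementCongr
import Cfsg.Agent.H80.Block
import Cfsg.Agent.H81.WBO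
import Cfsg.Agent.H81.Degree
import Cfsg.Agent.S0906

/-!
# helper81: the number of `p`-conjugates of an irreducible character

For an irreducible character `χ` of `G` with `|G| = p ^ a * g'`, `p ∤ g'`, the Galois conjugates
of `χ` over the `g'`-th cyclotomic field form an orbit of `(ZMod (p ^ a))ˣ`.

* `gamOne p b` : the units of `ZMod (p ^ (b + 1))` that are `1` modulo `p`; `card_gamOne`,
  `sum_gamOne_pow` (the sum of `α ^ u` over this group is `p ^ b * α` or `0`).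
-/

set_option autoImplicit false
set_option linter.style.haveILetI false
set_option linter.unusedSectionVars false

namespace Cfsg.Agent.H81

open Cfsg Cfsg.Agent.H20 Cfsg.Agent.H4
open scoped ComplexConjugate

section NumberTheory

theorem pow_eq_pow_of_modEq_of_pow_eq_one {M : Type*} [Monoid M] {x : M} {m a b : ℕ}
    (hx : x ^ m = 1) (h : a ≡ b [MOD m]) : x ^ a = x ^ b := by
  have h' : a % orderOf x = b % orderOf x := h.of_dvd (orderOf_dvd_of_pow_eq_one hx)
  rw [← pow_mod_orderOf x a, ← pow_mod_orderOf x b, h']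

variable {p : ℕ} (b : ℕ)

/-- The subgroup of units of `ZMod (p ^ (b + 1))` that are `1` modulo `p`. -/
def gamOne (p b : ℕ) : Subgroup (ZMod (p ^ (b + 1)))ˣ :=
  (ZMod.unitsMap (dvd_pow_self p (Nat.succ_ne_zero b))).ker

theorem mem_gamOne_iff (hp : p.Prime) (u : (ZMod (p ^ (b + 1)))ˣ) :
    u ∈ gamOne p b ↔ (u : ZMod (p ^ (b + 1))).val ≡ 1 [MOD p] := by
  haveI : NeZero (p ^ (b + 1)) := ⟨(pow_pos hp.pos _).ne'⟩
  unfold gamOne
  rw [MonoidHom.mem_ker, Units.ext_iff, ZMod.unitsMap_val, Units.val_one, ZMod.cast_eq_val,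
    ← Nat.cast_one (R := ZMod p), ZMod.natCast_eq_natCast_iff]

theorem card_gamOne (hp : p.Prime) : Nat.card (gamOne p b) = p ^ b := by
  haveI : NeZero (p ^ (b + 1)) := ⟨(pow_pos hp.pos _).ne'⟩
  haveI : Fact p.Prime := ⟨hp⟩
  have h1 := Subgroup.card_mul_index (gamOne p b)
  have h2 : (gamOne p b).index = p - 1 := by
    unfold gamOne
    rw [Subgroup.index_ker, MonoidHom.range_eq_top.mpr (ZMod.unitsMap_surjective _),
      Subgroup.card_top, Nat.card_eq_fintype_card, ZMod.card_units_eq_totient,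
      Nat.totient_prime hp]
  have h3 : Nat.card (ZMod (p ^ (b + 1)))ˣ = p ^ b * (p - 1) := by
    rw [Nat.card_eq_fintype_card, ZMod.card_units_eq_totient, Nat.totient_prime_pow_succ hp]
  rw [h2, h3] at h1
  exact Nat.eq_of_mul_eq_mul_right (Nat.sub_pos_of_lt hp.one_lt) h1

/-- The sum of `α ^ u` over the units `u ≡ 1 (mod p)` of `ZMod (p ^ (b + 1))`, for a
`p ^ (b + 1)`-th root of unity `α`. -/
theorem sum_gamOne_pow (hp : p.Prime) [Fintype (gamOne p b)] (α : ℂ)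
    (hα : α ^ (p ^ (b + 1)) = 1) :
    ∑ u : gamOne p b, α ^ ((u : (ZMod (p ^ (b + 1)))ˣ) : ZMod (p ^ (b + 1))).val
      = if α ^ p = 1 then (p ^ b : ℂ) * α else 0 := by
  haveI : NeZero (p ^ (b + 1)) := ⟨(pow_pos hp.pos _).ne'⟩
  split_ifs with h
  · have hterm : ∀ u : gamOne p b,
        α ^ ((u : (ZMod (p ^ (b + 1)))ˣ) : ZMod (p ^ (b + 1))).val = α := by
      intro u
      have hu := (mem_gamOne_iff b hp u.1).mp u.2
      have := pow_eq_pow_of_modEq_of_pow_eq_one h hu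
      rwa [pow_one] at this
    rw [Finset.sum_congr rfl (fun u _ => hterm u), Finset.sum_const, Finset.card_univ,
      ← Nat.card_eq_fintype_card, card_gamOne b hp, nsmul_eq_mul]
    push_cast
    ring
  · -- least `j` with `α ^ (p ^ (j + 1)) = 1`
    classical
    have hex : ∃ j, α ^ (p ^ (j + 1)) = 1 := ⟨b, hα⟩
    obtain ⟨j, hj⟩ : ∃ j, j = Nat.find hex := ⟨_, rfl⟩
    have hj1 : α ^ (p ^ (j + 1)) = 1 := hj ▸ Nat.find_spec hex
    have hjb : j ≤ b := hj ▸ Nat.find_min' hex hα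
    have hj0 : j ≠ 0 := by
      rintro rfl
      apply h
      simpa using hj1
    have hjm : α ^ (p ^ j) ≠ 1 := by
      intro hc
      have hlt : j - 1 < Nat.find hex := by rw [← hj]; omega
      apply Nat.find_min hex hlt
      rwa [Nat.sub_add_cancel (Nat.pos_of_ne_zero hj0)]
    obtain ⟨ω, hω⟩ : ∃ ω : ℂ, ω = α ^ (p ^ j) := ⟨_, rfl⟩
    have hωp : ω ^ p = 1 := by rw [hω, ← pow_mul, ← pow_succ]; exact hj1
    have hω1 : ω ≠ 1 := hω ▸ hjm
    have hpq : p ∣ p ^ (b + 1) := dvd_pow_self p (Nat.succ_ne_zero b)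
    have hcop : (1 + p ^ j).Coprime (p ^ (b + 1)) := by
      apply Nat.Coprime.pow_right
      apply Nat.Coprime.symm
      rw [Nat.Prime.coprime_iff_not_dvd hp]
      intro hdvd
      have : p ∣ 1 := (Nat.dvd_add_left (dvd_pow_self p hj0)).mp hdvd
      exact hp.one_lt.ne' (Nat.dvd_one.mp this)
    have hvval : ((ZMod.unitOfCoprime (1 + p ^ j) hcop : (ZMod (p ^ (b + 1)))ˣ) :
        ZMod (p ^ (b + 1))).val = (1 + p ^ j) % p ^ (b + 1) := by
      rw [ZMod.coe_unitOfCoprime, ZMod.val_natCast]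
    have hv : ZMod.unitOfCoprime (1 + p ^ j) hcop ∈ gamOne p b := by
      rw [mem_gamOne_iff b hp, hvval]
      have h1 : (1 + p ^ j) % p ^ (b + 1) ≡ 1 + p ^ j [MOD p] :=
        (Nat.mod_modEq _ _).of_dvd hpq
      have h2 : 1 + p ^ j ≡ 1 [MOD p] := by
        have : p ^ j ≡ 0 [MOD p] := (Nat.modEq_zero_iff_dvd).mpr (dvd_pow_self p hj0)
        simpa using Nat.ModEq.add_left 1 this
      exact h1.trans h2
    obtain ⟨S, hS⟩ : ∃ S : ℂ, S = ∑ u : gamOne p b,
        α ^ ((u : (ZMod (p ^ (b + 1)))ˣ) : ZMod (p ^ (b + 1))).val := ⟨_, rfl⟩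
    have hre : ∑ u : gamOne p b,
        α ^ (((u * ⟨_, hv⟩ : gamOne p b) : (ZMod (p ^ (b + 1)))ˣ) : ZMod (p ^ (b + 1))).val = S := by
      rw [hS]
      exact Equiv.sum_comp (Equiv.mulRight (⟨_, hv⟩ : gamOne p b))
        (fun u : gamOne p b => α ^ ((u : (ZMod (p ^ (b + 1)))ˣ) : ZMod (p ^ (b + 1))).val)
    have hterm : ∀ u : gamOne p b,
        α ^ (((u * ⟨_, hv⟩ : gamOne p b) : (ZMod (p ^ (b + 1)))ˣ) : ZMod (p ^ (b + 1))).val
          = ω * α ^ ((u : (ZMod (p ^ (b + 1)))ˣ) : ZMod (p ^ (b + 1))).val := by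
      intro u
      have hu := (mem_gamOne_iff b hp u.1).mp u.2
      rw [Subgroup.coe_mul, Units.val_mul, ZMod.val_mul, hvval]
      obtain ⟨A, hA⟩ : ∃ A : ℕ, A = ((u : (ZMod (p ^ (b + 1)))ˣ) : ZMod (p ^ (b + 1))).val :=
        ⟨_, rfl⟩
      rw [← hA] at hu ⊢
      have hc : A * ((1 + p ^ j) % p ^ (b + 1)) % p ^ (b + 1) ≡ A * (1 + p ^ j)
          [MOD p ^ (b + 1)] :=
        (Nat.mod_modEq _ _).trans (Nat.ModEq.mul_left A (Nat.mod_modEq _ _))
      rw [pow_eq_pow_of_modEq_of_pow_eq_one hα hc, mul_add, mul_one, pow_add, mul_comm A,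
        pow_mul, ← hω]
      have := pow_eq_pow_of_modEq_of_pow_eq_one hωp hu
      rw [pow_one] at this
      rw [this, mul_comm]
    rw [Finset.sum_congr rfl (fun u _ => hterm u), ← Finset.mul_sum, ← hS] at hre
    have : (ω - 1) * S = 0 := by rw [sub_mul, hre, one_mul, sub_self]
    rcases mul_eq_zero.mp this with h0 | h0
    · exact absurd (sub_eq_zero.mp h0) hω1
    · rw [← hS]; exact h0

end NumberTheory

section Action

variable {q g' : ℕ}

/-- An exponent congruent to `u` modulo `q` and to `1` modulo `g'`. -/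
noncomputable def kexp (hcop : Nat.Coprime q g') (u : (ZMod q)ˣ) : ℕ :=
  (u : ZMod q).val * (Nat.chineseRemainder hcop 1 0 : ℕ) + (Nat.chineseRemainder hcop 0 1 : ℕ)

theorem kexp_modEq_left (hcop : Nat.Coprime q g') (u : (ZMod q)ˣ) :
    kexp hcop u ≡ (u : ZMod q).val [MOD q] := by
  have h1 := (Nat.chineseRemainder hcop 1 0).2.1
  have h2 := (Nat.chineseRemainder hcop 0 1).2.1
  have := (Nat.ModEq.mul_left (u : ZMod q).val h1).add h2
  simpa [kexp] using this

theorem kexp_modEq_right (hcop : Nat.Coprime q g') (u : (ZMod q)ˣ) :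
    kexp hcop u ≡ 1 [MOD g'] := by
  have h1 := (Nat.chineseRemainder hcop 1 0).2.2
  have h2 := (Nat.chineseRemainder hcop 0 1).2.2
  have := (Nat.ModEq.mul_left (u : ZMod q).val h1).add h2
  simpa [kexp] using this

theorem kexp_coprime (hcop : Nat.Coprime q g') (u : (ZMod q)ˣ) :
    (kexp hcop u).Coprime (q * g') := by
  apply Nat.Coprime.mul_right
  · unfold Nat.Coprime
    rw [(kexp_modEq_left hcop u).gcd_eq]
    exact ZMod.val_coe_unit_coprime u
  · unfold Nat.Coprime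
    rw [(kexp_modEq_right hcop u).gcd_eq]
    exact Nat.gcd_one_left _

theorem kexp_mul (hcop : Nat.Coprime q g') (u v : (ZMod q)ˣ) :
    kexp hcop (u * v) ≡ kexp hcop u * kexp hcop v [MOD q * g'] := by
  apply (Nat.modEq_and_modEq_iff_modEq_mul hcop).mp
  constructor
  · refine (kexp_modEq_left hcop (u * v)).trans ?_
    rw [Units.val_mul, ZMod.val_mul]
    exact (Nat.mod_modEq _ _).trans
      (((kexp_modEq_left hcop u).mul (kexp_modEq_left hcop v)).symm)
  · have h := ((kexp_modEq_right hcop u).mul (kexp_modEq_right hcop v)).symm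
    rw [mul_one] at h
    exact (kexp_modEq_right hcop (u * v)).trans h

theorem kexp_one (hcop : Nat.Coprime q g') : kexp hcop (1 : (ZMod q)ˣ) ≡ 1 [MOD q * g'] := by
  apply (Nat.modEq_and_modEq_iff_modEq_mul hcop).mp
  constructor
  · refine (kexp_modEq_left hcop 1).trans ?_
    rw [Units.val_one, ZMod.val_one_eq_one_mod]
    exact Nat.mod_modEq _ _
  · exact kexp_modEq_right hcop 1

variable {G : Type*} [Group G] [Finite G]

/-- The Galois conjugate of `ψ` by the unit `u`. -/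
noncomputable def pconj (hcop : Nat.Coprime q g') (hn : Nat.card G = q * g') (u : (ZMod q)ˣ)
    (ψ : IrrCharacter G) : IrrCharacter G :=
  Cfsg.Agent.H79.irrPow (kexp hcop u) (by rw [hn]; exact kexp_coprime hcop u) ψ

theorem pconj_apply (hcop : Nat.Coprime q g') (hn : Nat.card G = q * g') (u : (ZMod q)ˣ)
    (ψ : IrrCharacter G) (g : G) :
    (pconj hcop hn u ψ : G → ℂ) g = (ψ : G → ℂ) (g ^ kexp hcop u) := rfl

theorem pconj_one (hcop : Nat.Coprime q g') (hn : Nat.card G = q * g') (ψ : IrrCharacter G) :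
    pconj hcop hn 1 ψ = ψ := by
  apply Subtype.ext
  funext g
  have h1 : kexp hcop (1 : (ZMod q)ˣ) ≡ 1 [MOD Nat.card G] := by rw [hn]; exact kexp_one hcop
  rw [pconj_apply, pow_eq_pow_of_modEq_of_pow_eq_one pow_card_eq_one' h1, pow_one]

theorem pconj_mul (hcop : Nat.Coprime q g') (hn : Nat.card G = q * g') (u v : (ZMod q)ˣ)
    (ψ : IrrCharacter G) :
    pconj hcop hn (u * v) ψ = pconj hcop hn u (pconj hcop hn v ψ) := by
  apply Subtype.ext
  funext g
  have h1 : kexp hcop (u * v) ≡ kexp hcop u * kexp hcop v [MOD Nat.card G] := by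
    rw [hn]; exact kexp_mul hcop u v
  rw [pconj_apply, pconj_apply, pconj_apply, ← pow_mul,
    pow_eq_pow_of_modEq_of_pow_eq_one pow_card_eq_one' h1]

/-- The action of `(ZMod q)ˣ` on the irreducible characters. -/
@[reducible] noncomputable def pconjAction (hcop : Nat.Coprime q g') (hn : Nat.card G = q * g') :
    MulAction (ZMod q)ˣ (IrrCharacter G) where
  smul u ψ := pconj hcop hn u ψ
  one_smul ψ := pconj_one hcop hn ψ
  mul_smul u v ψ := pconj_mul hcop hn u v ψ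

/-- The `p`-conjugates of `χ` are its conjugates under the action of `(ZMod q)ˣ`. -/
theorem exists_sigma_iff (hcop : Nat.Coprime q g') (hn : Nat.card G = q * g')
    (χ ψ : IrrCharacter G) :
    (∃ σ : ℂ ≃+* ℂ, σ (Complex.exp (2 * Real.pi * Complex.I / (g' : ℕ))) =
        Complex.exp (2 * Real.pi * Complex.I / (g' : ℕ)) ∧
        (ψ : G → ℂ) = fun g => σ ((χ : G → ℂ) g))
      ↔ ∃ u : (ZMod q)ˣ, ψ = pconj hcop hn u χ := by
  have hn0 : 0 < Nat.card G := Nat.card_pos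
  have hq0 : q ≠ 0 := by
    rintro rfl
    rw [zero_mul] at hn
    omega
  have hg0 : g' ≠ 0 := by
    rintro rfl
    rw [mul_zero] at hn
    omega
  haveI : NeZero (Nat.card G) := ⟨hn0.ne'⟩
  obtain ⟨ζ, hζdef⟩ : ∃ ζ : ℂ, ζ = Complex.exp (2 * Real.pi * Complex.I / (Nat.card G : ℕ)) :=
    ⟨_, rfl⟩
  have hζ : IsPrimitiveRoot ζ (Nat.card G) := hζdef ▸ Complex.isPrimitiveRoot_exp _ hn0.ne'
  have hη : Complex.exp (2 * Real.pi * Complex.I / (g' : ℕ)) = ζ ^ q := by
    rw [hζdef, ← Complex.exp_nat_mul, hn]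
    congr 1
    have hq0' : (q : ℂ) ≠ 0 := by exact_mod_cast hq0
    have hg0' : (g' : ℂ) ≠ 0 := by exact_mod_cast hg0
    push_cast
    field_simp
  have hηg : (ζ ^ q) ^ g' = 1 := by rw [← pow_mul, ← hn]; exact hζ.pow_eq_one
  have hηprim : IsPrimitiveRoot (ζ ^ q) g' := IsPrimitiveRoot.pow hn0 hζ hn
  obtain ⟨n, ρ, hρ, hχ⟩ := χ.2
  constructor
  · rintro ⟨σ, hσ, hψ⟩
    have hσζ : IsPrimitiveRoot (σ ζ) (Nat.card G) := hζ.map_of_injective σ.injective
    obtain ⟨m, -, hm⟩ := hζ.eq_pow_of_pow_eq_one hσζ.pow_eq_one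
    have hmcop : m.Coprime (Nat.card G) := (hζ.pow_iff_coprime hn0 m).mp (hm ▸ hσζ)
    have hσε : ∀ ε : ℂ, ε ^ Nat.card G = 1 → (σ : ℂ →+* ℂ) ε = ε ^ m := by
      intro ε hε
      obtain ⟨j, -, rfl⟩ := hζ.eq_pow_of_pow_eq_one hε
      rw [RingEquiv.coe_toRingHom, map_pow, ← hm, ← pow_mul, ← pow_mul, mul_comm]
    have hm1 : m ≡ 1 [MOD g'] := by
      rw [hη] at hσ
      have h1 : (ζ ^ q) ^ m = (ζ ^ q) ^ 1 := by
        calc (ζ ^ q) ^ m = (ζ ^ m) ^ q := by rw [← pow_mul, ← pow_mul, mul_comm]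
          _ = σ (ζ ^ q) := by rw [hm, map_pow]
          _ = (ζ ^ q) ^ 1 := by rw [hσ, pow_one]
      rw [hηprim.eq_orderOf]
      exact (IsOfFinOrder.pow_eq_pow_iff_modEq
        (isOfFinOrder_iff_pow_eq_one.mpr ⟨g', Nat.pos_of_ne_zero hg0, hηg⟩)).mp h1
    have hmq : m.Coprime q := Nat.Coprime.coprime_dvd_right (Dvd.intro _ hn.symm) hmcop
    refine ⟨ZMod.unitOfCoprime m hmq, ?_⟩
    apply Subtype.ext
    funext g
    rw [pconj_apply, hψ, ← hχ]
    have h2 := Cfsg.Agent.H79.ringHom_character_eq_pow ρ (Nat.card G) m hn0 (σ : ℂ →+* ℂ) hσε g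
      pow_card_eq_one'
    rw [RingEquiv.coe_toRingHom] at h2
    show σ (ρ.character g) = _
    rw [h2]
    congr 1
    apply pow_eq_pow_of_modEq_of_pow_eq_one (m := Nat.card G) pow_card_eq_one'
    rw [hn]
    apply (Nat.modEq_and_modEq_iff_modEq_mul hcop).mp
    constructor
    · refine Nat.ModEq.symm ((kexp_modEq_left hcop _).trans ?_)
      rw [ZMod.coe_unitOfCoprime, ZMod.val_natCast]
      exact Nat.mod_modEq _ _
    · exact hm1.trans (kexp_modEq_right hcop _).symm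
  · rintro ⟨u, rfl⟩
    have hk : (kexp hcop u).Coprime (Nat.card G) := by rw [hn]; exact kexp_coprime hcop u
    obtain ⟨τ, hτ⟩ :=
      Cfsg.Agent.H79.exists_ringEquiv_complex_pow (Nat.card G) (kexp hcop u) hn0 hk
    refine ⟨τ, ?_, ?_⟩
    · rw [hη, hτ _ (by rw [← pow_mul, mul_comm, pow_mul, hζ.pow_eq_one, one_pow])]
      have := pow_eq_pow_of_modEq_of_pow_eq_one hηg (kexp_modEq_right hcop u)
      rw [this, pow_one]
    · funext g
      rw [pconj_apply, ← hχ]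
      exact (Cfsg.Agent.H79.ringHom_character_eq_pow ρ (Nat.card G) (kexp hcop u) hn0
        (τ : ℂ →+* ℂ) (fun ε hε => hτ ε hε) g pow_card_eq_one').symm

end Action

section Integrality

variable {p : ℕ} {G : Type*} [Group G] [Finite G]

/-- The average of `χ (g ^ k)` over the exponents `k` attached to `gamOne p b` is an algebraic
integer. -/
theorem isIntegral_sum_gamOne (hp : p.Prime) (b : ℕ) {g' : ℕ}
    (hcop : Nat.Coprime (p ^ (b + 1)) g') (hn : Nat.card G = p ^ (b + 1) * g')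
    [Fintype (gamOne p b)] (χ : IrrCharacter G) (g : G) :
    IsIntegral ℤ ((∑ u : gamOne p b,
      (χ : G → ℂ) (g ^ kexp hcop (u : (ZMod (p ^ (b + 1)))ˣ))) / (p : ℂ) ^ b) := by
  have hn0 : 0 < Nat.card G := Nat.card_pos
  haveI : NeZero (Nat.card G) := ⟨hn0.ne'⟩
  obtain ⟨ζ, hζ⟩ : ∃ ζ : ℂ, IsPrimitiveRoot ζ (Nat.card G) :=
    HasEnoughRootsOfUnity.exists_primitiveRoot ℂ (Nat.card G)
  obtain ⟨n, ρ, hρ, hχ⟩ := χ.2
  obtain ⟨f, -, -, hf⟩ :=
    Cfsg.Agent.H79.char_pow_eq_eval ρ g (Nat.card G) hn0 pow_card_eq_one' ζ hζ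
  obtain ⟨E, hE⟩ : ∃ E : ℕ, E = (Nat.chineseRemainder hcop 1 0 : ℕ) := ⟨_, rfl⟩
  obtain ⟨F, hF⟩ : ∃ F : ℕ, F = (Nat.chineseRemainder hcop 0 1 : ℕ) := ⟨_, rfl⟩
  have hE0 : g' ∣ E := by
    rw [hE]; exact (Nat.modEq_zero_iff_dvd).mp (Nat.chineseRemainder hcop 1 0).2.2
  have hp0 : (p : ℂ) ≠ 0 := by exact_mod_cast hp.ne_zero
  have hroot : ∀ ε : ℂ, ε ^ Nat.card G = 1 →
      ∑ u : gamOne p b, ε ^ kexp hcop (u : (ZMod (p ^ (b + 1)))ˣ)
        = (p : ℂ) ^ b * (ε ^ F * if (ε ^ E) ^ p = 1 then ε ^ E else 0) := by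
    intro ε hε
    have hα : (ε ^ E) ^ (p ^ (b + 1)) = 1 := by
      obtain ⟨E', hE'⟩ := hE0
      rw [hE', ← pow_mul, mul_comm g' E', mul_assoc, mul_comm g', ← hn, mul_comm, pow_mul, hε,
        one_pow]
    have hterm : ∀ u : gamOne p b, ε ^ kexp hcop (u : (ZMod (p ^ (b + 1)))ˣ)
        = ε ^ F * (ε ^ E) ^ ((u : (ZMod (p ^ (b + 1)))ˣ) : ZMod (p ^ (b + 1))).val := by
      intro u
      unfold kexp
      rw [← hE, ← hF, pow_add, mul_comm _ E, pow_mul, mul_comm]
    rw [Finset.sum_congr rfl (fun u _ => hterm u), ← Finset.mul_sum, sum_gamOne_pow b hp _ hα]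
    split_ifs <;> ring
  have hint : ∀ ε : ℂ, ε ^ Nat.card G = 1 →
      IsIntegral ℤ (ε ^ F * if (ε ^ E) ^ p = 1 then ε ^ E else 0) := by
    intro ε hε
    have hεi : IsIntegral ℤ ε := by
      apply IsIntegral.of_pow hn0
      rw [hε]; exact isIntegral_one
    apply IsIntegral.mul (hεi.pow F)
    split_ifs
    · exact hεi.pow E
    · exact isIntegral_zero
  have hζi : ∀ i : ℕ, (ζ ^ i) ^ Nat.card G = 1 := fun i => by
    rw [← pow_mul, mul_comm, pow_mul, hζ.pow_eq_one, one_pow]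
  have hsum : (∑ u : gamOne p b,
      (χ : G → ℂ) (g ^ kexp hcop (u : (ZMod (p ^ (b + 1)))ˣ))) / (p : ℂ) ^ b
      = ∑ i ∈ Finset.range (f.natDegree + 1), f.coeff i •
        ((ζ ^ i) ^ F * if ((ζ ^ i) ^ E) ^ p = 1 then (ζ ^ i) ^ E else 0) := by
    rw [← hχ]
    simp only [hf, Polynomial.aeval_eq_sum_range]
    rw [Finset.sum_comm, Finset.sum_div]
    apply Finset.sum_congr rfl
    intro i _
    rw [← Finset.smul_sum]
    have h1 : ∑ u : gamOne p b, (ζ ^ kexp hcop (u : (ZMod (p ^ (b + 1)))ˣ)) ^ i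
        = ∑ u : gamOne p b, (ζ ^ i) ^ kexp hcop (u : (ZMod (p ^ (b + 1)))ˣ) := by
      apply Finset.sum_congr rfl
      intro u _
      rw [← pow_mul, ← pow_mul, mul_comm]
    rw [h1, hroot (ζ ^ i) (hζi i), zsmul_eq_mul, zsmul_eq_mul]
    field_simp
  rw [hsum]
  apply IsIntegral.sum
  intro i _
  rw [zsmul_eq_mul]
  exact IsIntegral.mul isIntegral_algebraMap (hint (ζ ^ i) (hζi i))

end Integrality

section Central

variable {p : ℕ} {G : Type*} [Group G] [Fintype G]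

theorem isCF_finset_sum {ι : Type*} (s : Finset ι) (f : ι → MonoidAlgebra ℂ G)
    (h : ∀ i ∈ s, IsCF (f i)) : IsCF (∑ i ∈ s, f i) := by
  classical
  induction s using Finset.induction_on with
  | empty => rw [Finset.sum_empty]; exact isCF_zero
  | insert a s ha ih =>
    rw [Finset.sum_insert ha]
    exact isCF_add (h a (Finset.mem_insert_self a s))
      (ih (fun i hi => h i (Finset.mem_insert_of_mem hi)))

/-- The sum of the primitive central idempotents of the `gamOne`-conjugates of `χ` (with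
multiplicity). -/
noncomputable def pconjElt (b : ℕ) {g' : ℕ} (hcop : Nat.Coprime (p ^ (b + 1)) g')
    (hn : Nat.card G = p ^ (b + 1) * g') [Fintype (gamOne p b)] (χ : IrrCharacter G) :
    MonoidAlgebra ℂ G :=
  ∑ u : gamOne p b,
    blockElt ({pconj hcop hn (u : (ZMod (p ^ (b + 1)))ˣ) χ} : Set (IrrCharacter G))

theorem isCF_pconjElt (b : ℕ) {g' : ℕ} (hcop : Nat.Coprime (p ^ (b + 1)) g')
    (hn : Nat.card G = p ^ (b + 1) * g') [Fintype (gamOne p b)] (χ : IrrCharacter G) :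
    IsCF (pconjElt b hcop hn χ) :=
  isCF_finset_sum _ _ (fun _ _ => isCF_blockElt _)

theorem coeff_pconjElt (b : ℕ) {g' : ℕ} (hcop : Nat.Coprime (p ^ (b + 1)) g')
    (hn : Nat.card G = p ^ (b + 1) * g') [Fintype (gamOne p b)] (χ : IrrCharacter G) (g : G) :
    (pconjElt b hcop hn χ).coeff g = (Nat.card G : ℂ)⁻¹ * (χ : G → ℂ) 1 *
      conj (∑ u : gamOne p b, (χ : G → ℂ) (g ^ kexp hcop (u : (ZMod (p ^ (b + 1)))ˣ))) := by
  unfold pconjElt
  rw [MonoidAlgebra.coeff_sum, Finsupp.finsetSum_apply, map_sum, Finset.mul_sum]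
  apply Finset.sum_congr rfl
  intro u _
  rw [coeff_blockElt]
  unfold blockCoeff
  rw [finsum_mem_singleton, pconj_apply, pconj_apply, one_pow, mul_assoc]

open scoped Classical in
theorem omega_pconjElt (b : ℕ) {g' : ℕ} (hcop : Nat.Coprime (p ^ (b + 1)) g')
    (hn : Nat.card G = p ^ (b + 1) * g') [Fintype (gamOne p b)] (χ ψ : IrrCharacter G) :
    omega (ψ : G → ℂ) (pconjElt b hcop hn χ) = ∑ u : gamOne p b,
      if ψ ∈ ({pconj hcop hn (u : (ZMod (p ^ (b + 1)))ˣ) χ} : Set (IrrCharacter G))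
        then (1 : ℂ) else 0 := by
  unfold pconjElt
  rw [omega_sum]
  apply Finset.sum_congr rfl
  intro u _
  rw [omega_blockElt]
  by_cases h : ψ ∈ ({pconj hcop hn (u : (ZMod (p ^ (b + 1)))ˣ) χ} : Set (IrrCharacter G))
  · rw [if_pos h, if_pos h]
  · rw [if_neg h, if_neg h]

theorem omega_pconjElt_self (b : ℕ) {g' : ℕ} (hcop : Nat.Coprime (p ^ (b + 1)) g')
    (hn : Nat.card G = p ^ (b + 1) * g') [Fintype (gamOne p b)] (χ : IrrCharacter G) :
    omega (χ : G → ℂ) (pconjElt b hcop hn χ) =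
      (Nat.card {u : gamOne p b // pconj hcop hn (u : (ZMod (p ^ (b + 1)))ˣ) χ = χ} : ℂ) := by
  classical
  rw [omega_pconjElt, Finset.sum_boole, Nat.card_eq_fintype_card, Fintype.card_subtype]
  congr 2
  apply Finset.filter_congr
  intro u _
  rw [Set.mem_singleton_iff, eq_comm]

/-- `χ(1) * p ^ b` divides `|G|` times the order of the stabilizer of `χ` in `gamOne p b`. -/
theorem degree_mul_pow_dvd (hp : p.Prime) (b : ℕ) {g' : ℕ}
    (hcop : Nat.Coprime (p ^ (b + 1)) g') (hn : Nat.card G = p ^ (b + 1) * g')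
    (χ : IrrCharacter G) :
    charDegree (χ : G → ℂ) * p ^ b ∣ Nat.card G *
      Nat.card {u : gamOne p b // pconj hcop hn (u : (ZMod (p ^ (b + 1)))ˣ) χ = χ} := by
  classical
  haveI : NeZero (p ^ (b + 1)) := ⟨(pow_pos hp.pos _).ne'⟩
  haveI : Fintype (gamOne p b) := Fintype.ofFinite _
  obtain ⟨hd, hdpos⟩ := irr_charDegree χ
  obtain ⟨d, hddef⟩ : ∃ d, d = charDegree (χ : G → ℂ) := ⟨_, rfl⟩
  rw [← hddef] at hd hdpos ⊢
  obtain ⟨s₁, hs₁⟩ : ∃ s₁, s₁ =
      Nat.card {u : gamOne p b // pconj hcop hn (u : (ZMod (p ^ (b + 1)))ˣ) χ = χ} := ⟨_, rfl⟩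
  rw [← hs₁]
  have hd0 : (d : ℂ) ≠ 0 := by exact_mod_cast hdpos.ne'
  have hp0 : (p : ℂ) ≠ 0 := by exact_mod_cast hp.ne_zero
  have hn0 : (Nat.card G : ℂ) ≠ 0 := by exact_mod_cast (Nat.card_pos (α := G)).ne'
  apply nat_dvd_of_isIntegral_div (mul_ne_zero hdpos.ne' (pow_pos hp.pos b).ne')
  obtain ⟨c, hc⟩ : ∃ c : ℂ, c = (Nat.card G : ℂ) / ((d : ℂ) * (p : ℂ) ^ b) := ⟨_, rfl⟩
  have hz : IsCF (c • pconjElt b hcop hn χ) := isCF_smul c (isCF_pconjElt b hcop hn χ)
  have hcoef : ∀ g, (c • pconjElt b hcop hn χ).coeff g = conj ((∑ u : gamOne p b,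
      (χ : G → ℂ) (g ^ kexp hcop (u : (ZMod (p ^ (b + 1)))ˣ))) / (p : ℂ) ^ b) := by
    intro g
    rw [MonoidAlgebra.coeff_smul, Finsupp.smul_apply, smul_eq_mul, coeff_pconjElt, hc, hd,
      map_div₀, map_pow, Complex.conj_natCast]
    field_simp
  have hmem := omega_mem_of_coeff (χ : G → ℂ) (irr_isClassFunction χ)
    (AlgInt.toSubring.toAddSubgroup) hz (fun g => by
      rw [hcoef]
      exact IsIntegral.mul (map_isIntegral_int (starRingEnd ℂ)
        (isIntegral_sum_gamOne hp b hcop hn χ g)) (Cfsg.Agent.H20.centralChar_isIntegral χ g))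
  have hmem' : IsIntegral ℤ (omega (χ : G → ℂ) (c • pconjElt b hcop hn χ)) := hmem
  rw [omega_smul, omega_pconjElt_self, ← hs₁, hc] at hmem'
  convert hmem' using 1
  push_cast
  ring

/-- If `|G| * s₁ / (χ(1) * p ^ b)` is prime to `p`, every character in the block of `χ` is a
`gamOne`-conjugate of `χ`. -/
theorem exists_pconj_of_mem_blockOf {M : Ideal AlgInt} (hM : IsPModular p M) (b : ℕ) {g' : ℕ}
    (hcop : Nat.Coprime (p ^ (b + 1)) g') (hn : Nat.card G = p ^ (b + 1) * g')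
    (χ : IrrCharacter G) (w : ℕ) (hpw : ¬ p ∣ w)
    (hw : Nat.card G * Nat.card {u : gamOne p b //
      pconj hcop hn (u : (ZMod (p ^ (b + 1)))ˣ) χ = χ} = charDegree (χ : G → ℂ) * p ^ b * w)
    (ψ : IrrCharacter G) (hψ : ψ ∈ blockOf M (χ : G → ℂ)) :
    ∃ u : gamOne p b, ψ = pconj hcop hn (u : (ZMod (p ^ (b + 1)))ˣ) χ := by
  classical
  have hp : p.Prime := hM.1
  have hMp := isPrime_of_isPModular hM
  haveI : NeZero (p ^ (b + 1)) := ⟨(pow_pos hp.pos _).ne'⟩
  haveI : Fintype (gamOne p b) := Fintype.ofFinite _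
  obtain ⟨hd, hdpos⟩ := irr_charDegree χ
  obtain ⟨d, hddef⟩ : ∃ d, d = charDegree (χ : G → ℂ) := ⟨_, rfl⟩
  rw [← hddef] at hd hdpos hw
  obtain ⟨s₁, hs₁⟩ : ∃ s₁, s₁ =
      Nat.card {u : gamOne p b // pconj hcop hn (u : (ZMod (p ^ (b + 1)))ˣ) χ = χ} := ⟨_, rfl⟩
  rw [← hs₁] at hw
  have hd0 : (d : ℂ) ≠ 0 := by exact_mod_cast hdpos.ne'
  have hp0 : (p : ℂ) ≠ 0 := by exact_mod_cast hp.ne_zero
  have hn0 : (Nat.card G : ℂ) ≠ 0 := by exact_mod_cast (Nat.card_pos (α := G)).ne'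
  have hw0 : w ≠ 0 := by rintro rfl; exact hpw (dvd_zero p)
  have hw0' : (w : ℂ) ≠ 0 := by exact_mod_cast hw0
  have hs0 : s₁ ≠ 0 := by
    rintro rfl
    rw [mul_zero] at hw
    exact (mul_ne_zero (mul_ne_zero hdpos.ne' (pow_pos hp.pos b).ne') hw0) hw.symm
  have hs0' : (s₁ : ℂ) ≠ 0 := by exact_mod_cast hs0
  have hw' : (Nat.card G : ℂ) * (s₁ : ℂ) = (d : ℂ) * (p : ℂ) ^ b * (w : ℂ) := by exact_mod_cast hw
  obtain ⟨z, hz⟩ : ∃ z, z = ((s₁ : ℂ))⁻¹ • pconjElt b hcop hn χ := ⟨_, rfl⟩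
  have hzmem : z ∈ cfSubring G (localRing M hMp) := by
    rw [mem_cfSubring]
    refine ⟨hz ▸ isCF_smul _ (isCF_pconjElt b hcop hn χ), fun g => ?_⟩
    have h1 : z.coeff g = conj ((∑ u : gamOne p b,
        (χ : G → ℂ) (g ^ kexp hcop (u : (ZMod (p ^ (b + 1)))ˣ))) / (p : ℂ) ^ b)
        * ((w : ℂ))⁻¹ := by
      rw [hz, MonoidAlgebra.coeff_smul, Finsupp.smul_apply, smul_eq_mul, coeff_pconjElt, hd,
        map_div₀, map_pow, Complex.conj_natCast]
      field_simp
      rw [mul_comm (s₁ : ℂ), hw']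
      ring
    rw [h1]
    exact memLocalRing_mul hMp (memLocalRing_algInt hMp ⟨_, map_isIntegral_int (starRingEnd ℂ)
      (isIntegral_sum_gamOne hp b hcop hn χ g)⟩) (memLocalRing_inv_natCast hM hpw)
  have h1 := omega_sub_omega_memLocalIdeal hMp (χ : G → ℂ) (ψ : G → ℂ) (irr_isClassFunction χ)
    (irr_isClassFunction ψ) hψ hzmem
  rw [hz, omega_smul, omega_smul, omega_pconjElt_self, ← hs₁, inv_mul_cancel₀ hs0',
    omega_pconjElt] at h1
  by_contra hcon
  push Not at hcon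
  have h0 : ∑ u : gamOne p b,
      (if ψ ∈ ({pconj hcop hn (u : (ZMod (p ^ (b + 1)))ˣ) χ} : Set (IrrCharacter G))
        then (1 : ℂ) else 0) = 0 := by
    apply Finset.sum_eq_zero
    intro u _
    rw [if_neg]
    exact hcon u
  rw [h0, mul_zero, sub_zero] at h1
  exact not_memLocalIdeal_one hMp h1

/-- If every character in the block of `χ` is a `gamOne`-conjugate of `χ`, then `χ` has
defect zero. -/
theorem pow_succ_dvd_degree_of_block_subset {M : Ideal AlgInt} (hM : IsPModular p M) (b : ℕ)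
    {g' : ℕ} (hcop : Nat.Coprime (p ^ (b + 1)) g') (hn : Nat.card G = p ^ (b + 1) * g')
    (χ : IrrCharacter G)
    (hB : ∀ ψ ∈ blockOf M (χ : G → ℂ),
      ∃ u : gamOne p b, ψ = pconj hcop hn (u : (ZMod (p ^ (b + 1)))ˣ) χ) :
    p ^ (b + 1) ∣ charDegree (χ : G → ℂ) := by
  classical
  have hp : p.Prime := hM.1
  haveI : Fact p.Prime := ⟨hp⟩
  have hMp := isPrime_of_isPModular hM
  letI := fintypeIrr G
  haveI : NeZero (p ^ (b + 1)) := ⟨(pow_pos hp.pos _).ne'⟩
  obtain ⟨hd, hdpos⟩ := irr_charDegree χ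
  have hpg : p.Coprime g' :=
    Nat.Coprime.coprime_dvd_left (dvd_pow_self p (Nat.succ_ne_zero b)) hcop
  -- all members of the block agree with `χ` on elements of order dividing `p * g'`
  have hval : ∀ ψ ∈ blockOf M (χ : G → ℂ), ∀ h : G, h ^ (p * g') = 1 →
      (ψ : G → ℂ) h = (χ : G → ℂ) h := by
    intro ψ hψ h hh
    obtain ⟨u, rfl⟩ := hB ψ hψ
    rw [pconj_apply]
    have hk : kexp hcop (u : (ZMod (p ^ (b + 1)))ˣ) ≡ 1 [MOD p * g'] := by
      apply (Nat.modEq_and_modEq_iff_modEq_mul hpg).mp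
      refine ⟨?_, kexp_modEq_right hcop _⟩
      exact ((kexp_modEq_left hcop _).of_dvd (dvd_pow_self p (Nat.succ_ne_zero b))).trans
        ((mem_gamOne_iff b hp u.1).mp u.2)
    have := pow_eq_pow_of_modEq_of_pow_eq_one hh hk
    rw [this, pow_one]
  have hdeg : ∀ ψ ∈ blockOf M (χ : G → ℂ),
      charDegree (ψ : G → ℂ) = charDegree (χ : G → ℂ) := by
    intro ψ hψ
    unfold charDegree
    rw [hval ψ hψ 1 (one_pow _)]
  obtain ⟨y, hy⟩ := Cfsg.Agent.S0906.result p M hM (blockOf M (χ : G → ℂ)) ⟨χ, rfl⟩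
  have hsInf := sInf_factorization_eq_of_isDefectClass hM χ y hy
  have himg : (fun χ' : IrrCharacter G => (charDegree (χ' : G → ℂ)).factorization p) ''
      blockOf M (χ : G → ℂ) = {(charDegree (χ : G → ℂ)).factorization p} := by
    ext k
    constructor
    · rintro ⟨ψ, hψ, rfl⟩
      rw [Set.mem_singleton_iff]
      show (charDegree (ψ : G → ℂ)).factorization p = _
      rw [hdeg ψ hψ]
    · intro hk
      rw [Set.mem_singleton_iff] at hk
      exact ⟨χ, Cfsg.Agent.H80.mem_blockOf_self hMp χ, hk.symm⟩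
  rw [himg, csInf_singleton] at hsInf
  by_contra hnot
  have hlt : (charDegree (χ : G → ℂ)).factorization p < b + 1 := by
    by_contra hge
    push Not at hge
    exact hnot ((hp.pow_dvd_iff_le_factorization hdpos.ne').mpr hge)
  have hcardC := Subgroup.card_mul_index (Subgroup.centralizer ({y} : Set G))
  have hpC : p ∣ Nat.card (Subgroup.centralizer ({y} : Set G)) := by
    by_contra hndvd
    have h1 : (p ^ (b + 1)).Coprime (Nat.card (Subgroup.centralizer ({y} : Set G))) :=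
      Nat.Coprime.pow_left _ ((Nat.Prime.coprime_iff_not_dvd hp).mpr hndvd)
    have h2 : p ^ (b + 1) ∣ Nat.card (Subgroup.centralizer ({y} : Set G)) *
        (Subgroup.centralizer ({y} : Set G)).index := by
      rw [hcardC, hn]; exact dvd_mul_right _ _
    have h3 := h1.dvd_of_dvd_mul_left h2
    have h4 := (hp.pow_dvd_iff_le_factorization Subgroup.index_ne_zero_of_finite).mp h3
    omega
  obtain ⟨x, hx⟩ := exists_prime_orderOf_dvd_card'
    (G := Subgroup.centralizer ({y} : Set G)) p hpC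
  have hxy : Commute (x : G) y := by
    have := x.2
    rw [Subgroup.mem_centralizer_singleton_iff] at this
    exact this
  have hxo : orderOf (x : G) = p := by rw [Subgroup.orderOf_coe]; exact hx
  have hyreg : ¬ p ∣ orderOf y := not_dvd_orderOf_of_isDefectClass hM χ y hy
  have hcopo : (orderOf (x : G)).Coprime (orderOf y) := by
    rw [hxo]; exact (Nat.Prime.coprime_iff_not_dvd hp).mpr hyreg
  have hxyo : p ∣ orderOf ((x : G) * y) := by
    rw [hxy.orderOf_mul_eq_mul_orderOf_of_coprime hcopo, hxo]; exact dvd_mul_right _ _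
  have hwbo := wbo_one hM χ 1 ((x : G) * y) (by rw [orderOf_one]; exact hp.not_dvd_one) hxyo
  have hyg : y ^ g' = 1 := by
    apply orderOf_dvd_iff_pow_eq_one.mp
    have h1 : orderOf y ∣ p ^ (b + 1) * g' := hn ▸ orderOf_dvd_natCard y
    have h2 : (orderOf y).Coprime (p ^ (b + 1)) :=
      Nat.Coprime.pow_right _ ((Nat.Prime.coprime_iff_not_dvd hp).mpr hyreg).symm
    exact h2.dvd_of_dvd_mul_left h1
  have hxyp : ((x : G) * y) ^ (p * g') = 1 := by
    rw [hxy.mul_pow, pow_mul, ← hxo, pow_orderOf_eq_one, one_pow, one_mul, mul_comm, pow_mul,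
      hyg, one_pow]
  rw [finsum_mem_irr] at hwbo
  have hterm : ∀ ψ : IrrCharacter G,
      (if ψ ∈ blockOf M (χ : G → ℂ) then (ψ : G → ℂ) 1 * conj ((ψ : G → ℂ) ((x : G) * y))
        else 0) = if ψ ∈ blockOf M (χ : G → ℂ) then
          (χ : G → ℂ) 1 * conj ((χ : G → ℂ) ((x : G) * y)) else 0 := by
    intro ψ
    split_ifs with h
    · rw [hval ψ h 1 (one_pow _), hval ψ h _ hxyp]
    · rfl
  rw [Finset.sum_congr rfl (fun ψ _ => hterm ψ), ← Finset.sum_filter, Finset.sum_const,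
    nsmul_eq_mul] at hwbo
  have hcard : ((Finset.univ.filter
      (fun ψ : IrrCharacter G => ψ ∈ blockOf M (χ : G → ℂ))).card : ℂ) ≠ 0 := by
    rw [Nat.cast_ne_zero]
    exact Finset.card_ne_zero.mpr ⟨χ, Finset.mem_filter.mpr
      ⟨Finset.mem_univ _, Cfsg.Agent.H80.mem_blockOf_self hMp χ⟩⟩
  have hχxy : (χ : G → ℂ) ((x : G) * y) = 0 := by
    rcases mul_eq_zero.mp hwbo with h | h
    · exact absurd h hcard
    · rcases mul_eq_zero.mp h with h | h
      · exact absurd h (Cfsg.Agent.H81.irr_one_ne_zero χ)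
      · exact (map_eq_zero (starRingEnd ℂ)).mp h
  have hloc := Cfsg.Agent.H79.char_mul_sub_memLocalIdeal hM
    (isCharacter_of_isIrrCharacter χ.2) (x : G) y hxy 1
    (by rw [pow_one, ← hxo]; exact pow_orderOf_eq_one _)
  rw [hχxy, zero_sub] at hloc
  have hχy : MemLocalIdeal M ((χ : G → ℂ) y) := by
    have := memLocalIdeal_neg hloc
    rwa [neg_neg] at this
  exact hy.2.2 χ (Cfsg.Agent.H80.mem_blockOf_self hMp χ)
    ((centralChar_memLocalIdeal_iff_of_factorization_eq hM χ y hsInf.symm).mpr hχy)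

end Central

section Main

variable {p : ℕ} {G : Type*} [Group G] [Finite G]

/-- The stabilizer of `χ` in `(ZMod q)ˣ`. -/
noncomputable def pconjStab {q g' : ℕ} (hcop : Nat.Coprime q g') (hn : Nat.card G = q * g')
    (χ : IrrCharacter G) : Subgroup (ZMod q)ˣ :=
  @MulAction.stabilizer _ _ _ (pconjAction hcop hn) χ

theorem mem_pconjStab {q g' : ℕ} (hcop : Nat.Coprime q g') (hn : Nat.card G = q * g')
    (χ : IrrCharacter G) (u : (ZMod q)ˣ) :
    u ∈ pconjStab hcop hn χ ↔ pconj hcop hn u χ = χ := Iff.rfl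

theorem card_pconj_orbit_mul {q g' : ℕ} (hcop : Nat.Coprime q g') (hn : Nat.card G = q * g')
    (χ : IrrCharacter G) :
    Nat.card {ψ : IrrCharacter G // ∃ u : (ZMod q)ˣ, ψ = pconj hcop hn u χ} *
      Nat.card (pconjStab hcop hn χ) = Nat.card (ZMod q)ˣ := by
  letI := pconjAction (G := G) hcop hn
  have h1 : Nat.card {ψ : IrrCharacter G // ∃ u : (ZMod q)ˣ, ψ = pconj hcop hn u χ} =
      Nat.card (MulAction.orbit (ZMod q)ˣ χ) := by
    apply Nat.card_congr
    exact Equiv.subtypeEquivRight (fun ψ => by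
      rw [MulAction.mem_orbit_iff]
      constructor
      · rintro ⟨u, hu⟩; exact ⟨u, hu.symm⟩
      · rintro ⟨u, hu⟩; exact ⟨u, hu.symm⟩)
  have h2 := Nat.card_congr (MulAction.orbitEquivQuotientStabilizer (ZMod q)ˣ χ)
  have h3 := Subgroup.card_eq_card_quotient_mul_card_subgroup (MulAction.stabilizer (ZMod q)ˣ χ)
  rw [h1, h2]
  exact h3.symm

/-- The number of `p`-conjugates of `χ` times `χ(1)` has `p`-part at most `|G|_p`, with
equality only for characters of defect zero: the case `|G|_p = p ^ (b + 1)`. -/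
theorem pconj_main (hp : p.Prime) (b : ℕ) {g' : ℕ}
    (hcop : Nat.Coprime (p ^ (b + 1)) g') (hn : Nat.card G = p ^ (b + 1) * g')
    (χ : IrrCharacter G) (r : ℕ)
    (hr : Nat.card {ψ : IrrCharacter G // ∃ σ : ℂ ≃+* ℂ,
      σ (Complex.exp (2 * Real.pi * Complex.I / (g' : ℕ))) =
        Complex.exp (2 * Real.pi * Complex.I / (g' : ℕ)) ∧
      (ψ : G → ℂ) = fun g => σ ((χ : G → ℂ) g)} = r) :
    (r * charDegree (χ : G → ℂ)).factorization p ≤ b + 1 ∧
      (p ^ (b + 1) ∣ r * charDegree (χ : G → ℂ) → p ^ (b + 1) ∣ charDegree (χ : G → ℂ)) := by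
  classical
  haveI : Fintype G := Fintype.ofFinite G
  haveI : NeZero (p ^ (b + 1)) := ⟨(pow_pos hp.pos _).ne'⟩
  obtain ⟨M, hM⟩ := exists_isPModular hp
  obtain ⟨hd, hdpos⟩ := irr_charDegree χ
  have hg0 : g' ≠ 0 := by
    rintro rfl
    rw [mul_zero] at hn
    exact (Nat.card_pos (α := G)).ne' hn
  have hpg : ¬ p ∣ g' := (Nat.Prime.coprime_iff_not_dvd hp).mp
    (Nat.Coprime.coprime_dvd_left (dvd_pow_self p (Nat.succ_ne_zero b)) hcop)
  have hr' : Nat.card {ψ : IrrCharacter G //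
      ∃ u : (ZMod (p ^ (b + 1)))ˣ, ψ = pconj hcop hn u χ} = r := by
    rw [← hr]
    exact Nat.card_congr (Equiv.subtypeEquivRight
      (fun ψ => (exists_sigma_iff hcop hn χ ψ).symm))
  have hF1 := card_pconj_orbit_mul hcop hn χ
  rw [hr', Nat.card_eq_fintype_card (α := (ZMod (p ^ (b + 1)))ˣ), ZMod.card_units_eq_totient,
    Nat.totient_prime_pow_succ hp] at hF1
  obtain ⟨s, hs⟩ : ∃ s, s = Nat.card (pconjStab hcop hn χ) := ⟨_, rfl⟩
  rw [← hs] at hF1
  obtain ⟨s₁, hs₁⟩ : ∃ s₁, s₁ =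
      Nat.card {u : gamOne p b // pconj hcop hn (u : (ZMod (p ^ (b + 1)))ˣ) χ = χ} := ⟨_, rfl⟩
  have hs₁eq : s₁ =
      Nat.card (pconjStab hcop hn χ ⊓ gamOne p b : Subgroup (ZMod (p ^ (b + 1)))ˣ) := by
    rw [hs₁]
    apply Nat.card_congr
    exact
      { toFun := fun u => ⟨u.1.1, ⟨u.2, u.1.2⟩⟩
        invFun := fun v => ⟨⟨v.1, v.2.2⟩, v.2.1⟩
        left_inv := fun u => rfl
        right_inv := fun v => rfl }
  have hs₁s : s₁ ∣ s := by rw [hs₁eq, hs]; exact Subgroup.card_dvd_of_le inf_le_left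
  have hs₁p : s₁ ∣ p ^ b := by
    rw [hs₁eq, ← card_gamOne b hp]; exact Subgroup.card_dvd_of_le inf_le_right
  obtain ⟨c1, hc1b, hc1⟩ := (Nat.dvd_prime_pow hp).mp hs₁p
  have hF3 : charDegree (χ : G → ℂ) * p ^ b ∣ Nat.card G * s₁ := by
    rw [hs₁]; exact degree_mul_pow_dvd hp b hcop hn χ
  obtain ⟨d, hddef⟩ : ∃ d, d = charDegree (χ : G → ℂ) := ⟨_, rfl⟩
  rw [← hddef] at hdpos hF3 ⊢
  obtain ⟨w, hw⟩ := hF3
  have hppos : 0 < p ^ b * (p - 1) := mul_pos (pow_pos hp.pos b) (Nat.sub_pos_of_lt hp.one_lt)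
  have hr0 : r ≠ 0 := by rintro rfl; rw [zero_mul] at hF1; exact hppos.ne' hF1.symm
  have hs0 : s ≠ 0 := by rintro rfl; rw [mul_zero] at hF1; exact hppos.ne' hF1.symm
  have hw0 : w ≠ 0 := by
    rintro rfl
    rw [mul_zero, hc1, hn] at hw
    exact (mul_ne_zero (mul_ne_zero (pow_pos hp.pos _).ne' hg0) (pow_pos hp.pos _).ne') hw
  have hv_pow : ∀ k : ℕ, (p ^ k).factorization p = k := fun k => by
    rw [hp.factorization_pow, Finsupp.single_eq_same]
  have hv_mul : ∀ a c : ℕ, a ≠ 0 → c ≠ 0 →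
      (a * c).factorization p = a.factorization p + c.factorization p := fun a c ha hc => by
    rw [Nat.factorization_mul ha hc, Finsupp.add_apply]
  have hvg : g'.factorization p = 0 := Nat.factorization_eq_zero_of_not_dvd hpg
  have hvp1 : (p - 1).factorization p = 0 := Nat.factorization_eq_zero_of_not_dvd (fun h => by
    have h1 := Nat.le_of_dvd (Nat.sub_pos_of_lt hp.one_lt) h
    have h2 := hp.one_lt
    omega)
  have e1 : (Nat.card G * s₁).factorization p = b + 1 + c1 := by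
    rw [hn, hc1, hv_mul _ _ (mul_ne_zero (pow_pos hp.pos _).ne' hg0) (pow_pos hp.pos _).ne',
      hv_mul _ _ (pow_pos hp.pos _).ne' hg0, hv_pow, hv_pow, hvg, add_zero]
  have e2 : (d * p ^ b * w).factorization p = d.factorization p + b + w.factorization p := by
    rw [hv_mul _ _ (mul_ne_zero hdpos.ne' (pow_pos hp.pos _).ne') hw0,
      hv_mul _ _ hdpos.ne' (pow_pos hp.pos _).ne', hv_pow]
  rw [hw, e2] at e1
  have e3 : r.factorization p + s.factorization p = b := by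
    rw [← hv_mul _ _ hr0 hs0, hF1,
      hv_mul _ _ (pow_pos hp.pos _).ne' (Nat.sub_pos_of_lt hp.one_lt).ne', hv_pow, hvp1, add_zero]
  have e4 : c1 ≤ s.factorization p := by
    rw [← hp.pow_dvd_iff_le_factorization hs0, ← hc1]; exact hs₁s
  have e5 : (r * d).factorization p = r.factorization p + d.factorization p :=
    hv_mul _ _ hr0 hdpos.ne'
  refine ⟨by rw [e5]; omega, fun hdvd => ?_⟩
  have e6 := (hp.pow_dvd_iff_le_factorization (mul_ne_zero hr0 hdpos.ne')).mp hdvd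
  rw [e5] at e6
  have e7 : w.factorization p = 0 := by omega
  have hpw : ¬ p ∣ w := by
    intro h
    have h1 := (hp.pow_dvd_iff_le_factorization hw0 (k := 1)).mp (by rwa [pow_one])
    omega
  rw [hddef]
  apply pow_succ_dvd_degree_of_block_subset hM b hcop hn χ
  intro ψ hψ
  exact exists_pconj_of_mem_blockOf hM b hcop hn χ w hpw (by rw [← hs₁, ← hddef]; exact hw) ψ hψ

/-- A character has no other conjugate under the automorphisms fixing the `|G|`-th roots of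
unity. -/
theorem card_conj_eq_one (χ : IrrCharacter G) :
    Nat.card {ψ : IrrCharacter G // ∃ σ : ℂ ≃+* ℂ,
      σ (Complex.exp (2 * Real.pi * Complex.I / (Nat.card G : ℕ))) =
        Complex.exp (2 * Real.pi * Complex.I / (Nat.card G : ℕ)) ∧
      (ψ : G → ℂ) = fun g => σ ((χ : G → ℂ) g)} = 1 := by
  have hn0 : 0 < Nat.card G := Nat.card_pos
  haveI : NeZero (Nat.card G) := ⟨hn0.ne'⟩
  have hζ := Complex.isPrimitiveRoot_exp (Nat.card G) hn0.ne'
  obtain ⟨n, ρ, hρ, hχ⟩ := χ.2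
  have key : ∀ σ : ℂ ≃+* ℂ,
      σ (Complex.exp (2 * Real.pi * Complex.I / (Nat.card G : ℕ))) =
        Complex.exp (2 * Real.pi * Complex.I / (Nat.card G : ℕ)) →
      ∀ g, σ ((χ : G → ℂ) g) = (χ : G → ℂ) g := by
    intro σ hσ g
    have hσε : ∀ ε : ℂ, ε ^ Nat.card G = 1 → (σ : ℂ →+* ℂ) ε = ε ^ 1 := by
      intro ε hε
      obtain ⟨j, -, rfl⟩ := hζ.eq_pow_of_pow_eq_one hε
      rw [RingEquiv.coe_toRingHom, map_pow, hσ, pow_one]
    have h2 := Cfsg.Agent.H79.ringHom_character_eq_pow ρ (Nat.card G) 1 hn0 (σ : ℂ →+* ℂ) hσε g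
      pow_card_eq_one'
    rw [RingEquiv.coe_toRingHom, pow_one, hχ] at h2
    exact h2
  rw [Nat.card_eq_one_iff_unique]
  constructor
  · constructor
    rintro ⟨ψ₁, σ₁, h₁, e₁⟩ ⟨ψ₂, σ₂, h₂, e₂⟩
    apply Subtype.ext
    apply Subtype.ext
    show (ψ₁ : G → ℂ) = (ψ₂ : G → ℂ)
    rw [e₁, e₂]
    funext g
    rw [key σ₁ h₁, key σ₂ h₂]
  · exact ⟨⟨χ, RingEquiv.refl ℂ, rfl, rfl⟩⟩

end Main

end Cfsg.Agent.H81
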