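import Mathlib
import Cfsg.Prelude.Def_Blocks
import Cfsg.Agent.H81.Global

set_option autoImplicit false
set_option linter.style.haveILetI false
set_option linter.unusedSectionVars false

/-!
# helper81: groups without elements of order `p q` and intersections of blocks
-/

namespace Cfsg.Agent.H81

open Cfsg Cfsg.Agent.H20
open scoped ComplexConjugate

universe u

variable {G : Type u} [Group G]

/-- In a group without elements of order `p q`, the class of a `p`-singular element has size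
divisible by the full power of `q`. -/
theorem pow_dvd_card_orbit_conj [Finite G] {p q : ℕ} (hp : p.Prime) (hq : q.Prime) (hpq : p ≠ q)
    (hno : ∀ g : G, orderOf g ≠ p * q) (g : G) (hg : p ∣ orderOf g) :
    q ^ (Nat.card G).factorization q ∣ Nat.card (MulAction.orbit (ConjAct G) g) := by
  classical
  haveI : Fintype G := Fintype.ofFinite G
  haveI : Fintype (ConjAct G) := Fintype.ofFinite _
  haveI : Fintype (MulAction.orbit (ConjAct G) g) := Fintype.ofFinite _
  haveI : Fintype (MulAction.stabilizer (ConjAct G) g) := Fintype.ofFinite _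
  have h1 := MulAction.card_orbit_mul_card_stabilizer_eq_card_group (ConjAct G) g
  have hcard : Fintype.card (ConjAct G) = Nat.card G := by
    rw [← Nat.card_eq_fintype_card]; rfl
  rw [hcard] at h1
  have hnd : ¬ q ∣ Fintype.card (MulAction.stabilizer (ConjAct G) g) := by
    intro hdvd
    haveI : Fact q.Prime := ⟨hq⟩
    obtain ⟨x, hx⟩ := exists_prime_orderOf_dvd_card q hdvd
    obtain ⟨c, hc⟩ : ∃ c : G, c = ConjAct.ofConjAct (x : ConjAct G) := ⟨_, rfl⟩
    have hcg : c * g * c⁻¹ = g := by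
      have := x.2
      rw [MulAction.mem_stabilizer_iff, ConjAct.smul_def] at this
      rw [hc]; exact this
    have hcomm : Commute c g := by
      have : c * g = g * c := by
        calc c * g = c * g * c⁻¹ * c := by group
          _ = g * c := by rw [hcg]
      exact this
    have hoc : orderOf c = q := by
      rw [hc, ← hx]
      have h2 : orderOf (x : ConjAct G) = orderOf x := Subgroup.orderOf_coe x
      rw [← h2]
      exact MulEquiv.orderOf_eq (ConjAct.ofConjAct (G := G)) _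
    have hog : orderOf g ≠ 0 := (orderOf_pos g).ne'
    obtain ⟨u, hu⟩ : ∃ u : G, u = g ^ (orderOf g / p) := ⟨_, rfl⟩
    have hou : orderOf u = p := by
      rw [hu]; exact orderOf_pow_orderOf_div hog hg
    have hcu : Commute u c := by
      rw [hu]; exact (hcomm.pow_right _).symm
    have hcop : (orderOf u).Coprime (orderOf c) := by
      rw [hou, hoc]; exact (Nat.coprime_primes hp hq).mpr hpq
    have := hcu.orderOf_mul_eq_mul_orderOf_of_coprime hcop
    rw [hou, hoc] at this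
    exact hno _ this
  have hcop : Nat.Coprime (q ^ (Nat.card G).factorization q)
      (Fintype.card (MulAction.stabilizer (ConjAct G) g)) :=
    Nat.Coprime.pow_left _ ((Nat.Prime.coprime_iff_not_dvd hq).mpr hnd)
  have h2 : q ^ (Nat.card G).factorization q ∣ Fintype.card (MulAction.orbit (ConjAct G) g) *
      Fintype.card (MulAction.stabilizer (ConjAct G) g) := by
    rw [h1]; exact Nat.ordProj_dvd _ _
  have h3 := hcop.dvd_of_dvd_mul_right h2
  rwa [← Nat.card_eq_fintype_card] at h3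

/-- Summing a class function supported on `p`-singular elements, with values divisible by `q ^ b`,
over a group without elements of order `p q`. -/
theorem sum_classFunction_noPQ [Fintype G] {p q : ℕ} (hp : p.Prime) (hq : q.Prime) (hpq : p ≠ q)
    (hno : ∀ g : G, orderOf g ≠ p * q) (F : G → ℂ) (hF : ∀ g x : G, F (x * g * x⁻¹) = F g)
    (hint : ∀ g, ∃ ω : ℂ, IsIntegral ℤ ω ∧
      F g = ((q ^ (Nat.card G).factorization q : ℕ) : ℂ) * ω)
    (hsupp : ∀ g, F g ≠ 0 → p ∣ orderOf g) :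
    ∃ ω : ℂ, IsIntegral ℤ ω ∧ ∑ g : G, F g =
      ((q ^ (Nat.card G).factorization q : ℕ) : ℂ) *
        (((q ^ (Nat.card G).factorization q : ℕ) : ℂ) * ω) := by
  let A : AddSubgroup ℂ :=
    { carrier := {z | ∃ ω : ℂ, IsIntegral ℤ ω ∧
        z = ((q ^ (Nat.card G).factorization q : ℕ) : ℂ) * ω}
      add_mem' := by
        rintro _ _ ⟨a, ha, rfl⟩ ⟨b, hb, rfl⟩
        exact ⟨a + b, ha.add hb, by ring⟩
      zero_mem' := ⟨0, isIntegral_zero, by ring⟩
      neg_mem' := by
        rintro _ ⟨a, ha, rfl⟩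
        exact ⟨-a, ha.neg, by ring⟩ }
  obtain ⟨r, hr, hr'⟩ := sum_eq_nsmul_of_orbit (H := ConjAct G) A F hint
    (fun h g => by rw [ConjAct.smul_def]; exact hF g _)
    (q ^ (Nat.card G).factorization q)
    (fun g hg => pow_dvd_card_orbit_conj hp hq hpq hno g (hsupp g hg))
  obtain ⟨ω, hω, rfl⟩ := hr
  exact ⟨ω, hω, by rw [hr', nsmul_eq_mul]⟩

/-- In a group without elements of order `p q`, the sum of `χ 1 * χ y` over the intersection of
a `p`-block and a `q`-block, at a `p`-singular `y`, is divisible by the `q`-part of the group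
order. -/
theorem sum_inter_blocks [Finite G] {p q : ℕ} [Fact p.Prime] [Fact q.Prime] (hpq : p ≠ q)
    {Mp Mq : Ideal AlgInt} (hMp : IsPModular p Mp) (hMq : IsPModular q Mq)
    (hno : ∀ g : G, orderOf g ≠ p * q) (χp χq : IrrCharacter G) (y : G) (hy : p ∣ orderOf y) :
    ∃ ω : ℂ, IsIntegral ℤ ω ∧
      ∑ᶠ χ ∈ blockOf Mp (χp : G → ℂ) ∩ blockOf Mq (χq : G → ℂ),
        (χ : G → ℂ) 1 * (χ : G → ℂ) y =
        ((q ^ (Nat.card G).factorization q : ℕ) : ℂ) * ω := by
  classical
  haveI : Fintype G := Fintype.ofFinite G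
  letI := Cfsg.Agent.H4.fintypeIrr G
  have hp : p.Prime := Fact.out
  have hq : q.Prime := Fact.out
  obtain ⟨Q, hQ⟩ : ∃ Q : ℕ, Q = q ^ (Nat.card G).factorization q := ⟨_, rfl⟩
  obtain ⟨n', hn'⟩ : ∃ n' : ℕ, n' = Nat.card G / q ^ (Nat.card G).factorization q := ⟨_, rfl⟩
  have hcard : (Nat.card G : ℂ) = (Q : ℂ) * (n' : ℂ) := by
    rw [hQ, hn', ← Nat.cast_mul, Nat.ordProj_mul_ordCompl_eq_self]
  have hQ0 : (Q : ℂ) ≠ 0 := by
    rw [hQ]; exact_mod_cast (pow_pos hq.pos _).ne'
  have hG : (Nat.card G : ℂ) ≠ 0 := by exact_mod_cast (Nat.card_pos (α := G)).ne'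
  have hn0 : (n' : ℂ) ≠ 0 := by
    intro h
    rw [h, mul_zero] at hcard
    exact hG hcard
  obtain ⟨θ, hθ⟩ : ∃ θ : G → ℂ, θ = fun g => ∑ χ : IrrCharacter G,
      if χ ∈ blockOf Mq (χq : G → ℂ) then (χ : G → ℂ) 1 * (χ : G → ℂ) g else 0 := ⟨_, rfl⟩
  obtain ⟨Φ, hΦ⟩ : ∃ Φ : G → ℂ, Φ = fun g => ∑ χ : IrrCharacter G,
      if χ ∈ blockOf Mp (χp : G → ℂ) then (χ : G → ℂ) y * conj ((χ : G → ℂ) g) else 0 := ⟨_, rfl⟩
  obtain ⟨T, hT⟩ : ∃ T : ℂ, T = ∑ χ : IrrCharacter G,
      if χ ∈ blockOf Mp (χp : G → ℂ) ∩ blockOf Mq (χq : G → ℂ) then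
        (χ : G → ℂ) 1 * (χ : G → ℂ) y else 0 := ⟨_, rfl⟩
  have hfin : ∑ᶠ χ ∈ blockOf Mp (χp : G → ℂ) ∩ blockOf Mq (χq : G → ℂ),
      (χ : G → ℂ) 1 * (χ : G → ℂ) y = T := by
    rw [finsum_mem_irr, hT]
    exact Finset.sum_congr rfl (fun χ _ => by congr)
  rw [hfin, ← hQ]
  -- θ is divisible by Q
  have hθint : ∀ g, ∃ ω : ℂ, IsIntegral ℤ ω ∧ θ g = (Q : ℂ) * ω := by
    intro g
    refine ⟨_, blockCoeff_global hMq χq g⁻¹, ?_⟩
    rw [blockCoeff_eq, ← hn', hθ]
    simp only
    have e : ∀ χ : IrrCharacter G, (if χ ∈ blockOf Mq (χq : G → ℂ) then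
        (χ : G → ℂ) 1 * conj ((χ : G → ℂ) g⁻¹) else 0) =
        (if χ ∈ blockOf Mq (χq : G → ℂ) then (χ : G → ℂ) 1 * (χ : G → ℂ) g else 0) := by
      intro χ
      rw [irr_inv χ g, Complex.conj_conj]
    rw [Finset.sum_congr rfl (fun χ _ => e χ), hcard]
    field_simp
  have hΦint : ∀ g, IsIntegral ℤ (Φ g) := by
    intro g
    rw [hΦ]
    apply IsIntegral.sum
    intro χ _
    split_ifs
    · rw [← irr_inv]
      exact (irr_isIntegral χ y).mul (irr_isIntegral χ g⁻¹)
    · exact isIntegral_zero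
  have hΦsupp : ∀ g, Φ g ≠ 0 → p ∣ orderOf g := by
    intro g hg
    by_contra hreg
    apply hg
    rw [hΦ]
    exact wbo_sum hMp χp y g (fun h => hreg (h.mp hy))
  have hθconj : ∀ g x : G, θ (x * g * x⁻¹) = θ g := by
    intro g x
    rw [hθ]
    simp only [irr_conj]
  have hΦconj : ∀ g x : G, Φ (x * g * x⁻¹) = Φ g := by
    intro g x
    rw [hΦ]
    simp only [irr_conj]
  -- the sum of θ Φ
  have hsum : ∑ g : G, θ g * Φ g = (Nat.card G : ℂ) * T := by
    rw [hθ, hΦ, hT]
    simp only [Finset.sum_mul_sum]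
    rw [Finset.sum_comm, Finset.mul_sum]
    apply Finset.sum_congr rfl
    intro χ _
    rw [Finset.sum_comm]
    have h1 : ∀ ψ : IrrCharacter G, ∑ g : G,
        (if χ ∈ blockOf Mq (χq : G → ℂ) then (χ : G → ℂ) 1 * (χ : G → ℂ) g else 0) *
        (if ψ ∈ blockOf Mp (χp : G → ℂ) then (ψ : G → ℂ) y * conj ((ψ : G → ℂ) g) else 0) =
        if χ = ψ then (Nat.card G : ℂ) *
          (if χ ∈ blockOf Mp (χp : G → ℂ) ∩ blockOf Mq (χq : G → ℂ) then
            (χ : G → ℂ) 1 * (χ : G → ℂ) y else 0) else 0 := by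
      intro ψ
      have h3 := Cfsg.Agent.H4.irr_inner χ ψ
      unfold classInner at h3
      have h5 : ∑ g : G, (χ : G → ℂ) g * conj ((ψ : G → ℂ) g) =
          (Nat.card G : ℂ) * (if χ = ψ then 1 else 0) := by
        rw [← h3]; field_simp
      by_cases hχ : χ ∈ blockOf Mq (χq : G → ℂ)
      · by_cases hψ : ψ ∈ blockOf Mp (χp : G → ℂ)
        · simp only [if_pos hχ, if_pos hψ]
          have h6 : ∑ g : G, (χ : G → ℂ) 1 * (χ : G → ℂ) g *
              ((ψ : G → ℂ) y * conj ((ψ : G → ℂ) g)) =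
              (χ : G → ℂ) 1 * (ψ : G → ℂ) y *
                ∑ g : G, (χ : G → ℂ) g * conj ((ψ : G → ℂ) g) := by
            rw [Finset.mul_sum]
            apply Finset.sum_congr rfl
            intro g _
            ring
          rw [h6, h5]
          by_cases hχψ : χ = ψ
          · subst hχψ
            rw [if_pos rfl, if_pos rfl, if_pos ⟨hψ, hχ⟩]
            ring
          · rw [if_neg hχψ, if_neg hχψ]; ring
        · simp only [if_neg hψ, mul_zero, Finset.sum_const_zero]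
          by_cases hχψ : χ = ψ
          · subst hχψ
            rw [if_pos rfl, if_neg (fun h => hψ h.1), mul_zero]
          · rw [if_neg hχψ]
      · simp only [if_neg hχ, zero_mul, Finset.sum_const_zero]
        by_cases hχψ : χ = ψ
        · rw [if_pos hχψ, if_neg (fun h => hχ h.2), mul_zero]
        · rw [if_neg hχψ]
    rw [Finset.sum_congr rfl (fun ψ _ => h1 ψ), Finset.sum_ite_eq Finset.univ χ]
    simp
  obtain ⟨ω, hω, hω'⟩ := sum_classFunction_noPQ hp hq hpq hno (fun g => θ g * Φ g)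
    (fun g x => by simp only [hθconj, hΦconj])
    (fun g => by
      obtain ⟨ω, hω, hω'⟩ := hθint g
      exact ⟨ω * Φ g, hω.mul (hΦint g), by rw [hω', ← hQ]; ring⟩)
    (fun g hg => hΦsupp g (fun h0 => hg (by simp only [h0, mul_zero])))
  rw [hsum, ← hQ, hcard] at hω'
  have h1 : (n' : ℂ) * T = (Q : ℂ) * ω := by
    have h2 : (Q : ℂ) * ((n' : ℂ) * T) = (Q : ℂ) * ((Q : ℂ) * ω) := by
      rw [← hω']; ring
    exact mul_left_cancel₀ hQ0 h2
  have hTint : IsIntegral ℤ T := by
    rw [hT]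
    apply IsIntegral.sum
    intro χ _
    split_ifs
    · exact (irr_isIntegral χ 1).mul (irr_isIntegral χ y)
    · exact isIntegral_zero
  -- Bezout
  have hcop : IsCoprime (n' : ℤ) (Q : ℤ) := by
    rw [Nat.isCoprime_iff_coprime, hn', hQ]
    exact (Nat.Coprime.pow_left _ (Nat.coprime_ordCompl hq (Nat.card_pos (α := G)).ne')).symm
  obtain ⟨u, v, huv⟩ := hcop
  refine ⟨(u : ℂ) * ω + (v : ℂ) * T, (isIntegral_algebraMap.mul hω).add
    (isIntegral_algebraMap.mul hTint), ?_⟩
  have huvC : (u : ℂ) * (n' : ℂ) + (v : ℂ) * (Q : ℂ) = 1 := by exact_mod_cast huv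
  calc T = ((u : ℂ) * (n' : ℂ) + (v : ℂ) * (Q : ℂ)) * T := by rw [huvC, one_mul]
    _ = (u : ℂ) * ((n' : ℂ) * T) + (v : ℂ) * (Q : ℂ) * T := by ring
    _ = (Q : ℂ) * ((u : ℂ) * ω + (v : ℂ) * T) := by rw [h1]; ring

end Cfsg.Agent.H81
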