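import Mathlib
import Cfsg.Agent.H81.TypePDefs
import Cfsg.Agent.H81.CycMain
import Cfsg.Agent.S1510

/-!
# S1511 team project: glue
-/

set_option autoImplicit false

namespace Cfsg.Agent.H81.TyP

open Cfsg

universe u

/-- S1511 from the pieces. -/
theorem main_of_pieces (h1502 : StmtS1502.{u}) (hCard : Cyc.StmtCard.{u}) (hConj : StmtConj.{u})
    (hLin : StmtLin.{u}) (hTI : StmtTIDiff.{u}) (hLinEq : StmtLinEq.{u}) (hK1 : StmtK1.{u})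
    (hVals : StmtVals.{u}) (hDeg : StmtDeg.{u}) (hPack : StmtPack.{u})
    {L : Type u} [Group L] [Fintype L] (K W₁ W₂ : Subgroup L) [hK : K.Normal]
    (hKW₁ : K ⊓ W₁ = ⊥) (hKW₁' : K ⊔ W₁ = ⊤) (hW₁ : W₁ ≠ ⊥) (hW₁c : IsCyclic W₁)
    (hHall : Nat.Coprime (Nat.card W₁) W₁.index) (hW₂ : W₂ ≠ ⊥) (hW₂c : IsCyclic W₂)
    (hW₂K : W₂ ≤ K) (hC : ∀ x ∈ W₁, x ≠ 1 → K ⊓ Subgroup.centralizer ({x} : Set L) = W₂)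
    (hodd : Odd (Nat.card ↥(W₁ ⊔ W₂))) :
    ∃ (μ : (↥(W₁ ⊔ W₂) →* ℂˣ) → (L → ℂ)) (δ : (↥(W₁ ⊔ W₂) →* ℂˣ) → ℂ),
      Function.Injective μ ∧ (∀ ω, Cfsg.IsIrrCharacter L (μ ω)) ∧ (∀ ω, δ ω = 1 ∨ δ ω = -1) ∧
      (∀ ω ω' : ↥(W₁ ⊔ W₂) →* ℂˣ, (∀ w : ↥(W₁ ⊔ W₂), (w : L) ∈ W₂ → ω w = ω' w) →
        δ ω = δ ω' ∧
          Cfsg.indFun (W₁ ⊔ W₂) (fun w => (ω w : ℂ) - (ω' w : ℂ)) = δ ω • (μ ω - μ ω')) ∧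
      (∀ ω, ∀ w : ↥(W₁ ⊔ W₂), (w : L) ∉ W₂ → μ ω w = δ ω * (ω w : ℂ)) ∧
      (∀ θ : L → ℂ, Cfsg.IsIrrCharacter L θ → (∀ ω, θ ≠ μ ω) →
        ∀ w : ↥(W₁ ⊔ W₂), (w : L) ∉ W₂ → θ w = 0) ∧
      (∀ ω, ∃ n : ℤ, μ ω 1 - δ ω = n * (Nat.card W₁ : ℂ)) := by
  classical
  have hSNC : IsSelfNormalizingCyclic W₁ W₂ :=
    Cfsg.Agent.S1510.result K W₁ W₂ hKW₁ hKW₁' hW₁ hW₁c hHall hW₂ hW₂c hW₂K hC hodd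
  have hT : TypeP K W₁ W₂ := ⟨hK, hKW₁, hKW₁', hW₁, hW₁c, hHall, hW₂, hW₂c, hW₂K, hC⟩
  obtain ⟨χ, hχ⟩ := h1502 W₁ W₂ hSNC hodd
  -- two distinct nontrivial characters trivial on `W₁`
  have hR2 : 2 ≤ Nat.card (Cyc.IdxR W₁ W₂) := by
    rcases hCard W₁ W₂ hSNC hodd with ⟨-, -, h⟩ | ⟨h, -, -⟩ <;> omega
  have hRne : Nonempty (Cyc.IdxR W₁ W₂) := by
    by_contra hemp
    rw [not_nonempty_iff] at hemp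
    rw [Nat.card_of_isEmpty] at hR2
    omega
  obtain ⟨ψ₁⟩ := hRne
  obtain ⟨ψ₂, h21⟩ := Cyc.exists_ne1 hR2 ψ₁
  -- the linear characters of `L`
  have hex : ∀ φ : ↥(W₁ ⊔ W₂) →* ℂˣ, ∃ Λ : L →* ℂˣ, (φ = 1 → Λ = 1) ∧
      ((∀ w : ↥(W₁ ⊔ W₂), (w : L) ∈ W₂ → φ w = 1) → ∀ w : ↥(W₁ ⊔ W₂), Λ (w : L) = φ w) := by
    intro φ
    by_cases h1 : φ = 1
    · exact ⟨1, fun _ => rfl, fun _ w => by rw [h1]; rfl⟩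
    · by_cases h2 : ∀ w : ↥(W₁ ⊔ W₂), (w : L) ∈ W₂ → φ w = 1
      · obtain ⟨Λ, hΛ⟩ := hLin K W₁ W₂ hT φ h2
        exact ⟨Λ, fun h => absurd h h1, fun _ => hΛ⟩
      · exact ⟨1, fun h => absurd h h1, fun h => absurd h h2⟩
  choose Λ hΛ1 hΛ using hex
  have hχΛ : ∀ φ : ↥(W₁ ⊔ W₂) →* ℂˣ, (∀ w : ↥(W₁ ⊔ W₂), (w : L) ∈ W₂ → φ w = 1) →
      χ φ = fun x => ((Λ φ x : ℂˣ) : ℂ) := by
    intro φ hφ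
    by_cases h1 : φ = 1
    · rw [hΛ1 φ h1, h1, hχ.map_one]
      funext x
      simp
    · exact hLinEq W₁ W₂ hSNC χ hχ φ ψ₁.1 ψ₂.1 h1 hφ ψ₁.2.1 ψ₂.2.1
        (fun h => h21 (Subtype.ext h).symm) ψ₁.2.2 ψ₂.2.2 (Λ φ) (hΛ φ hφ)
  have hB : ∀ φ φ' : ↥(W₁ ⊔ W₂) →* ℂˣ, (∀ w : ↥(W₁ ⊔ W₂), (w : L) ∈ W₂ → φ w = 1) →
      (∀ w : ↥(W₁ ⊔ W₂), (w : L) ∈ W₂ → φ' w = 1) →
      indFun (W₁ ⊔ W₂) (fun w => (φ w : ℂ) - (φ' w : ℂ)) = χ φ - χ φ' := by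
    intro φ φ' hφ hφ'
    have h := hTI (W₁ ⊔ W₂) (W₂ : Set L)
      (fun w g hw hwV hg => hConj K W₁ W₂ hT w g hw hwV hg) (Λ φ) (Λ φ') ?_ ?_
    · rw [hχΛ φ hφ, hχΛ φ' hφ']
      have e : (fun w : ↥(W₁ ⊔ W₂) => ((φ w : ℂˣ) : ℂ) - ((φ' w : ℂˣ) : ℂ)) =
          fun w : ↥(W₁ ⊔ W₂) => ((Λ φ (w : L) : ℂˣ) : ℂ) - ((Λ φ' (w : L) : ℂˣ) : ℂ) := by
        funext w
        rw [hΛ φ hφ w, hΛ φ' hφ' w]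
      rw [e, h]
      rfl
    · intro w hw hwV
      have e1 := hΛ φ hφ ⟨w, hw⟩
      have e2 := hΛ φ' hφ' ⟨w, hw⟩
      have e3 := hφ ⟨w, hw⟩ hwV
      have e4 := hφ' ⟨w, hw⟩ hwV
      simp only at e1 e2
      rw [e1, e2, e3, e4]
    · intro hall
      have hφφ' : φ = φ' := by
        ext w
        have := hall w w.2
        rw [hΛ φ hφ w, hΛ φ' hφ' w] at this
        rw [this]
      rw [hφφ']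
  have hDI : DiffInd W₁ W₂ χ := hK1 W₁ W₂ hSNC χ hχ hB
  obtain ⟨he, hf⟩ := hVals W₁ W₂ hSNC χ hχ hDI
  have hg : ∀ ω, ∃ n : ℤ, χ ω 1 - 1 = n * (Nat.card W₁ : ℂ) := by
    intro ω
    apply hDeg W₁ W₂ (χ ω) (hχ.irr_or_neg ω) ω
    intro w hw1 hwne
    apply he ω w
    intro hw2
    have hmem : (w : L) ∈ W₁ ⊓ W₂ := ⟨hw1, hw2⟩
    rw [hSNC.2.2.1, Subgroup.mem_bot] at hmem
    exact hwne hmem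
  exact hPack W₁ W₂ χ hχ hDI he hf hg

end Cfsg.Agent.H81.TyP
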